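/-
Counting with the Cauchy-Frobenius lemma for a group acting on a projective line over the quadratic extension,
and the arithmetic of the resulting orbit sizes.
-/
import Mathlib

set_option autoImplicit false
set_option linter.unusedSectionVars false
set_option linter.unusedVariables false
set_option linter.unusedSimpArgs false
set_option linter.style.haveILetI false

namespace Cfsg.Agent.Lib.MinU3.Abs

open scoped _root_.Classical
open MulAction

universe u v w

theorem orb_card {J : Type u} {Y : Type w} [Group J] [Finite J] [Finite Y] [MulAction J Y] (y : Y) :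
    Nat.card (orbit J y) * Nat.card (stabilizer J y) = Nat.card J := by
  haveI : Fintype J := Fintype.ofFinite J
  haveI : Fintype (orbit J y) := Fintype.ofFinite _
  haveI : Fintype (stabilizer J y) := Fintype.ofFinite _
  simp only [Nat.card_eq_fintype_card]
  exact card_orbit_mul_card_stabilizer_eq_card_group J y

/-- The count. -/
theorem abs_count {J : Type u} {L : Type v} {Y : Type w} [Group J] [Finite J] [Finite L] [Finite Y]
    [MulAction J L] [MulAction J Y] [IsPretransitive J L] [Nonempty L]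
    (J₀ : Subgroup J) (E : Finset J) {q n f₁ : ℕ} (hq : 1 ≤ q)
    (hL : Nat.card L = q + 1) (hY : Nat.card Y = q ^ 2 - q)
    (hn : Nat.card J = Nat.card J₀ * n) (hE : E.card = Nat.card J₀ * f₁)
    (hJ₀Y : ∀ g ∈ J₀, ∀ y : Y, g • y = y)
    (h2 : ∀ g : J, g ∉ J₀ → Nat.card (fixedBy L g) + Nat.card (fixedBy Y g) ≤ 2)
    (h1 : ∀ g ∈ E, g ∉ J₀ ∧ Nat.card (fixedBy L g) + Nat.card (fixedBy Y g) ≤ 1) :
    ∃ m : Multiset ℕ, m.sum = q ^ 2 - q ∧ (∀ s ∈ m, s ∣ n ∧ 0 < s) ∧
      (Multiset.card m + 1) * n + f₁ + 2 ≤ q ^ 2 + 1 + 2 * n := by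
  haveI : Fintype J := Fintype.ofFinite J
  haveI : Fintype L := Fintype.ofFinite L
  haveI : Fintype Y := Fintype.ofFinite Y
  haveI : Fintype (orbitRel.Quotient J Y) := Fintype.ofFinite _
  haveI : Fintype (orbitRel.Quotient J L) := Fintype.ofFinite _
  have hj₀ : 0 < Nat.card J₀ := Nat.card_pos
  set j₀ := Nat.card J₀ with hj₀def
  -- orbits on `L`
  have hbL := MulAction.sum_card_fixedBy_eq_card_orbits_mul_card_group J L
  have hbY := MulAction.sum_card_fixedBy_eq_card_orbits_mul_card_group J Y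
  have hqL : Fintype.card (orbitRel.Quotient J L) = 1 := by
    haveI : Subsingleton (orbitRel.Quotient J L) := by
      constructor
      intro a b
      induction a using Quotient.inductionOn
      induction b using Quotient.inductionOn
      rename_i x y
      apply Quotient.sound
      show x ∈ orbit J y
      exact MulAction.mem_orbit_iff.mpr (exists_smul_eq J y x)
    exact Fintype.card_eq_one_iff.mpr ⟨Quotient.mk'' (Classical.arbitrary L), fun y => Subsingleton.elim _ _⟩
  rw [hqL, one_mul] at hbL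
  set T := orbitRel.Quotient J Y with hT
  set k := Nat.card T with hk
  have hk1 : ∀ inst : Fintype (Quotient (orbitRel J Y)), @Fintype.card _ inst = k :=
    fun inst => (@Nat.card_eq_fintype_card _ inst).symm
  rw [hk1] at hbY
  have hJ : Fintype.card J = j₀ * n := by rw [← Nat.card_eq_fintype_card, hn]
  -- pointwise
  have hpt : ∀ g : J, Fintype.card (fixedBy L g) + Fintype.card (fixedBy Y g) + (if g ∈ E then 1 else 0) +
      (if g ∈ J₀ then 2 else 0) ≤ 2 + (if g ∈ J₀ then q ^ 2 + 1 else 0) := by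
    intro g
    have e1 : Fintype.card (fixedBy L g) = Nat.card (fixedBy L g) := (Nat.card_eq_fintype_card).symm
    have e2 : Fintype.card (fixedBy Y g) = Nat.card (fixedBy Y g) := (Nat.card_eq_fintype_card).symm
    rw [e1, e2]
    by_cases hg : g ∈ J₀
    · have hne : g ∉ E := fun hc => (h1 g hc).1 hg
      have a1 : Nat.card (fixedBy L g) ≤ q + 1 := by
        rw [← hL]
        exact Nat.card_le_card_of_injective (fun x => x.1) Subtype.val_injective
      have a2 : Nat.card (fixedBy Y g) ≤ q ^ 2 - q := by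
        rw [← hY]
        exact Nat.card_le_card_of_injective (fun x => x.1) Subtype.val_injective
      have a3 : q ≤ q ^ 2 := by nlinarith
      simp only [hg, hne, if_true, if_false]
      omega
    · by_cases he : g ∈ E
      · have := (h1 g he).2
        simp only [hg, he, if_true, if_false]
        omega
      · have := h2 g hg
        simp only [hg, he, if_false]
        omega
  have hsum := Finset.sum_le_sum (fun g (_ : g ∈ (Finset.univ : Finset J)) => hpt g)
  have hcJ₀ : (Finset.univ.filter fun g : J => g ∈ J₀).card = j₀ := by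
    rw [hj₀def, Nat.card_eq_fintype_card, Fintype.card_subtype]
  have hcE : (Finset.univ.filter fun g : J => g ∈ E) = E := by
    ext g
    simp
  simp only [Finset.sum_add_distrib, Finset.sum_ite, Finset.sum_const, Finset.sum_const_zero, hcJ₀, hcE, smul_eq_mul,
    add_zero, Finset.card_univ, hbL, hbY, mul_one, hE, hJ] at hsum
  simp only [mul_zero, add_zero] at hsum
  have hmain : j₀ * ((k + 1) * n + f₁ + 2) ≤ j₀ * (q ^ 2 + 1 + 2 * n) := by
    have e1 : j₀ * ((k + 1) * n + f₁ + 2) = j₀ * n + k * (j₀ * n) + j₀ * f₁ + j₀ * 2 := by ring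
    have e2 : j₀ * (q ^ 2 + 1 + 2 * n) = j₀ * n * 2 + (j₀ * q ^ 2 + j₀) := by ring
    rw [e1, e2]
    exact hsum
  have hmain2 := Nat.le_of_mul_le_mul_left hmain hj₀
  -- the orbit sizes
  refine ⟨(Finset.univ : Finset T).val.map fun O => Nat.card O.orbit, ?_, ?_, ?_⟩
  · rw [← hY, Nat.card_congr (selfEquivSigmaOrbits' J Y), Nat.card_sigma]
    rfl
  · intro s hs
    rw [Multiset.mem_map] at hs
    obtain ⟨O, -, rfl⟩ := hs
    induction O using Quotient.inductionOn' with
    | h y =>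
      have e1 : orbitRel.Quotient.orbit (Quotient.mk'' y : orbitRel.Quotient J Y) = orbit J y :=
        orbitRel.Quotient.orbit_mk y
      have e2 : Nat.card (orbitRel.Quotient.orbit (Quotient.mk'' y : orbitRel.Quotient J Y)) =
          Nat.card (orbit J y) := by
        rw [e1]
      rw [e2]
      have h3 := orb_card (J := J) y
      rw [hn] at h3
      have h4 : j₀ ∣ Nat.card (stabilizer J y) :=
        Subgroup.card_dvd_of_le (H := J₀) (K := stabilizer J y) (fun g hg => hJ₀Y g hg y)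
      obtain ⟨t, ht⟩ := h4
      rw [ht] at h3
      have h5 : Nat.card (orbit J y) * t = n := by
        apply Nat.eq_of_mul_eq_mul_left hj₀
        rw [← h3]
        ring
      haveI : Nonempty (orbit J y) := ⟨⟨y, mem_orbit_self y⟩⟩
      exact ⟨⟨t, h5.symm⟩, Nat.card_pos⟩
  · have : Multiset.card ((Finset.univ : Finset T).val.map fun O => Nat.card O.orbit) = k := by
      rw [Multiset.card_map, hk, Nat.card_eq_fintype_card]
      rfl
    rw [this]
    exact hmain2

section arith

variable (m : Multiset ℕ) {n : ℕ}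

theorem split_sum : m.sum = Multiset.card (m.filter (· = n)) * n + (m.filter (· ≠ n)).sum := by
  have h := Multiset.filter_add_not (· = n) m
  conv_lhs => rw [← h]
  rw [Multiset.sum_add]
  congr 1
  have : m.filter (· = n) = Multiset.replicate (Multiset.card (m.filter (· = n))) n := by
    rw [Multiset.eq_replicate]
    refine ⟨rfl, fun b hb => (Multiset.mem_filter.mp hb).2⟩
  rw [this, Multiset.sum_replicate, smul_eq_mul, Multiset.card_replicate]

theorem split_card : Multiset.card m = Multiset.card (m.filter (· = n)) + Multiset.card (m.filter (· ≠ n)) := by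
  have h := Multiset.filter_add_not (· = n) m
  conv_lhs => rw [← h]
  rw [Multiset.card_add]

theorem two_mul_sum_le {M : Multiset ℕ} (hM : ∀ s ∈ M, 2 * s ≤ n) : 2 * M.sum ≤ Multiset.card M * n := by
  induction M using Multiset.induction_on with
  | empty => simp
  | cons a M ih =>
    have h1 := hM a (Multiset.mem_cons_self a M)
    have h2 := ih (fun s hs => hM s (Multiset.mem_cons_of_mem hs))
    rw [Multiset.sum_cons, Multiset.card_cons]
    nlinarith

theorem two_le_of_dvd {s : ℕ} (hn : 0 < n) (h : s ∣ n) (hne : s ≠ n) : 2 * s ≤ n := by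
  obtain ⟨t, ht⟩ := h
  have ht0 : t ≠ 0 := by
    rintro rfl
    omega
  have ht1 : t ≠ 1 := by
    rintro rfl
    omega
  have : 2 ≤ t := by omega
  rw [ht]
  nlinarith

theorem W_j0 {q cb e r : ℕ} (hcb : 0 < cb) (he : 1 ≤ e) (h3 : 3 * e < q + 1)
    (hid : r * ((q + 1) * cb) = q * (cb * e)) : False := by
  have h1 : r * (q + 1) = q * e := by
    apply Nat.eq_of_mul_eq_mul_left hcb
    linarith
  have h2 : (q + 1) ∣ q * e := ⟨r, by linarith⟩
  have hc : Nat.Coprime (q + 1) q := by
    rw [Nat.coprime_comm]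
    simp
  have h3' := hc.dvd_of_dvd_mul_left h2
  have := Nat.le_of_dvd he h3'
  omega

theorem W_j1 {q cb e r s : ℕ} (hcb : 0 < cb) (h3 : 3 * e < q + 1) (hr : r + 1 ≤ e) (hss : 2 * s ≤ (q + 1) * cb)
    (hid : r * ((q + 1) * cb) + s = q * (cb * e)) : False := by
  obtain ⟨x, rfl⟩ : ∃ x, e = r + 1 + x := ⟨e - (r + 1), by omega⟩
  have e1 : s + r * cb = cb * q + cb * (q * x) := by linarith
  have h9 : cb * (2 * q + 2 * (q * x)) ≤ cb * (q + 1 + 2 * r) := by linarith
  have h10 := Nat.le_of_mul_le_mul_left h9 hcb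
  have h11 := Nat.zero_le (q * x)
  omega

theorem W_half {q cb e s t n : ℕ} (hcb : 0 < cb) (hn : n = (q + 1) * cb) (h3 : 3 * e < q + 1)
    (hs : s ∣ n) (hs0 : 0 < s) (hs2 : 2 * s ≤ n) (ht : t ∣ n) (h3s : n < 3 * s)
    (hid : s + t + cb * e = cb * (q + 1)) : (q + 1 - 2 * e) ∣ 4 * e := by
  obtain ⟨u, hu⟩ := hs
  have hu2 : u = 2 := by
    have h1 : 2 ≤ u := by
      by_contra hc
      have : u = 0 ∨ u = 1 := by omega
      rcases this with rfl | rfl
      · simp at hu
        subst hu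
        rw [hn] at hs2
        have : 0 < (q + 1) * cb := by positivity
        omega
      · omega
    have h2 : u < 3 := by
      by_contra hc
      push Not at hc
      have : s * 3 ≤ s * u := Nat.mul_le_mul_left _ hc
      omega
    omega
  subst hu2
  obtain ⟨b, hb⟩ := ht
  have h2t : 2 * t + 2 * cb * e = cb * (q + 1) := by
    have : 2 * s = cb * (q + 1) := by linarith
    linarith
  obtain ⟨y, hy⟩ : ∃ y, q + 1 = 2 * e + y := ⟨q + 1 - 2 * e, by omega⟩
  have hyy : q + 1 - 2 * e = y := by omega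
  rw [hyy]
  rw [hy] at h2t hn
  have h2t' : 2 * t = cb * y := by linarith
  have h5 : cb * (2 * (2 * e + y)) = cb * (y * b) := by
    have h6 : 2 * n = 2 * t * b := by
      rw [hb]
      ring
    rw [hn, h2t'] at h6
    linarith
  have h6 := Nat.eq_of_mul_eq_mul_left hcb h5
  have h7 : y ∣ 4 * e + 2 * y := ⟨b, by linarith⟩
  exact (Nat.dvd_add_iff_left (Dvd.intro_left 2 rfl)).mpr h7

theorem W_j2 {q cb e r s₁ s₂ n : ℕ} (hcb : 0 < cb) (hn : n = (q + 1) * cb) (h3 : 3 * e < q + 1) (hr : r + 1 ≤ e)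
    (hs₁ : s₁ ∣ n) (hs₁0 : 0 < s₁) (hs₁2 : 2 * s₁ ≤ n) (hs₂ : s₂ ∣ n) (hs₂0 : 0 < s₂) (hs₂2 : 2 * s₂ ≤ n)
    (hid : r * ((q + 1) * cb) + (s₁ + s₂) = q * (cb * e)) : (q + 1 - 2 * e) ∣ 4 * e := by
  obtain ⟨x, hx⟩ : ∃ x, e = r + 1 + x := ⟨e - (r + 1), by omega⟩
  have hid3 : s₁ + s₂ + cb * e = cb * (q + 1) + (q + 1) * cb * x := by
    rw [hx] at hid ⊢
    linarith
  have hx0 : x = 0 := by
    by_contra hc
    have hx1 : 1 ≤ x := by omega
    have h1 : s₁ + s₂ ≤ n := by omega
    rw [hn] at h1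
    have h2 : (q + 1) * cb * 1 ≤ (q + 1) * cb * x := Nat.mul_le_mul_left _ hx1
    have h3' : cb * (q + 1) ≤ cb * e := by linarith
    have h4 := Nat.le_of_mul_le_mul_left h3' hcb
    omega
  rw [hx0, mul_zero, add_zero] at hid3
  by_cases h31 : n < 3 * s₁
  · exact W_half hcb hn h3 hs₁ hs₁0 hs₁2 hs₂ h31 hid3
  · by_cases h32 : n < 3 * s₂
    · exact W_half hcb hn h3 hs₂ hs₂0 hs₂2 hs₁ h32 (by linarith)
    · exfalso
      push Not at h31 h32
      rw [hn] at h31 h32
      have h9 : cb * (3 * (q + 1)) ≤ cb * (2 * (q + 1) + 3 * e) := by linarith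
      have h10 := Nat.le_of_mul_le_mul_left h9 hcb
      omega

/-- The arithmetic for a group with no elements with a unique fixed point. -/
theorem W_arith {q cb e : ℕ} (hq : 2 ≤ q) (hsum : m.sum = q ^ 2 - q) (hm : ∀ s ∈ m, s ∣ n ∧ 0 < s)
    (hn : n = (q + 1) * cb) (hce : cb * e = q - 1) (he : 1 ≤ e)
    (hcount : (Multiset.card m + 1) * n + 2 ≤ q ^ 2 + 1 + 2 * n) (h3 : 3 * e < q + 1) :
    (q + 1 - 2 * e) ∣ 4 * e := by
  have hcb : 0 < cb := by
    rcases Nat.eq_zero_or_pos cb with h | h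
    · rw [h, zero_mul] at hce
      omega
    · exact h
  have hn0 : 0 < n := by
    rw [hn]
    positivity
  have hqe : q = cb * e + 1 := by omega
  have hsum' : m.sum + q = q ^ 2 := by
    have : q ≤ q ^ 2 := by nlinarith
    omega
  have hS := split_sum m (n := n)
  have hC := split_card m (n := n)
  set r := Multiset.card (m.filter (· = n)) with hr
  set NR := m.filter (· ≠ n) with hNR
  set j := Multiset.card NR with hj
  have hNR2 : ∀ s ∈ NR, s ∣ n ∧ 0 < s ∧ 2 * s ≤ n := by
    intro s hs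
    have h1 := Multiset.mem_filter.mp hs
    exact ⟨(hm s h1.1).1, (hm s h1.1).2, two_le_of_dvd hn0 (hm s h1.1).1 h1.2⟩
  have hle := two_mul_sum_le (n := n) (M := NR) (fun s hs => (hNR2 s hs).2.2)
  rw [← hj] at hle
  -- the number of orbits
  have hq2 : q ^ 2 = (q + 1) * (cb * e) + 1 := by
    rw [hqe]
    ring
  have hk : Multiset.card m ≤ e + 1 := by
    have h1 : Multiset.card m * n ≤ (e + 1) * n := by
      have h3 : (q + 1) * (cb * e) = e * n := by
        rw [hn]
        ring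
      rw [h3] at hq2
      linarith
    exact Nat.le_of_mul_le_mul_right h1 hn0
  rw [hC] at hk
  rw [hS] at hsum'
  have hid2 : r * ((q + 1) * cb) + NR.sum = q * (cb * e) := by
    have : q ^ 2 = q * (cb * e) + q := by
      calc q ^ 2 = q * q := sq q
        _ = q * (cb * e + 1) := by rw [← hqe]
        _ = _ := by ring
    rw [← hn]
    omega
  clear_value r NR
  -- `j ≤ 2`
  have hj2 : j ≤ 2 := by
    by_contra hcon
    push Not at hcon
    have h5 : cb * (2 * (q * e)) ≤ cb * ((2 * r + j) * (q + 1)) := by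
      rw [hn] at hle
      linarith
    have h4 := Nat.le_of_mul_le_mul_left h5 hcb
    have h7 : 2 * r + j + j ≤ 2 * e + 2 := by omega
    have h8 : (2 * r + j + j) * (q + 1) ≤ (2 * e + 2) * (q + 1) := Nat.mul_le_mul_right _ h7
    obtain ⟨j', hj'⟩ : ∃ j', j = j' + 3 := ⟨j - 3, by omega⟩
    rw [hj'] at h4 h8
    have h9 : 0 ≤ j' * (q + 1) := Nat.zero_le _
    nlinarith
  interval_cases hjj : j
  · have hz : NR = 0 := Multiset.card_eq_zero.mp hj.symm
    rw [hz, Multiset.sum_zero, add_zero] at hid2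
    exact (W_j0 hcb he h3 hid2).elim
  · obtain ⟨s, hs⟩ := Multiset.card_eq_one.mp hj.symm
    have hss := hNR2 s (by rw [hs]; simp)
    rw [hs, Multiset.sum_singleton] at hid2
    rw [hn] at hss
    have hr2 : r + 1 ≤ e := by
      by_contra hcon
      have hre : r = e := by omega
      rw [hre] at hid2
      have h5 : 0 < s := hss.2.1
      have h6 := Nat.zero_le (e * cb)
      linarith
    exact (W_j1 hcb h3 hr2 hss.2.2 hid2).elim
  · obtain ⟨s₁, s₂, hs⟩ := Multiset.card_eq_two.mp hj.symm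
    have hs₁ := hNR2 s₁ (by rw [hs]; simp)
    have hs₂ := hNR2 s₂ (by rw [hs]; simp)
    rw [hs] at hid2
    have hsm : (({s₁, s₂} : Multiset ℕ)).sum = s₁ + s₂ := by simp
    rw [hsm] at hid2
    exact W_j2 hcb hn h3 (by omega) hs₁.1 hs₁.2.1 hs₁.2.2 hs₂.1 hs₂.2.1 hs₂.2.2 hid2

theorem L_j0 {q r v : ℕ} (hq : 2 ≤ q) (h : r * ((q + 1) * v) + q = q ^ 2) : False := by
  obtain ⟨t, rfl⟩ : ∃ t, q = t + 2 := ⟨q - 2, by omega⟩
  have h6 : (t + 3) ∣ (t + 3) * t + 2 := ⟨r * v, by nlinarith⟩
  have h8 : (t + 3) ∣ 2 := (Nat.dvd_add_iff_right (Dvd.intro _ rfl)).mpr h6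
  have := Nat.le_of_dvd (by norm_num) h8
  omega

theorem L_j2 {q n r j' a' S : ℕ} (ha' : 1 ≤ a') (hc : (r + (j' + 2) + 1) * n + (q + 1) * a' + 2 ≤ q ^ 2 + 1 + 2 * n)
    (hS : 2 * S ≤ (j' + 2) * n) (hid : r * n + S + q = q ^ 2) : False := by
  have h1 : q + 1 ≤ (q + 1) * a' := Nat.le_mul_of_pos_right _ ha'
  have h2 := Nat.zero_le (j' * n)
  nlinarith

theorem L_j1 {q n r a' τ w s b : ℕ} (hq : q = (a' + 1) * w) (hq2 : 2 ≤ q) (ha' : 1 ≤ a') (hw : 2 ≤ w)
    (hτ : 1 ≤ τ) (hτa : τ ≤ a')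
    (hn : n = (q + 1) * ((a' + 1) * τ)) (hb : n = s * b)
    (hc : (r + 1 + 1) * n + (q + 1) * a' + 2 ≤ q ^ 2 + 1 + 2 * n)
    (hid : r * n + s + q = q ^ 2) :
    (Even q → a' = 1) ∧ (a' + 1 - 2) * (w - 2) ≤ 1 := by
  have hn0 : 0 < n := by
    rw [hn]
    positivity
  have hb0 : 0 < b := by
    rcases Nat.eq_zero_or_pos b with h | h
    · rw [h, mul_zero] at hb
      omega
    · exact h
  -- `(q + 1) ∣ 2 b`
  have hqq : (q + 1) ∣ 2 * b := by
    obtain ⟨t, ht⟩ : ∃ t, q = t + 2 := ⟨q - 2, by omega⟩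
    obtain ⟨v, hv⟩ : ∃ v, n = (q + 1) * v := ⟨_, hn⟩
    have h1 : s * b + (q + 1) * (r * v * b) + q * b = q ^ 2 * b := by
      have : (r * n + s + q) * b = q ^ 2 * b := by rw [hid]
      rw [hv] at this
      linarith
    rw [← hb, hv] at h1
    have h2 : (q + 1) * (v + r * v * b) = (q + 1) * (t * b) + 2 * b := by
      rw [ht] at h1 ⊢
      nlinarith
    have h3 : (q + 1) ∣ (q + 1) * (t * b) + 2 * b := ⟨_, h2.symm⟩
    exact (Nat.dvd_add_iff_right (Dvd.intro _ rfl)).mpr h3
  -- lower bound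
  have hlow : (a' + 1) * (q + 1) ≤ s + 2 * q := by
    have h3 : r * n + (q + 1) * a' + 1 ≤ q ^ 2 := by linarith
    linarith
  obtain ⟨b', hb'⟩ := hqq
  have hb'0 : 0 < b' := by
    rcases Nat.eq_zero_or_pos b' with h | h
    · rw [h, mul_zero] at hb'
      omega
    · exact h
  have hbs : b' * s = 2 * ((a' + 1) * τ) := by
    have h1 : (q + 1) * (b' * s) = (q + 1) * (2 * ((a' + 1) * τ)) := by
      have h2 : 2 * n = 2 * (s * b) := by rw [← hb]
      rw [hn] at h2
      calc (q + 1) * (b' * s) = (2 * b) * s := by rw [hb']; ring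
        _ = 2 * (s * b) := by ring
        _ = 2 * ((q + 1) * ((a' + 1) * τ)) := h2.symm
        _ = _ := by ring
    exact Nat.eq_of_mul_eq_mul_left (by omega) h1
  have hsle : s ≤ 2 * ((a' + 1) * τ) := by
    rw [← hbs]
    exact Nat.le_mul_of_pos_left _ hb'0
  have h2q : 2 * q = (a' + 1) * (2 * w) := by
    rw [hq]
    ring
  constructor
  · intro hev
    have hodd : Odd (q + 1) := hev.add_one
    have hb'e : 2 ∣ b' := by
      have h1 : 2 ∣ (q + 1) * b' := by
        rw [← hb']
        exact Dvd.intro _ rfl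
      have hc : Nat.Coprime 2 (q + 1) := Nat.coprime_two_left.mpr hodd
      exact hc.dvd_of_dvd_mul_left h1
    obtain ⟨b'', rfl⟩ := hb'e
    have hb''0 : 0 < b'' := by
      rcases Nat.eq_zero_or_pos b'' with h | h
      · rw [h] at hb'0
        simp at hb'0
      · exact h
    have hbs2 : b'' * s = (a' + 1) * τ := by
      have : 2 * (b'' * s) = 2 * ((a' + 1) * τ) := by
        rw [← hbs]
        ring
      omega
    have hsle2 : s ≤ (a' + 1) * τ := by
      rw [← hbs2]
      exact Nat.le_mul_of_pos_left _ hb''0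
    have h2 : (a' + 1) * (q + 1) ≤ (a' + 1) * (τ + 2 * w) := by linarith
    have h3 := Nat.le_of_mul_le_mul_left h2 (by omega)
    rw [hq] at h3
    -- `(a' - 1)(w - 1) ≤ 0`
    by_contra hne
    have ha2 : 2 ≤ a' := by omega
    obtain ⟨a'', rfl⟩ : ∃ a'', a' = a'' + 2 := ⟨a' - 2, by omega⟩
    obtain ⟨w', rfl⟩ : ∃ w', w = w' + 2 := ⟨w - 2, by omega⟩
    have h5 : a'' * w' ≥ 0 := Nat.zero_le _
    nlinarith
  · have h2 : (a' + 1) * (q + 1) ≤ (a' + 1) * (2 * τ + 2 * w) := by linarith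
    have h3 := Nat.le_of_mul_le_mul_left h2 (by omega)
    rw [hq] at h3
    obtain ⟨a'', rfl⟩ : ∃ a'', a' = a'' + 1 := ⟨a' - 1, by omega⟩
    obtain ⟨w', rfl⟩ : ∃ w', w = w' + 2 := ⟨w - 2, by omega⟩
    have e1 : a'' + 1 + 1 - 2 = a'' := by omega
    have e2 : w' + 2 - 2 = w' := by omega
    rw [e1, e2]
    nlinarith

/-- The arithmetic for a group with many elements with a unique fixed point. -/
theorem L_arith {q a w τ : ℕ} (hq : q = a * w) (ha : 2 ≤ a) (hw : 2 ≤ w) (hτ : 1 ≤ τ) (hτa : τ + 1 ≤ a)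
    (hsum : m.sum = q ^ 2 - q) (hm : ∀ s ∈ m, s ∣ n ∧ 0 < s)
    (hn : n = (q + 1) * (a * τ))
    (hcount : (Multiset.card m + 1) * n + (q + 1) * (a - 1) + 2 ≤ q ^ 2 + 1 + 2 * n) :
    (Even q → a = 2) ∧ (a - 2) * (w - 2) ≤ 1 := by
  have hq4 : 4 ≤ q := by
    rw [hq]
    nlinarith
  have hn0 : 0 < n := by
    rw [hn]
    have : 0 < a * τ := by positivity
    positivity
  obtain ⟨a', rfl⟩ : ∃ a', a = a' + 1 := ⟨a - 1, by omega⟩
  have e1 : a' + 1 - 1 = a' := by omega
  rw [e1] at hcount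
  have hsum' : m.sum + q = q ^ 2 := by
    have : q ≤ q ^ 2 := by nlinarith
    omega
  have hS := split_sum m (n := n)
  have hC := split_card m (n := n)
  set r := Multiset.card (m.filter (· = n)) with hr
  set NR := m.filter (· ≠ n) with hNR
  set j := Multiset.card NR with hj
  have hNR2 : ∀ s ∈ NR, s ∣ n ∧ 0 < s ∧ 2 * s ≤ n := by
    intro s hs
    have h1 := Multiset.mem_filter.mp hs
    exact ⟨(hm s h1.1).1, (hm s h1.1).2, two_le_of_dvd hn0 (hm s h1.1).1 h1.2⟩
  have hle := two_mul_sum_le (n := n) (M := NR) (fun s hs => (hNR2 s hs).2.2)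
  rw [← hj] at hle
  rw [hC] at hcount
  rw [hS] at hsum'
  clear_value r NR
  have hj1 : j ≤ 1 := by
    by_contra hcon
    push Not at hcon
    obtain ⟨j', hj'⟩ : ∃ j', j = j' + 2 := ⟨j - 2, by omega⟩
    rw [hj'] at hcount hle
    exact L_j2 (by omega) hcount hle hsum'
  interval_cases hjj : j
  · exfalso
    have hz : NR = 0 := Multiset.card_eq_zero.mp hj.symm
    rw [hz, Multiset.sum_zero, add_zero, hn] at hsum'
    exact L_j0 (by omega) hsum'
  · obtain ⟨s, hs⟩ := Multiset.card_eq_one.mp hj.symm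
    have hss := hNR2 s (by rw [hs]; simp)
    rw [hs, Multiset.sum_singleton] at hsum'
    obtain ⟨b, hb⟩ := hss.1
    obtain ⟨h1, h2⟩ := L_j1 hq (by omega) (by omega) hw hτ (by omega) hn hb hcount hsum'
    exact ⟨fun he => by have := h1 he; omega, h2⟩

end arith

end Cfsg.Agent.Lib.MinU3.Abs
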