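/-
Frames in a three-dimensional hermitian space, the unipotent radical of the stabilizer of an isotropic point in
coordinates, and the action of the stabilizer on it.
-/
import Mathlib
import Cfsg.Agent.Lib.MinU.Eich

set_option autoImplicit false
set_option linter.unusedSectionVars false
set_option linter.unusedVariables false
set_option linter.unusedSimpArgs false
set_option linter.style.haveILetI false

namespace Cfsg.Agent.Lib.MinU3.Basic

open Module Cfsg.Agent.Lib.MinU.Four Cfsg.Agent.Lib.MinU.Fld Cfsg.Agent.Lib.MinU.Sp Cfsg.Agent.Lib.MinU.Eich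
open Cfsg.Agent.Lib.HermCount.Field
open Cfsg.Agent.Lib.Classical.HermBasic Cfsg.Agent.Lib.Classical.HermElem Cfsg.Agent.Lib.Classical.HermGen
open Cfsg.Agent.Lib.Classical.HermBridge
open scoped _root_.Classical

attribute [-simp] frobHom_apply

universe u v

variable {F : Type u} [Field F] {σ : F →+* F}
variable {V : Type v} [AddCommGroup V] [Module F V] {h : V → V → F}

/-- A frame: a hyperbolic pair and a non-isotropic vector orthogonal to it. -/
structure Fr (h : V → V → F) (x f c : V) : Prop where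
  hp : IsHP h x f
  cx : h c x = 0
  cf : h c f = 0
  cc : h c c ≠ 0

namespace Fr

variable {x f c : V} (S : HForm σ h)

include S

theorem xf (H : Fr h x f c) : h x f = 1 := H.hp.ef S
theorem xc (H : Fr h x f c) : h x c = 0 := S.zero_symm H.cx
theorem fc (H : Fr h x f c) : h f c = 0 := S.zero_symm H.cf
theorem ne_x (H : Fr h x f c) : x ≠ 0 := H.hp.ne_left S
theorem ne_f (H : Fr h x f c) : f ≠ 0 := H.hp.ne_right S
theorem ne_c (H : Fr h x f c) : c ≠ 0 := by
  rintro rfl
  exact H.cc (S.zero_left _)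

/-- Coordinates. -/
theorem decomp [FiniteDimensional F V] (hV : finrank F V = 3) (H : Fr h x f c) (v : V) :
    v = h v f • x + h v x • f + (h v c / h c c) • c := by
  have hfr := finrank_perp2 S H.hp
  have h1 : finrank F (perp2 S x f) = 1 := by omega
  have hcm : c ∈ perp2 S x f := ⟨H.cx, H.cf⟩
  have hne : (⟨c, hcm⟩ : perp2 S x f) ≠ 0 := by
    intro hc
    exact H.ne_c S (congrArg Subtype.val hc)
  obtain ⟨a, ha⟩ := (finrank_eq_one_iff_of_nonzero' _ hne).1 h1 ⟨proj x f v h, proj_mem S H.hp v⟩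
  have h2 : a • c = proj x f v h := congrArg Subtype.val ha
  have h3 : h (proj x f v h) c = h v c := by
    simp only [proj, S.sub_left, S.smul_left, H.xc S, H.fc S]
    ring
  rw [← h2, S.smul_left] at h3
  have h4 : a = h v c / h c c := by
    have := H.cc
    field_simp
    exact h3
  rw [← h4, h2]
  have := Cfsg.Agent.Lib.Classical.HermBasic.decomp (h := h) (e := x) (f := f) v
  calc v = _ := this
    _ = _ := by abel

/-- Vectors orthogonal to `c`. -/
theorem decomp_perp [FiniteDimensional F V] (hV : finrank F V = 3) (H : Fr h x f c) {v : V} (hv : h v c = 0) :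
    v = h v f • x + h v x • f := by
  have := H.decomp S hV v
  rw [hv, zero_div, zero_smul, add_zero] at this
  exact this

/-- Vectors orthogonal to `x` -/
theorem decomp_perp_x [FiniteDimensional F V] (hV : finrank F V = 3) (H : Fr h x f c) {v : V} (hv : h v x = 0) :
    v = h v f • x + (h v c / h c c) • c := by
  have := H.decomp S hV v
  rw [hv, zero_smul, add_zero] at this
  exact this

/-- Two linear equivalences agreeing on a frame are equal. -/
theorem ext [FiniteDimensional F V] (hV : finrank F V = 3) (H : Fr h x f c) {a b : V ≃ₗ[F] V} (h1 : a x = b x)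
    (h2 : a f = b f) (h3 : a c = b c) : a = b := by
  ext v
  rw [H.decomp S hV v]
  simp only [map_add, map_smul, h1, h2, h3]

omit S in
theorem map {g : V ≃ₗ[F] V} (hg : g ∈ uGroup h) (H : Fr h x f c) : Fr h (g x) (g f) (g c) :=
  ⟨⟨by rw [hg, H.hp.ee], by rw [hg, H.hp.ff], by rw [hg, H.hp.fe]⟩, by rw [hg, H.cx], by rw [hg, H.cf],
    by rw [hg]; exact H.cc⟩

theorem smul_c (H : Fr h x f c) {a : F} (ha : a ≠ 0) : Fr h x f (a • c) := by
  have hs : σ a ≠ 0 := by simpa using ha
  refine ⟨H.hp, ?_, ?_, ?_⟩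
  · rw [S.smul_left, H.cx, mul_zero]
  · rw [S.smul_left, H.cf, mul_zero]
  · rw [S.smul_left, S.smul_right]
    exact mul_ne_zero ha (mul_ne_zero hs H.cc)



/-- An isotropic vector orthogonal to `x` is proportional to it. -/
theorem eq_smul_of_perp [FiniteDimensional F V] (hV : finrank F V = 3) (H : Fr h x f c) {y : V} (hyx : h y x = 0)
    (hyy : h y y = 0) : y = h y f • x := by
  have h1 := H.decomp_perp_x S hV hyx
  set γ := h y c / h c c with hγ
  have h2 : h y y = γ * σ γ * h c c := by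
    conv_lhs => rw [h1]
    simp only [S.add_left, S.add_right, S.smul_left, S.smul_right, H.hp.ee, H.xc S, H.cx]
    ring
  have hs : γ = 0 := by
    rw [hyy] at h2
    have h3 := (mul_eq_zero.mp h2.symm).resolve_right H.cc
    rcases mul_eq_zero.mp h3 with h4 | h4
    · exact h4
    · simpa using h4
  rw [hs, zero_smul, add_zero] at h1
  exact h1

/-- The values of the Eichler elements on a frame. -/
theorem val_iff (H : Fr h x f c) {ξ α : F} : Val σ h x (ξ • c) α ↔ α + σ α + ξ * σ ξ * h c c = 0 := by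
  constructor
  · intro hv
    have := hv.ha
    simp only [S.smul_left, S.smul_right] at this
    linear_combination this
  · intro hv
    refine ⟨H.hp.ee, by rw [S.smul_left, H.cx, mul_zero], ?_⟩
    simp only [S.smul_left, S.smul_right]
    linear_combination hv

variable [FiniteDimensional F V]

theorem E_x (H : Fr h x f c) {w : V} {a : F} (hv : Val σ h x w a) : (E S x w a).1 x = x :=
  (E_spec hv).apply_center S

theorem E_f (H : Fr h x f c) {ξ α : F} (hv : Val σ h x (ξ • c) α) :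
    (E S x (ξ • c) α).1 f = f + ξ • c + α • x := by
  rw [E_apply hv, H.hp.fe, S.smul_right, H.fc S, mul_zero, zero_smul, one_smul, mul_one, sub_zero]

theorem E_c (H : Fr h x f c) {ξ α : F} (hv : Val σ h x (ξ • c) α) :
    (E S x (ξ • c) α).1 c = c - (σ ξ * h c c) • x := by
  rw [E_apply hv, H.cx, S.smul_right, zero_smul, mul_zero, zero_smul, add_zero, add_zero]

theorem E_z {ℓ : F} (hv : Val σ h x 0 ℓ) (v : V) :
    (E S x 0 ℓ).1 v = v + (ℓ * h v x) • x := by
  rw [E_apply hv, S.zero_right, zero_smul, smul_zero, add_zero, sub_zero]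

/-- Every element fixing `x` is an Eichler element. -/
theorem exists_E (hσ : Invol σ) [Finite F] (hV : finrank F V = 3) (H : Fr h x f c) {g : V ≃ₗ[F] V} (hg : g ∈ suGroup h)
    (hgx : g x = x) : ∃ ξ α : F, ∃ hv : Val σ h x (ξ • c) α, (E S x (ξ • c) α).1 = g := by
  have hiso : ∀ a b, h (g a) (g b) = h a b := fun a b => (mem_suGroup.mp hg).1 a b
  have hc := H.cc
  set ξ := h (g f) c / h c c with hξ
  set τ := h (g f) f with hτ
  have e1 : h (g f) x = 1 := by
    conv_lhs => rw [← hgx]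
    rw [hiso, H.hp.fe]
  have dec := H.decomp S hV (g f)
  rw [e1, one_smul, ← hτ, ← hξ] at dec
  have hzero : τ + σ τ + ξ * σ ξ * h c c = 0 := by
    have h1 : h (g f) (g f) = 0 := by rw [hiso, H.hp.ff]
    rw [dec] at h1
    simp only [S.add_left, S.add_right, S.smul_left, S.smul_right, H.hp.ee, H.hp.ff, H.xf S, H.hp.fe, H.xc S, H.fc S,
      H.cx, H.cf] at h1
    linear_combination h1
  have hv : Val σ h x (ξ • c) τ := (H.val_iff S).mpr hzero
  refine ⟨ξ, τ, hv, ?_⟩
  set e := (E S x (ξ • c) τ) with he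
  have hef : e.1 f = g f := by
    rw [he, H.E_f S hv, dec]
    abel
  have hex : e.1 x = x := H.E_x S hv
  -- the quotient
  set g₁ : V ≃ₗ[F] V := e.1⁻¹ * g with hg₁
  have hg₁s : g₁ ∈ suGroup h := mul_mem (inv_mem e.2) hg
  have hexs : e.1⁻¹ x = x := by
    apply e.1.injective
    have : e.1 (e.1⁻¹ x) = x := e.1.apply_symm_apply x
    rw [this, hex]
  have hefs : e.1⁻¹ (g f) = f := by
    apply e.1.injective
    have : e.1 (e.1⁻¹ (g f)) = g f := e.1.apply_symm_apply _
    rw [this, hef]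
  have h1x : g₁ x = x := by
    show e.1⁻¹ (g x) = x
    rw [hgx, hexs]
  have h1f : g₁ f = f := by
    show e.1⁻¹ (g f) = f
    exact hefs
  have hiso₁ : ∀ a b, h (g₁ a) (g₁ b) = h a b := fun a b => (mem_suGroup.mp hg₁s).1 a b
  have hc1 : h (g₁ c) x = 0 := by
    conv_lhs => rw [← h1x]
    rw [hiso₁, H.cx]
  have hc2 : h (g₁ c) f = 0 := by
    conv_lhs => rw [← h1f]
    rw [hiso₁, H.cf]
  have hdc := H.decomp S hV (g₁ c)
  rw [hc1, hc2, zero_smul, zero_smul, zero_add, zero_add] at hdc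
  set ν := h (g₁ c) c / h c c with hν
  have hν1 : ν * σ ν = 1 := by
    have h2 := hiso₁ c c
    rw [hdc, S.smul_left, S.smul_right] at h2
    have : ν * (σ ν * h c c) = ν * σ ν * h c c := by ring
    rw [this] at h2
    exact mul_right_cancel₀ hc (by rw [h2, one_mul])
  obtain ⟨r, hr⟩ := exists_qrAt S hc hν1
  have hg₁r : g₁ = r := by
    apply H.ext S hV
    · rw [h1x, hr.apply_orth (H.xc S)]
    · rw [h1f, hr.apply_orth (H.fc S)]
    · rw [hdc, hr.apply_self]
  have hdet : ν = 1 := by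
    have h3 := hr.det S
    rw [← hg₁r] at h3
    rw [← h3]
    exact (mem_suGroup.mp hg₁s).2
  have hg₁1 : g₁ = 1 := by
    rw [hg₁r]
    rw [hdet] at hr
    exact hr.eq_one
  have : e.1 * g₁ = g := by
    rw [hg₁]
    group
  rw [← this, hg₁1, mul_one]

/-- An element fixing `x` and the point of `f` is trivial. -/
theorem eq_one_of_fix (hσ : Invol σ) [Finite F] (hV : finrank F V = 3) (H : Fr h x f c) {g : V ≃ₗ[F] V}
    (hg : g ∈ suGroup h) (hgx : g x = x) {κ : F} (hgf : g f = κ • f) : g = 1 := by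
  obtain ⟨ξ, α, hv, rfl⟩ := H.exists_E S hσ hV hg hgx
  rw [H.E_f S hv] at hgf
  have hc := H.cc
  have h1 := congrArg (fun v => h v x) hgf
  have h2 := congrArg (fun v => h v c) hgf
  have h3 := congrArg (fun v => h v f) hgf
  simp only [S.add_left, S.smul_left, H.hp.ee, H.hp.fe, H.cx, H.xc S, H.fc S, H.hp.ff, H.cf, H.xf S] at h1 h2 h3
  have hξ : ξ = 0 := by
    have : ξ * h c c = 0 := by linear_combination h2
    exact (mul_eq_zero.mp this).resolve_right hc
  have hα : α = 0 := by linear_combination h3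
  subst hξ hα
  have e1 : (0 : F) • c = 0 := zero_smul _ _
  have e2 : E S x ((0 : F) • c) 0 = 1 := by
    rw [e1]
    exact E_zero_zero hσ H.hp.ee
  rw [e2]
  rfl

/-- Torus elements. -/
theorem exists_D (hσ : Invol σ) (H : Fr h x f c) {l : F} (hl : l ≠ 0) :
    ∃ d ∈ suGroup h, d x = l • x ∧ d f = (σ l)⁻¹ • f ∧ d c = (σ l / l) • c := by
  have hsl : σ l ≠ 0 := by simpa using hl
  obtain ⟨D, hD⟩ := exists_dAt S hσ H.hp hl
  have hβ : (σ l / l) * σ (σ l / l) = 1 := by
    rw [map_div₀, hσ.invol]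
    field_simp
  obtain ⟨r, hr⟩ := exists_qrAt S H.cc hβ
  refine ⟨D * r, ?_, ?_, ?_, ?_⟩
  · rw [mem_suGroup]
    refine ⟨mul_mem (hD.mem_uGroup S hσ) (hr.mem_uGroup S), ?_⟩
    rw [dt_mul, hD.det S, hr.det S]
    field_simp
  · show D (r x) = _
    rw [hr.apply_orth (H.xc S), hD.apply_left S]
  · show D (r f) = _
    rw [hr.apply_orth (H.fc S), hD.apply_right S]
  · show D (r c) = _
    rw [hr.apply_self, map_smul, hD.apply_orth H.cx H.cf]

/-- The action of an element stabilizing `x` on `c`. -/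
theorem coeff_c (hσ : Invol σ) [Finite F] (hV : finrank F V = 3) (H : Fr h x f c) {g : V ≃ₗ[F] V} (hg : g ∈ suGroup h)
    {l : F} (hl : l ≠ 0) (hgx : g x = l • x) : ∃ κ : F, g c = (σ l / l) • c + κ • x := by
  obtain ⟨d, hd, h1, h2, h3⟩ := H.exists_D S hσ hl
  have hq : (g * d⁻¹) x = x := by
    show g (d⁻¹ x) = x
    have e : d⁻¹ x = l⁻¹ • x := by
      apply d.injective
      have : d (d⁻¹ x) = x := d.apply_symm_apply x
      rw [this, map_smul, h1, smul_smul, inv_mul_cancel₀ hl, one_smul]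
    rw [e, map_smul, hgx, smul_smul, inv_mul_cancel₀ hl, one_smul]
  obtain ⟨ξ, α, hv, he⟩ := H.exists_E S hσ hV (mul_mem hg (inv_mem hd)) hq
  have hg2 : g = (E S x (ξ • c) α).1 * d := by
    rw [he]
    group
  refine ⟨- (σ l / l) * (σ ξ * h c c), ?_⟩
  rw [hg2]
  show (E S x (ξ • c) α).1 (d c) = _
  rw [h3, map_smul, H.E_c S hv]
  module

/-- Conjugation of the Eichler elements by the stabilizer. -/
theorem conj_E (hσ : Invol σ) [Finite F] (hV : finrank F V = 3) (H : Fr h x f c) (g : suGroup h) {l : F} (hl : l ≠ 0)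
    (hgx : g.1 x = l • x) {ξ α : F} (hv : Val σ h x (ξ • c) α) :
    ∃ α' : F, ∃ hv' : Val σ h x (((σ l) ^ 2 / l * ξ) • c) α',
      g * E S x (ξ • c) α * g⁻¹ = E S x (((σ l) ^ 2 / l * ξ) • c) α' := by
  have hsl : σ l ≠ 0 := by simpa using hl
  obtain ⟨κ, hκ⟩ := H.coeff_c S hσ hV g.2 hl hgx
  have e0 := E_conj (S := S) hv g
  have hv0 := hv.conj g
  have e1 : g.1 (ξ • c) = ξ • ((σ l / l) • c + κ • x) := by rw [map_smul, hκ]
  rw [hgx, e1] at e0 hv0
  have hv1 := hv0.smul S hσ hl
  have e2 := E_smul (S := S) hσ hv0 hl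
  have e3 : σ l • ξ • ((σ l / l) • c + κ • x) = (((σ l) ^ 2 / l * ξ) • c) + (σ l * ξ * κ) • x := by
    rw [smul_add, smul_add, smul_smul, smul_smul, smul_smul, smul_smul]
    congr 2
    field_simp
  rw [e3] at hv1 e2
  have hv2 := hv1.shift S hσ
  have e4 := E_shift (S := S) hσ hv1
  refine ⟨_, hv2, ?_⟩
  rw [e0, e2, e4]

/-- Conjugation of the central elements. -/
theorem conj_Z (hσ : Invol σ) (g : suGroup h) {l : F} (hl : l ≠ 0) (hgx : g.1 x = l • x) {ℓ : F}
    (hv : Val σ h x 0 ℓ) : g * E S x 0 ℓ * g⁻¹ = E S x 0 (ℓ * (l * σ l)) := by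
  have e0 := E_conj (S := S) hv g
  have hv0 := hv.conj g
  rw [hgx, map_zero] at e0 hv0
  have e2 := E_smul (S := S) hσ hv0 hl
  rw [smul_zero] at e2
  rw [e0, e2]

end Fr

section exist

variable [Fintype F] {q : ℕ} (hF : Fintype.card F = q ^ 2)

local notation "σ" => frobHom hF

variable [FiniteDimensional F V] (S : HForm (frobHom hF) h) (hV : finrank F V = 3)

include hF S hV

theorem exists_fr {x : V} (hx : x ≠ 0) (hxx : h x x = 0) : ∃ f c, Fr h x f c := by
  have hσ := invol_frob hF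
  obtain ⟨f, hff, hfx⟩ := S.exists_partner hσ hx hxx
  have H : IsHP h x f := ⟨hxx, hff, hfx⟩
  obtain ⟨c, hc, hcc⟩ := exists_nonisotropic_perp2 S hσ (by omega) H
  exact ⟨f, c, H, hc.1, hc.2, hcc⟩

theorem exists_fr_two {x y : V} (hx : x ≠ 0) (hxx : h x x = 0) (hyy : h y y = 0) (hne : ∀ a : F, y ≠ a • x) :
    h y x ≠ 0 ∧ ∃ c, Fr h x ((h y x)⁻¹ • y) c := by
  have hσ := invol_frob hF
  have h0 : h y x ≠ 0 := by
    intro hyx
    obtain ⟨f, c, H⟩ := exists_fr hF S hV hx hxx
    exact hne _ (H.eq_smul_of_perp S hV hyx hyy)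
  refine ⟨h0, ?_⟩
  have hsy : σ (h y x) ≠ 0 := by simpa using h0
  have H : IsHP h x ((h y x)⁻¹ • y) := by
    refine ⟨hxx, ?_, ?_⟩
    · rw [S.smul_left, S.smul_right, hyy]
      ring
    · rw [S.smul_left, inv_mul_cancel₀ h0]
  obtain ⟨c, hc, hcc⟩ := exists_nonisotropic_perp2 S hσ (by omega) H
  exact ⟨c, H, hc.1, hc.2, hcc⟩

theorem exists_fr_ni {c : V} (hcc : h c c ≠ 0) : ∃ x f, Fr h x f c := by
  have hσ := invol_frob hF
  obtain ⟨x₀, hx₀, hx₀x₀⟩ := exists_isotropic S hσ (by omega : 2 ≤ finrank F V)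
  obtain ⟨f₀, c₀, H₀⟩ := exists_fr hF S hV hx₀ hx₀x₀
  obtain ⟨a, ha⟩ := S.exists_smul_norm hσ hcc (h c₀ c₀) (S.self_fix c₀)
  have ha0 : a ≠ 0 := by
    rintro rfl
    rw [zero_smul, S.zero_left] at ha
    exact H₀.cc ha.symm
  haveI : Finite V := Module.finite_of_finite F
  haveI : Fintype V := Fintype.ofFinite V
  have hc0 : c ≠ 0 := by
    rintro rfl
    exact hcc (S.zero_left _)
  obtain ⟨g, hg, hgc⟩ := su_trans hF S (by omega) (H₀.ne_c S) (smul_ne_zero ha0 hc0) ha.symm
  have H1 := H₀.map (mem_suGroup.mp hg).1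
  rw [hgc] at H1
  have H2 := H1.smul_c S (inv_ne_zero ha0)
  rw [smul_smul, inv_mul_cancel₀ ha0, one_smul] at H2
  exact ⟨_, _, H2⟩

end exist

end Cfsg.Agent.Lib.MinU3.Basic
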