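/-
Points of the projective plane of a three-dimensional hermitian space: isotropic points, the lines `c^⊥`.
-/
import Mathlib
import Cfsg.Agent.Lib.MinU3.Basic

set_option autoImplicit false
set_option linter.unusedSectionVars false
set_option linter.unusedVariables false
set_option linter.unusedSimpArgs false
set_option linter.style.haveILetI false

namespace Cfsg.Agent.Lib.MinU3.Pts

open Module Cfsg.Agent.Lib.MinU.Four Cfsg.Agent.Lib.MinU.Fld Cfsg.Agent.Lib.MinU.Sp Cfsg.Agent.Lib.MinU.Eich
open Cfsg.Agent.Lib.HermCount.Field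
open Cfsg.Agent.Lib.Classical.HermBasic Cfsg.Agent.Lib.Classical.HermElem Cfsg.Agent.Lib.Classical.HermGen
open Cfsg.Agent.Lib.Classical.HermBridge
open Cfsg.Agent.Lib.MinU3.Basic
open scoped _root_.Classical LinearAlgebra.Projectivization

attribute [-simp] frobHom_apply

universe u v w

section par

variable {G : Type u} {X : Type v} [Group G] [MulAction G X] [Finite X]

/-- **A group with subgroups fixing exactly one point each is transitive**. -/
theorem par {p : ℕ} [hp : Fact p.Prime] (R : X → Subgroup G) (hR : ∀ x, IsPGroup p (R x))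
    (hfix : ∀ x y, (∀ g ∈ R x, g • y = y) → y = x) (hself : ∀ x, ∀ g ∈ R x, g • x = x) :
    MulAction.IsPretransitive G X := by
  constructor
  intro x y
  by_contra hcon
  push Not at hcon
  have hy : y ∉ MulAction.orbit G x := by
    rintro ⟨g, hg⟩
    exact hcon g hg
  -- `|O| ≡ 1`
  have h1 := (hR x).card_modEq_card_fixedPoints (MulAction.orbit G x)
  have h2 := (hR y).card_modEq_card_fixedPoints (MulAction.orbit G x)
  have e1 : Nat.card (MulAction.fixedPoints (R x) (MulAction.orbit G x)) = 1 := by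
    rw [Nat.card_eq_one_iff_unique]
    refine ⟨⟨?_⟩, ⟨⟨⟨x, MulAction.mem_orbit_self x⟩, ?_⟩⟩⟩
    · rintro ⟨a, ha⟩ ⟨b, hb⟩
      apply Subtype.ext
      apply Subtype.ext
      have ha' : ∀ g : R x, g • a = a := ha
      have hb' : ∀ g : R x, g • b = b := hb
      have h3 : a.1 = x := hfix x a.1 (fun g hg => congrArg Subtype.val (ha' ⟨g, hg⟩))
      have h4 : b.1 = x := hfix x b.1 (fun g hg => congrArg Subtype.val (hb' ⟨g, hg⟩))
      show a.1 = b.1
      rw [h3, h4]
    · intro g
      apply Subtype.ext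
      exact hself x g.1 g.2
  have e2 : Nat.card (MulAction.fixedPoints (R y) (MulAction.orbit G x)) = 0 := by
    rw [Nat.card_eq_zero]
    left
    constructor
    rintro ⟨a, ha⟩
    have ha' : ∀ g : R y, g • a = a := ha
    have h3 : a.1 = y := hfix y a.1 (fun g hg => congrArg Subtype.val (ha' ⟨g, hg⟩))
    exact hy (h3 ▸ a.2)
  rw [e1] at h1
  rw [e2] at h2
  have h3 : 1 ≡ 0 [MOD p] := h1.symm.trans h2
  have h4 : p ∣ 1 := (Nat.modEq_zero_iff_dvd.mp h3)
  exact hp.out.one_lt.ne' (Nat.dvd_one.mp h4)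

end par

variable {F : Type u} [Field F] [Fintype F] {q : ℕ} (hF : Fintype.card F = q ^ 2)

local notation "σ" => frobHom hF

variable {V : Type v} [AddCommGroup V] [Module F V] [FiniteDimensional F V] {h : V → V → F}
  (S : HForm (frobHom hF) h) (hV : finrank F V = 3)

instance finiteP : Finite (ℙ F V) := by
  haveI : Finite V := Module.finite_of_finite F
  exact Quotient.finite _

/-- Isotropic points. -/
def IsoP (h : V → V → F) (p : ℙ F V) : Prop := h p.rep p.rep = 0

/-- Points on the polar of `c`. -/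
def PerpP (h : V → V → F) (c : V) (p : ℙ F V) : Prop := h p.rep c = 0

include S

theorem isoP_mk {x : V} (hx : x ≠ 0) : IsoP h (Projectivization.mk F x hx) ↔ h x x = 0 := by
  obtain ⟨a, ha⟩ := Projectivization.exists_smul_eq_mk_rep F x hx
  rw [IsoP, ← ha]
  have h1 : ((a : F)) ≠ 0 := a.ne_zero
  have h2 : σ (a : F) ≠ 0 := by simpa using h1
  show h ((a : F) • x) ((a : F) • x) = 0 ↔ _
  rw [S.smul_left, S.smul_right]
  constructor
  · intro h3
    exact (mul_eq_zero.mp ((mul_eq_zero.mp h3).resolve_left h1)).resolve_left h2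
  · intro h3
    rw [h3]
    ring

theorem perpP_mk {x c : V} (hx : x ≠ 0) : PerpP h c (Projectivization.mk F x hx) ↔ h x c = 0 := by
  obtain ⟨a, ha⟩ := Projectivization.exists_smul_eq_mk_rep F x hx
  rw [PerpP, ← ha]
  have h1 : ((a : F)) ≠ 0 := a.ne_zero
  show h ((a : F) • x) c = 0 ↔ _
  rw [S.smul_left]
  constructor
  · intro h3
    exact (mul_eq_zero.mp h3).resolve_left h1
  · intro h3
    rw [h3]
    ring

omit S in
theorem mk_eq_iff {x y : V} (hx : x ≠ 0) (hy : y ≠ 0) :
    Projectivization.mk F x hx = Projectivization.mk F y hy ↔ ∃ a : F, a • y = x := by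
  rw [Projectivization.mk_eq_mk_iff']

section counts

variable {x f c : V} (H : Fr h x f c)

/-- The vector `f + ξ c + α x`. -/
def pv (x f c : V) (ξ α : F) : V := f + ξ • c + α • x

include H

theorem pv_x (ξ α : F) : h (pv x f c ξ α) x = 1 := by
  simp only [pv, S.add_left, S.smul_left, H.hp.ee, H.hp.fe, H.cx]
  ring

theorem pv_ne (ξ α : F) : pv x f c ξ α ≠ 0 := by
  intro h0
  have := pv_x hF S H ξ α
  rw [h0, S.zero_left] at this
  exact zero_ne_one this

theorem pv_self (ξ α : F) : h (pv x f c ξ α) (pv x f c ξ α) = α + σ α + ξ * σ ξ * h c c := by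
  simp only [pv, S.add_left, S.add_right, S.smul_left, S.smul_right, H.hp.ee, H.hp.ff, H.hp.fe, H.xf S, H.cx, H.cf,
    H.xc S, H.fc S]
  ring

theorem pv_inj {ξ α ξ' α' : F} (hp : Projectivization.mk F (pv x f c ξ α) (pv_ne hF S H ξ α) =
    Projectivization.mk F (pv x f c ξ' α') (pv_ne hF S H ξ' α')) : ξ = ξ' ∧ α = α' := by
  obtain ⟨a, ha⟩ := (mk_eq_iff _ _).mp hp
  have h1 := congrArg (fun v => h v x) ha
  simp only [S.smul_left, pv_x hF S H] at h1
  have ha1 : a = 1 := by linear_combination h1
  rw [ha1, one_smul] at ha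
  have h2 := congrArg (fun v => h v c) ha
  have h3 := congrArg (fun v => h v f) ha
  simp only [pv, S.add_left, S.smul_left, H.xc S, H.fc S, H.hp.ff, H.cf, H.xf S] at h2 h3
  have hc := H.cc
  constructor
  · apply mul_right_cancel₀ hc
    linear_combination -h2
  · linear_combination -h3

omit H in
theorem frob_norm_fix (ξ β : F) (hβ : σ β = β) : σ (-(ξ * σ ξ * β)) = -(ξ * σ ξ * β) := by
  have hσ := invol_frob hF
  rw [map_neg, map_mul, map_mul, hσ.invol, hβ]
  ring

end counts

/-- Parameters of the unipotent radical. -/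
noncomputable def Pr (β : F) : Finset (F × F) :=
  (Finset.univ : Finset (F × F)).filter fun p => p.2 + σ p.2 + p.1 * σ p.1 * β = 0

omit S in
theorem mem_Pr {β : F} {p : F × F} : p ∈ Pr hF β ↔ p.2 + σ p.2 + p.1 * σ p.1 * β = 0 := by
  simp [Pr]

omit S in
theorem card_Pr {β : F} (hβ : σ β = β) : (Pr hF β).card = q ^ 3 := by
  have hσ := invol_frob hF
  have h1 : (Pr hF β).card = ∑ ξ ∈ (Finset.univ : Finset F), ((Pr hF β).filter fun p => p.1 = ξ).card :=
    Finset.card_eq_sum_card_fiberwise (f := Prod.fst) (fun p _ => Finset.mem_univ _)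
  have h2 : ∀ ξ ∈ (Finset.univ : Finset F), ((Pr hF β).filter fun p => p.1 = ξ).card = q := by
    intro ξ _
    have ht : σ (-(ξ * σ ξ * β)) = -(ξ * σ ξ * β) := by
      rw [map_neg, map_mul, map_mul, hσ.invol, hβ]
      ring
    refine Eq.trans ?_ (card_trace hF _ ht)
    apply Finset.card_bij (fun p _ => p.2)
    · intro p hp
      rw [Finset.mem_filter, mem_Pr] at hp
      rw [Finset.mem_filter]
      refine ⟨Finset.mem_univ _, ?_⟩
      rw [hp.2] at hp
      linear_combination hp.1
    · intro p hp p' hp' he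
      rw [Finset.mem_filter] at hp hp'
      exact Prod.ext (hp.2.trans hp'.2.symm) he
    · intro b hb
      rw [Finset.mem_filter] at hb
      refine ⟨(ξ, b), ?_, rfl⟩
      rw [Finset.mem_filter, mem_Pr]
      refine ⟨?_, rfl⟩
      show b + σ b + ξ * σ ξ * β = 0
      linear_combination hb.2
  rw [h1, Finset.sum_congr rfl h2, Finset.sum_const, Finset.card_univ, hF, smul_eq_mul]
  ring

/-- The isotropic points. -/
noncomputable def Om (h : V → V → F) : Finset (ℙ F V) :=
  haveI : Fintype (ℙ F V) := Fintype.ofFinite _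
  (Finset.univ : Finset (ℙ F V)).filter (IsoP h)

omit S in
theorem mem_Om {p : ℙ F V} : p ∈ Om h ↔ IsoP h p := by
  simp [Om]

include hV

/-- Describing the isotropic points through a frame. -/
theorem iso_cases {x f c : V} (H : Fr h x f c) {y : V} (hy : y ≠ 0) (hyy : h y y = 0) :
    Projectivization.mk F y hy = Projectivization.mk F x (H.ne_x S) ∨
      ∃ p ∈ Pr hF (h c c), Projectivization.mk F y hy =
        Projectivization.mk F (pv x f c p.1 p.2) (pv_ne hF S H p.1 p.2) := by
  by_cases hyx : h y x = 0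
  · left
    rw [mk_eq_iff]
    exact ⟨_, (H.eq_smul_of_perp S hV hyx hyy).symm⟩
  · right
    have hσ := invol_frob hF
    set y' := (h y x)⁻¹ • y with hy'
    have e0 : h y' x = 1 := by
      rw [hy', S.smul_left, inv_mul_cancel₀ hyx]
    have hy'y' : h y' y' = 0 := by
      rw [hy', S.smul_left, S.smul_right, hyy]
      ring
    have dec := H.decomp S hV y'
    rw [e0, one_smul] at dec
    have e1 : y' = pv x f c (h y' c / h c c) (h y' f) := by
      rw [pv]
      conv_lhs => rw [dec]
      abel
    refine ⟨(h y' c / h c c, h y' f), ?_, ?_⟩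
    · rw [mem_Pr]
      have := pv_self hF S H (h y' c / h c c) (h y' f)
      rw [← e1, hy'y'] at this
      exact this.symm
    · rw [mk_eq_iff]
      refine ⟨h y x, ?_⟩
      show h y x • pv x f c (h y' c / h c c) (h y' f) = y
      rw [← e1, hy', smul_smul, mul_inv_cancel₀ hyx, one_smul]

theorem card_Om {x f c : V} (H : Fr h x f c) : (Om h).card = q ^ 3 + 1 := by
  have hβ : σ (h c c) = h c c := S.self_fix c
  have e : Om h = insert (Projectivization.mk F x (H.ne_x S))
      ((Pr hF (h c c)).image fun p => Projectivization.mk F (pv x f c p.1 p.2) (pv_ne hF S H p.1 p.2)) := by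
    ext p
    rw [mem_Om, Finset.mem_insert, Finset.mem_image]
    induction p using Projectivization.ind with
    | h y hy =>
      rw [isoP_mk hF S hy]
      constructor
      · intro hyy
        rcases iso_cases hF S hV H hy hyy with h1 | ⟨p, hp, h1⟩
        · exact Or.inl h1
        · exact Or.inr ⟨p, hp, h1.symm⟩
      · rintro (h1 | ⟨p, hp, h1⟩)
        · obtain ⟨a, ha⟩ := (mk_eq_iff _ _).mp h1
          rw [← ha, S.smul_left, S.smul_right, H.hp.ee]
          ring
        · obtain ⟨a, ha⟩ := (mk_eq_iff _ _).mp h1.symm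
          rw [← ha, S.smul_left, S.smul_right, pv_self hF S H, (mem_Pr hF).mp hp]
          ring
  rw [e, Finset.card_insert_of_notMem, Finset.card_image_of_injOn, card_Pr hF hβ]
  · intro p _ p' _ hpp
    obtain ⟨h1, h2⟩ := pv_inj hF S H hpp
    exact Prod.ext h1 h2
  · rw [Finset.mem_image]
    rintro ⟨p, _, hp⟩
    obtain ⟨a, ha⟩ := (mk_eq_iff _ _).mp hp
    have h1 := congrArg (fun v => h v x) ha
    simp only [S.smul_left, pv_x hF S H, H.hp.ee] at h1
    exact zero_ne_one (by linear_combination h1)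

end Cfsg.Agent.Lib.MinU3.Pts
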