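/-
Stabilizers of isotropic points, their unipotent radicals and centres, for subgroups of the special unitary group in
dimension three.
-/
import Mathlib
import Cfsg.Agent.Lib.MinU3.Pts

set_option autoImplicit false
set_option linter.unusedSectionVars false
set_option linter.unusedVariables false
set_option linter.unusedSimpArgs false
set_option linter.style.haveILetI false

namespace Cfsg.Agent.Lib.MinU3.Grp

open Module Cfsg.Agent.Lib.MinU.Four Cfsg.Agent.Lib.MinU.Fld Cfsg.Agent.Lib.MinU.Sp Cfsg.Agent.Lib.MinU.Eich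
open Cfsg.Agent.Lib.HermCount.Field
open Cfsg.Agent.Lib.Classical.HermBasic Cfsg.Agent.Lib.Classical.HermElem Cfsg.Agent.Lib.Classical.HermGen
open Cfsg.Agent.Lib.Classical.HermBridge
open Cfsg.Agent.Lib.MinU3.Basic Cfsg.Agent.Lib.MinU3.Pts
open scoped _root_.Classical LinearAlgebra.Projectivization

attribute [-simp] frobHom_apply

universe u v w

variable {F : Type u} [Field F] {V : Type v} [AddCommGroup V] [Module F V]

/-- The stabilizer of a vector in the special unitary group. -/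
noncomputable def vstab (h : V → V → F) (x : V) : Subgroup (V ≃ₗ[F] V) where
  carrier := {g | g ∈ suGroup h ∧ g x = x}
  mul_mem' := by
    rintro a b ⟨ha, hax⟩ ⟨hb, hbx⟩
    refine ⟨mul_mem ha hb, ?_⟩
    show a (b x) = x
    rw [hbx, hax]
  one_mem' := ⟨one_mem _, rfl⟩
  inv_mem' := by
    rintro a ⟨ha, hax⟩
    refine ⟨inv_mem ha, ?_⟩
    apply a.injective
    have : a (a⁻¹ x) = x := a.apply_symm_apply x
    rw [this, hax]

theorem mem_vstab {h : V → V → F} {x : V} {g : V ≃ₗ[F] V} : g ∈ vstab h x ↔ g ∈ suGroup h ∧ g x = x := Iff.rfl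

/-- The stabilizer of a point in the special unitary group. -/
noncomputable def pstab (h : V → V → F) (x : V) (hx : x ≠ 0) : Subgroup (V ≃ₗ[F] V) where
  carrier := {g | g ∈ suGroup h ∧ ∃ a : F, g x = a • x}
  mul_mem' := by
    rintro a b ⟨ha, c, hac⟩ ⟨hb, d, hbd⟩
    refine ⟨mul_mem ha hb, c * d, ?_⟩
    show a (b x) = _
    rw [hbd, map_smul, hac, smul_smul, mul_comm]
  one_mem' := ⟨one_mem _, 1, by simp⟩
  inv_mem' := by
    rintro a ⟨ha, c, hac⟩
    refine ⟨inv_mem ha, c⁻¹, ?_⟩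
    have hc : c ≠ 0 := by
      rintro rfl
      rw [zero_smul] at hac
      exact hx (a.map_eq_zero_iff.mp hac)
    apply a.injective
    have : a (a⁻¹ x) = x := a.apply_symm_apply x
    rw [this, map_smul, hac, smul_smul, inv_mul_cancel₀ hc, one_smul]

theorem mem_pstab {h : V → V → F} {x : V} {hx : x ≠ 0} {g : V ≃ₗ[F] V} :
    g ∈ pstab h x hx ↔ g ∈ suGroup h ∧ ∃ a : F, g x = a • x := Iff.rfl

theorem vstab_le_pstab {h : V → V → F} {x : V} (hx : x ≠ 0) : vstab h x ≤ pstab h x hx :=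
  fun g hg => ⟨hg.1, 1, by rw [one_smul]; exact hg.2⟩

/-- The transvection group of an isotropic vector. -/
noncomputable def Zs (h : V → V → F) (x : V) : Subgroup (V ≃ₗ[F] V) where
  carrier := {g | g ∈ suGroup h ∧ ∀ y, h y x = 0 → g y = y}
  mul_mem' := by
    rintro a b ⟨ha, hay⟩ ⟨hb, hby⟩
    refine ⟨mul_mem ha hb, fun y hy => ?_⟩
    show a (b y) = y
    rw [hby y hy, hay y hy]
  one_mem' := ⟨one_mem _, fun _ _ => rfl⟩
  inv_mem' := by
    rintro a ⟨ha, hay⟩
    refine ⟨inv_mem ha, fun y hy => ?_⟩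
    apply a.injective
    have : a (a⁻¹ y) = y := a.apply_symm_apply y
    rw [this, hay y hy]

theorem mem_Zs {h : V → V → F} {x : V} {g : V ≃ₗ[F] V} : g ∈ Zs h x ↔ g ∈ suGroup h ∧ ∀ y, h y x = 0 → g y = y := Iff.rfl

theorem Zs_le_vstab {h : V → V → F} {x : V} (hxx : h x x = 0) : Zs h x ≤ vstab h x :=
  fun g hg => ⟨hg.1, hg.2 x hxx⟩

/-- The eigenvalue of an element of the stabilizer of a point. -/
noncomputable def lamHom (h : V → V → F) (x : V) (hx : x ≠ 0) : pstab h x hx →* Fˣ where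
  toFun g := Units.mk0 (Classical.choose g.2.2) (by
    intro h0
    have := Classical.choose_spec g.2.2
    rw [h0, zero_smul] at this
    exact hx (g.1.map_eq_zero_iff.mp this))
  map_one' := by
    ext
    have h1 : x = (Classical.choose (1 : pstab h x hx).2.2) • x := Classical.choose_spec (1 : pstab h x hx).2.2
    have h3 : (1 : F) • x = (Classical.choose (1 : pstab h x hx).2.2) • x := by rw [one_smul]; exact h1
    exact (smul_left_injective F hx h3).symm
  map_mul' a b := by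
    ext
    have h1 := Classical.choose_spec a.2.2
    have h2 := Classical.choose_spec b.2.2
    have h3 : a.1 (b.1 x) = (Classical.choose (a * b).2.2) • x := Classical.choose_spec (a * b).2.2
    rw [h2, map_smul, h1, smul_smul] at h3
    exact (smul_left_injective F hx h3).symm.trans (mul_comm _ _)

theorem lamHom_spec {h : V → V → F} {x : V} {hx : x ≠ 0} (g : pstab h x hx) :
    g.1 x = ((lamHom h x hx g : Fˣ) : F) • x := Classical.choose_spec g.2.2

theorem lamHom_eq {h : V → V → F} {x : V} {hx : x ≠ 0} (g : pstab h x hx) {a : F} (ha : g.1 x = a • x) :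
    ((lamHom h x hx g : Fˣ) : F) = a := by
  have := lamHom_spec g
  rw [ha] at this
  exact (smul_left_injective F hx this).symm

/-- The eigenvalues. -/
def Ig (H : Subgroup (V ≃ₗ[F] V)) (x : V) : Subgroup Fˣ where
  carrier := {u | ∃ g ∈ H, g x = (u : F) • x}
  mul_mem' := by
    rintro a b ⟨g, hg, hga⟩ ⟨k, hk, hkb⟩
    refine ⟨g * k, mul_mem hg hk, ?_⟩
    show g (k x) = _
    rw [hkb, map_smul, hga, smul_smul, Units.val_mul, mul_comm]
  one_mem' := ⟨1, one_mem _, by simp⟩
  inv_mem' := by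
    rintro a ⟨g, hg, hga⟩
    refine ⟨g⁻¹, inv_mem hg, ?_⟩
    apply g.injective
    have : g (g⁻¹ x) = x := g.apply_symm_apply x
    rw [this, map_smul, hga, smul_smul]
    simp

theorem mem_Ig {H : Subgroup (V ≃ₗ[F] V)} {x : V} {u : Fˣ} : u ∈ Ig H x ↔ ∃ g ∈ H, g x = (u : F) • x := Iff.rfl

/-- Kernel and image. -/
theorem card_hom {G K : Type*} [Group G] [Group K] [Finite G] (f : G →* K) :
    Nat.card G = Nat.card f.range * Nat.card f.ker := by
  rw [← Subgroup.index_ker, mul_comm]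
  exact (Subgroup.card_mul_index f.ker).symm

/-- The card of a stabilizer in a subgroup. -/
theorem card_Hx (H : Subgroup (V ≃ₗ[F] V)) [Finite H] {h : V → V → F} (hH : H ≤ suGroup h) {x : V} (hx : x ≠ 0) :
    Nat.card ↥(H ⊓ pstab h x hx) = Nat.card (Ig H x) * Nat.card ↥(H ⊓ vstab h x) := by
  haveI : Finite ↥(H ⊓ pstab h x hx) := Finite.of_injective (fun g => (⟨g.1, g.2.1⟩ : H))
    (fun a b hab => Subtype.ext (congrArg (fun k : H => k.1) hab))
  let f : ↥(H ⊓ pstab h x hx) →* Fˣ := (lamHom h x hx).comp (Subgroup.inclusion inf_le_right)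
  have h1 := card_hom f
  have hf : ∀ g : ↥(H ⊓ pstab h x hx), g.1 x = ((f g : Fˣ) : F) • x := fun g =>
    lamHom_spec (Subgroup.inclusion inf_le_right g)
  have h2 : f.range = Ig H x := by
    ext u
    constructor
    · rintro ⟨g, rfl⟩
      exact ⟨g.1, g.2.1, hf g⟩
    · rintro ⟨g, hg, hgu⟩
      refine ⟨⟨g, hg, hH hg, u, hgu⟩, ?_⟩
      ext
      exact lamHom_eq _ hgu
  have h3 : Nat.card f.ker = Nat.card ↥(H ⊓ vstab h x) := by
    apply Nat.card_congr
    refine ⟨fun g => ⟨g.1.1, g.1.2.1, g.1.2.2.1, ?_⟩, fun g => ⟨⟨g.1, g.2.1, vstab_le_pstab hx g.2.2⟩, ?_⟩, ?_, ?_⟩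
    · have := hf g.1
      have h4 : f g.1 = 1 := g.2
      rw [h4] at this
      simpa using this
    · show f _ = 1
      ext
      exact lamHom_eq _ (by rw [Units.val_one, one_smul]; exact g.2.2.2)
    · intro g
      rfl
    · intro g
      rfl
  rw [h1, h2, h3]

variable [Fintype F] {q : ℕ} (hF : Fintype.card F = q ^ 2)

local notation "σ" => frobHom hF

variable [FiniteDimensional F V] {h : V → V → F} (S : HForm (frobHom hF) h) (hV : finrank F V = 3)

theorem finite_H (H : Subgroup (V ≃ₗ[F] V)) : Finite H := by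
  haveI : Finite V := Module.finite_of_finite F
  haveI : Finite (V ≃ₗ[F] V) := Finite.of_injective (fun g : V ≃ₗ[F] V => (g : V → V))
    (fun a b hab => LinearEquiv.ext (congrFun hab))
  infer_instance

/-- The transvection parameters in a subgroup. -/
noncomputable def Ab (S : HForm (frobHom hF) h) (H : Subgroup (V ≃ₗ[F] V)) (x : V) : Finset F :=
  (Lam hF).filter fun l => (E S x 0 l).1 ∈ H

theorem mem_Ab {H : Subgroup (V ≃ₗ[F] V)} {x : V} {l : F} : l ∈ Ab hF S H x ↔ l ∈ Lam hF ∧ (E S x 0 l).1 ∈ H := by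
  simp [Ab]

include S in
theorem val_Z {x : V} (hxx : h x x = 0) {l : F} (hl : l ∈ Lam hF) : Val (σ) h x 0 l :=
  val_zero S hxx (mem_Lam.mp hl)

theorem sg_Ab (H : Subgroup (V ≃ₗ[F] V)) {x : V} (hxx : h x x = 0) : Sg (Ab hF S H x) where
  zero := by
    rw [mem_Ab]
    refine ⟨(sg_Lam hF).zero, ?_⟩
    rw [E_zero_zero (invol_frob hF) hxx]
    exact one_mem _
  add := by
    intro a b ha hb
    rw [mem_Ab] at *
    refine ⟨(sg_Lam hF).add ha.1 hb.1, ?_⟩
    have := E_z_mul (S := S) (val_Z hF S hxx hb.1) (mem_Lam.mp ha.1)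
    rw [add_comm a b, ← this]
    exact mul_mem ha.2 hb.2
  neg := by
    intro a ha
    rw [mem_Ab] at *
    refine ⟨(sg_Lam hF).neg ha.1, ?_⟩
    have h1 := E_inv (S := S) (val_Z hF S hxx ha.1) (invol_frob hF)
    have h2 : σ a = -a := by
      have := mem_Lam.mp ha.1
      linear_combination this
    rw [neg_zero, h2] at h1
    rw [← h1]
    exact inv_mem ha.2

/-- The linear parts in a subgroup. -/
noncomputable def Sb (S : HForm (frobHom hF) h) (H : Subgroup (V ≃ₗ[F] V)) (x c : V) : Finset F :=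
  (Finset.univ : Finset F).filter fun ξ => ∃ α, Val (σ) h x (ξ • c) α ∧ (E S x (ξ • c) α).1 ∈ H

theorem mem_Sb {H : Subgroup (V ≃ₗ[F] V)} {x c : V} {ξ : F} :
    ξ ∈ Sb hF S H x c ↔ ∃ α, Val (σ) h x (ξ • c) α ∧ (E S x (ξ • c) α).1 ∈ H := by
  simp [Sb]

theorem sg_Sb (H : Subgroup (V ≃ₗ[F] V)) {x f c : V} (hfr : Fr h x f c) : Sg (Sb hF S H x c) where
  zero := by
    rw [mem_Sb]
    refine ⟨0, ?_, ?_⟩
    · rw [zero_smul]
      exact val_zero S hfr.hp.ee (by simp)
    · rw [zero_smul, E_zero_zero (invol_frob hF) hfr.hp.ee]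
      exact one_mem _
  add := by
    intro a b ha hb
    rw [mem_Sb] at *
    obtain ⟨α, h1, h2⟩ := ha
    obtain ⟨β, h3, h4⟩ := hb
    have h5 := E_mul (S := S) h1 h3
    have h6 := h1.mul h3 S
    rw [← add_smul] at h5 h6
    refine ⟨_, h6, ?_⟩
    rw [← h5]
    exact mul_mem h2 h4
  neg := by
    intro a ha
    rw [mem_Sb] at *
    obtain ⟨α, h1, h2⟩ := ha
    have h5 := E_inv (S := S) h1 (invol_frob hF)
    have h6 := h1.inv S (invol_frob hF)
    rw [← neg_smul] at h5 h6
    refine ⟨_, h6, ?_⟩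
    rw [← h5]
    exact inv_mem h2

include hV S in
/-- The cardinality of the stabilizer of a vector in a subgroup. -/
theorem card_R (H : Subgroup (V ≃ₗ[F] V)) (hH : H ≤ suGroup h) {x f c : V} (hfr : Fr h x f c) :
    Nat.card ↥(H ⊓ vstab h x) = (Ab hF S H x).card * (Sb hF S H x c).card := by
  have hσ := invol_frob hF
  set P := (Pr hF (h c c)).filter fun p => (E S x (p.1 • c) p.2).1 ∈ H with hP
  have hval : ∀ p ∈ Pr hF (h c c), Val (σ) h x (p.1 • c) p.2 := fun p hp =>
    (hfr.val_iff S).mpr ((mem_Pr hF).mp hp)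
  -- the bijection
  have h1 : Nat.card ↥(H ⊓ vstab h x) = P.card := by
    rw [← Nat.card_eq_fintype_card.trans (Fintype.card_coe P)]
    symm
    apply Nat.card_congr
    refine Equiv.ofBijective (fun p => ⟨(E S x (p.1.1 • c) p.1.2).1, ?_, (E S x (p.1.1 • c) p.1.2).2, ?_⟩) ⟨?_, ?_⟩
    · exact (Finset.mem_filter.mp p.2).2
    · exact hfr.E_x S (hval _ (Finset.mem_filter.mp p.2).1)
    · rintro ⟨p, hp⟩ ⟨p', hp'⟩ he
      have hv := hval _ (Finset.mem_filter.mp hp).1
      have hv' := hval _ (Finset.mem_filter.mp hp').1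
      have e1 : (E S x (p.1 • c) p.2).1 f = (E S x (p'.1 • c) p'.2).1 f := by
        have := congrArg (fun k : ↥(H ⊓ vstab h x) => k.1 f) he
        exact this
      rw [hfr.E_f S hv, hfr.E_f S hv'] at e1
      have h2 := congrArg (fun v => h v c) e1
      have h3 := congrArg (fun v => h v f) e1
      simp only [S.add_left, S.smul_left, hfr.xc S, hfr.fc S, hfr.hp.ff, hfr.cf, hfr.xf S] at h2 h3
      apply Subtype.ext
      apply Prod.ext
      · apply mul_right_cancel₀ hfr.cc
        linear_combination h2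
      · linear_combination h3
    · rintro ⟨g, hg⟩
      obtain ⟨ξ, α, hv, he⟩ := hfr.exists_E S hσ hV hg.2.1 hg.2.2
      refine ⟨⟨(ξ, α), ?_⟩, ?_⟩
      · rw [Finset.mem_filter, mem_Pr]
        refine ⟨(hfr.val_iff S).mp hv, ?_⟩
        show (E S x (ξ • c) α).1 ∈ H
        rw [he]
        exact hg.1
      · apply Subtype.ext
        exact he
  rw [h1]
  -- fibres
  have h2 : P.card = ∑ ξ ∈ Sb hF S H x c, (P.filter fun p => p.1 = ξ).card := by
    apply Finset.card_eq_sum_card_fiberwise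
    intro p hp
    have hp' := Finset.mem_filter.mp (Finset.mem_coe.mp hp)
    exact Finset.mem_coe.mpr ((mem_Sb hF S).mpr ⟨p.2, hval _ hp'.1, hp'.2⟩)
  have h3 : ∀ ξ ∈ Sb hF S H x c, (P.filter fun p => p.1 = ξ).card = (Ab hF S H x).card := by
    intro ξ hξ
    obtain ⟨α₀, hv₀, hm₀⟩ := (mem_Sb hF S).mp hξ
    symm
    apply Finset.card_bij (fun l _ => (ξ, l + α₀))
    · intro l hl
      obtain ⟨hl1, hl2⟩ := (mem_Ab hF S).mp hl
      have h4 := E_z_mul (S := S) hv₀ (mem_Lam.mp hl1)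
      have h5 := hv₀.z_add (mem_Lam.mp hl1)
      rw [Finset.mem_filter, Finset.mem_filter, mem_Pr]
      refine ⟨⟨?_, ?_⟩, rfl⟩
      · rw [add_comm l]
        exact (hfr.val_iff S).mp h5
      · show (E S x (ξ • c) (l + α₀)).1 ∈ H
        rw [add_comm l, ← h4]
        exact mul_mem hl2 hm₀
    · intro l _ l' _ he
      have := congrArg Prod.snd he
      exact add_right_cancel this
    · rintro ⟨ξ', α⟩ hp
      rw [Finset.mem_filter, Finset.mem_filter] at hp
      obtain ⟨⟨hp1, hp2⟩, hp3⟩ := hp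
      have hp3' : ξ' = ξ := hp3
      subst hp3'
      have hv := hval _ hp1
      have hl : α - α₀ ∈ Lam hF := mem_Lam.mpr (Val.sub_tr hv₀ hv)
      refine ⟨α - α₀, ?_, by simp⟩
      rw [mem_Ab]
      refine ⟨hl, ?_⟩
      have h4 := E_z_mul (S := S) hv₀ (mem_Lam.mp hl)
      have h5 : (E S x 0 (α - α₀)).1 = (E S x (ξ' • c) α).1 * (E S x (ξ' • c) α₀).1⁻¹ := by
        have e : α₀ + (α - α₀) = α := by ring
        rw [e] at h4
        rw [← h4]
        show (E S x 0 (α - α₀)).1 = (E S x 0 (α - α₀)).1 * (E S x (ξ' • c) α₀).1 * (E S x (ξ' • c) α₀).1⁻¹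
        group
      rw [h5]
      exact mul_mem hp2 (inv_mem hm₀)
  rw [h2, Finset.sum_congr rfl h3, Finset.sum_const, smul_eq_mul, mul_comm]

end Cfsg.Agent.Lib.MinU3.Grp
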