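/-
A subgroup of index at most `q³` of `SU₃(q)` is transitive on the isotropic points.
-/
import Mathlib
import Cfsg.Agent.Lib.MinU3.Grp
import Cfsg.Agent.Lib.MinU3.Abs

set_option autoImplicit false
set_option linter.unusedSectionVars false
set_option linter.unusedVariables false
set_option linter.unusedSimpArgs false
set_option linter.style.haveILetI false

namespace Cfsg.Agent.Lib.MinU3.Trans

open Module Cfsg.Agent.Lib.MinU.Four Cfsg.Agent.Lib.MinU.Fld Cfsg.Agent.Lib.MinU.Sp Cfsg.Agent.Lib.MinU.Eich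
open Cfsg.Agent.Lib.HermCount.Field
open Cfsg.Agent.Lib.Classical.HermBasic Cfsg.Agent.Lib.Classical.HermElem Cfsg.Agent.Lib.Classical.HermGen
open Cfsg.Agent.Lib.Classical.HermBridge
open Cfsg.Agent.Lib.MinU3.Basic Cfsg.Agent.Lib.MinU3.Pts Cfsg.Agent.Lib.MinU3.Grp
open scoped _root_.Classical LinearAlgebra.Projectivization

attribute [-simp] frobHom_apply

universe u v w

variable {F : Type u} [Field F] [Fintype F] {q : ℕ} (hF : Fintype.card F = q ^ 2)

local notation "σ" => frobHom hF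

variable {V : Type v} [AddCommGroup V] [Module F V] [FiniteDimensional F V] {h : V → V → F}
  (S : HForm (frobHom hF) h) (hV : finrank F V = 3)

theorem smul_mk_eq {M : Subgroup (V ≃ₗ[F] V)} (g : M) {x : V} (hx : x ≠ 0) :
    g • Projectivization.mk F x hx = Projectivization.mk F (g.1 x) (g.1.map_ne_zero_iff.mpr hx) := rfl

include S in
theorem iso_smul {M : Subgroup (V ≃ₗ[F] V)} (hM : M ≤ suGroup h) (g : M) {p : ℙ F V} (hp : IsoP h p) :
    IsoP h (g • p) := by
  induction p using Projectivization.ind with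
  | h x hx =>
    rw [isoP_mk hF S hx] at hp
    rw [smul_mk_eq, isoP_mk hF S]
    rw [(mem_suGroup.mp (hM g.2)).1, hp]

/-- The isotropic points as a set with an action. -/
noncomputable def OmS (S : HForm (frobHom hF) h) (M : Subgroup (V ≃ₗ[F] V)) (hM : M ≤ suGroup h) :
    SubMulAction M (ℙ F V) where
  carrier := {p | IsoP h p}
  smul_mem' g _ hp := iso_smul hF S hM g hp

theorem stab_eq {M : Subgroup (V ≃ₗ[F] V)} (hM : M ≤ suGroup h) {x : V} (hx : x ≠ 0) :
    Nat.card (MulAction.stabilizer M (Projectivization.mk F x hx)) = Nat.card ↥(M ⊓ pstab h x hx) := by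
  apply Nat.card_congr
  refine ⟨fun g => ⟨g.1.1, g.1.2, hM g.1.2, ?_⟩, fun g => ⟨⟨g.1, g.2.1⟩, ?_⟩, ?_, ?_⟩
  · have h1 : g.1 • Projectivization.mk F x hx = Projectivization.mk F x hx := g.2
    rw [smul_mk_eq, mk_eq_iff] at h1
    obtain ⟨a, ha⟩ := h1
    exact ⟨a, ha.symm⟩
  · show (⟨g.1, g.2.1⟩ : M) • Projectivization.mk F x hx = Projectivization.mk F x hx
    rw [smul_mk_eq, mk_eq_iff]
    obtain ⟨a, ha⟩ := g.2.2.2
    exact ⟨a, ha.symm⟩
  · intro g
    rfl
  · intro g
    rfl

include hF in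
/-- The orbit-stabilizer formula for points. -/
theorem orbit_stab {M : Subgroup (V ≃ₗ[F] V)} (hM : M ≤ suGroup h) {x : V} (hx : x ≠ 0) :
    Nat.card (MulAction.orbit M (Projectivization.mk F x hx)) * Nat.card ↥(M ⊓ pstab h x hx) = Nat.card M := by
  haveI := finite_H (F := F) (V := V) M
  rw [← stab_eq hM hx]
  exact Cfsg.Agent.Lib.MinU3.Abs.orb_card _

include hF in
theorem exists_char : ∃ p m : ℕ, p.Prime ∧ q = p ^ m ∧ CharP F p := by
  obtain ⟨p, hp⟩ := CharP.exists F
  obtain ⟨n, hpp, hcard⟩ := FiniteField.card F p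
  have hq : q ∣ p ^ (n : ℕ) := by
    rw [← hcard, hF]
    exact dvd_pow_self q two_ne_zero
  obtain ⟨j, -, rfl⟩ := (Nat.dvd_prime_pow hpp).mp hq
  exact ⟨p, j, hpp, rfl, hp⟩

include S hV in
/-- The order of the stabilizer of an isotropic vector. -/
theorem card_vstab {x f c : V} (hfr : Fr h x f c) : Nat.card (vstab h x) = q ^ 3 := by
  have hσ := invol_frob hF
  have h1 := card_R hF S hV (suGroup h) le_rfl hfr
  have e1 : suGroup h ⊓ vstab h x = vstab h x := inf_eq_right.mpr (fun g hg => hg.1)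
  rw [e1] at h1
  have e2 : Ab hF S (suGroup h) x = Lam hF := by
    ext l
    rw [mem_Ab]
    constructor
    · exact fun hl => hl.1
    · exact fun hl => ⟨hl, (E S x 0 l).2⟩
  have e3 : Sb hF S (suGroup h) x c = Finset.univ := by
    ext ξ
    simp only [Finset.mem_univ, iff_true]
    rw [mem_Sb]
    have hfix : σ (-(ξ * σ ξ * h c c)) = -(ξ * σ ξ * h c c) := frob_norm_fix hF S ξ (h c c) (S.self_fix c)
    obtain ⟨α, hα⟩ := hσ.exists_trace _ hfix
    refine ⟨α, (hfr.val_iff S).mpr (by linear_combination hα), (E S x _ α).2⟩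
  rw [e2, e3, card_Lam hF, Finset.card_univ, hF] at h1
  rw [h1]
  ring

include S hV in
theorem isP_vstab {p m : ℕ} (hp : p.Prime) (hq : q = p ^ m) {x : V} (hx : x ≠ 0) (hxx : h x x = 0) :
    IsPGroup p (vstab h x) := by
  haveI : Fact p.Prime := ⟨hp⟩
  obtain ⟨f, c, hfr⟩ := exists_fr hF S hV hx hxx
  apply IsPGroup.of_card (n := m * 3)
  rw [card_vstab hF S hV hfr, hq, pow_mul]

include S hV in
/-- An element fixing `x` and another isotropic point is trivial. -/
theorem uniq_fix {x y : V} (hx : x ≠ 0) (hxx : h x x = 0) (hy : y ≠ 0) (hyy : h y y = 0) (hne : ∀ a : F, y ≠ a • x)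
    {g : V ≃ₗ[F] V} (hg : g ∈ vstab h x) {a : F} (hgy : g y = a • y) : g = 1 := by
  obtain ⟨h0, c, hfr⟩ := exists_fr_two hF S hV hx hxx hyy hne
  apply hfr.eq_one_of_fix S (invol_frob hF) hV hg.1 hg.2 (κ := a)
  rw [map_smul, hgy, smul_comm]

include S hV in
/-- **A large subgroup is transitive on the isotropic points**. -/
theorem trans_of_large (hq2 : 2 ≤ q) (H : Subgroup (V ≃ₗ[F] V)) (hH : H ≤ suGroup h)
    (hlarge : (q ^ 2 - 1) * (q ^ 3 + 1) ≤ Nat.card H) {x y : V} (hx : x ≠ 0) (hy : y ≠ 0) (hxx : h x x = 0)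
    (hyy : h y y = 0) : ∃ g ∈ H, ∃ a : F, g x = a • y := by
  have hσ := invol_frob hF
  haveI := finite_H (F := F) (V := V) H
  obtain ⟨f₀, c₀, hfr₀⟩ := exists_fr hF S hV hx hxx
  have hOm := card_Om hF S hV hfr₀
  have hq21 : 0 < q ^ 2 - 1 := by
    have : 4 ≤ q ^ 2 := by nlinarith
    omega
  -- from the orbit to the statement
  have key : ∀ {u : V} (hu : u ≠ 0), h u u = 0 → Nat.card ↥(H ⊓ vstab h u) = 1 → ∀ {z : V} (hz : z ≠ 0), h z z = 0 →
      Projectivization.mk F z hz ∈ MulAction.orbit H (Projectivization.mk F u hu) := by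
    intro u hu huu hR z hz hzz
    have h1 := orbit_stab hF hH hu
    have h2 := card_Hx H hH hu
    rw [hR, mul_one] at h2
    have h3 : Nat.card (Ig H u) ≤ q ^ 2 - 1 := by
      have : Nat.card (Ig H u) ≤ Nat.card Fˣ := Nat.card_le_card_of_injective _ Subtype.val_injective
      rwa [Nat.card_eq_fintype_card (α := Fˣ), Fintype.card_units, hF] at this
    rw [h2] at h1
    have h4 : q ^ 3 + 1 ≤ Nat.card (MulAction.orbit H (Projectivization.mk F u hu)) := by
      have h5 : (q ^ 2 - 1) * (q ^ 3 + 1) ≤ (q ^ 2 - 1) * Nat.card (MulAction.orbit H (Projectivization.mk F u hu)) := by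
        calc (q ^ 2 - 1) * (q ^ 3 + 1) ≤ Nat.card H := hlarge
          _ = Nat.card (MulAction.orbit H (Projectivization.mk F u hu)) * Nat.card (Ig H u) := h1.symm
          _ ≤ Nat.card (MulAction.orbit H (Projectivization.mk F u hu)) * (q ^ 2 - 1) := Nat.mul_le_mul_left _ h3
          _ = _ := mul_comm _ _
      exact Nat.le_of_mul_le_mul_left h5 hq21
    have hsub : MulAction.orbit H (Projectivization.mk F u hu) ⊆ ((Om h : Finset (ℙ F V)) : Set (ℙ F V)) := by
      rintro _ ⟨g, rfl⟩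
      rw [Finset.mem_coe, mem_Om]
      exact iso_smul hF S hH g ((isoP_mk hF S hu).mpr huu)
    have heq : MulAction.orbit H (Projectivization.mk F u hu) = ((Om h : Finset (ℙ F V)) : Set (ℙ F V)) := by
      apply Set.eq_of_subset_of_ncard_le hsub
      rw [Set.ncard_coe_finset, hOm]
      rw [← Nat.card_coe_set_eq]
      exact h4
    rw [heq, Finset.mem_coe, mem_Om]
    exact (isoP_mk hF S hz).mpr hzz
  have fin : Projectivization.mk F y hy ∈ MulAction.orbit H (Projectivization.mk F x hx) → ∃ g ∈ H, ∃ a : F, g x = a • y := by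
    rintro ⟨g, hg⟩
    have hg' : g • Projectivization.mk F x hx = Projectivization.mk F y hy := hg
    rw [smul_mk_eq, mk_eq_iff] at hg'
    obtain ⟨a, ha⟩ := hg'
    exact ⟨g.1, g.2, a, ha.symm⟩
  apply fin
  by_cases hA : ∃ (u : V) (hu : u ≠ 0), h u u = 0 ∧ Nat.card ↥(H ⊓ vstab h u) = 1
  · obtain ⟨u, hu, huu, hR⟩ := hA
    have h1 := key hu huu hR hx hxx
    have h2 := key hu huu hR hy hyy
    rw [MulAction.orbit_eq_iff.mpr h1]
    exact h2
  · push Not at hA
    obtain ⟨p, m, hp, hqm, -⟩ := exists_char hF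
    haveI : Fact p.Prime := ⟨hp⟩
    let X := ↥(OmS hF S H hH)
    have hrep : ∀ r : X, r.1.rep ≠ 0 := fun r => r.1.rep_nonzero
    have hiso : ∀ r : X, h r.1.rep r.1.rep = 0 := fun r => r.2
    have hmk : ∀ r : ℙ F V, Projectivization.mk F r.rep r.rep_nonzero = r := fun r => r.mk_rep
    let R : X → Subgroup H := fun r => (H ⊓ vstab h r.1.rep).subgroupOf H
    have hnt : ∀ r : X, ∃ g ∈ H ⊓ vstab h r.1.rep, g ≠ 1 := by
      intro r
      have h1 := hA _ (hrep r) (hiso r)
      by_contra hcon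
      push Not at hcon
      apply h1
      rw [Nat.card_eq_one_iff_unique]
      refine ⟨⟨?_⟩, ⟨1⟩⟩
      rintro ⟨a, ha⟩ ⟨b, hb⟩
      apply Subtype.ext
      show a = b
      rw [hcon a ha, hcon b hb]
    haveI : MulAction.IsPretransitive H X := by
      apply par (p := p) R
      · intro r g
        have h1 := isP_vstab hF S hV hp hqm (hrep r) (hiso r)
        have hg : g.1.1 ∈ H ⊓ vstab h r.1.rep := g.2
        obtain ⟨k, hk⟩ := h1 ⟨g.1.1, hg.2⟩
        refine ⟨k, ?_⟩
        apply Subtype.ext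
        apply Subtype.ext
        have := congrArg Subtype.val hk
        simpa using this
      · intro r y' hall
        by_contra hne
        obtain ⟨g, hg, hg1⟩ := hnt r
        have hgy : (⟨g, hg.1⟩ : H) • y' = y' := hall _ (by
          show g ∈ H ⊓ vstab h r.1.rep
          exact hg)
        have hgy2 : (⟨g, hg.1⟩ : H) • y'.1 = y'.1 := congrArg Subtype.val hgy
        have hgy3 : ∃ a : F, a • g y'.1.rep = y'.1.rep := by
          have h4 := hgy2
          conv_lhs at h4 => rw [← hmk y'.1, smul_mk_eq]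
          conv_rhs at h4 => rw [← hmk y'.1]
          exact (mk_eq_iff _ _).mp h4.symm
        obtain ⟨a, ha⟩ := hgy3
        have ha0 : a ≠ 0 := by
          rintro rfl
          rw [zero_smul] at ha
          exact hrep y' ha.symm
        have hgv : g y'.1.rep = a⁻¹ • y'.1.rep := by
          calc g y'.1.rep = a⁻¹ • (a • g y'.1.rep) := by rw [smul_smul, inv_mul_cancel₀ ha0, one_smul]
            _ = _ := by rw [ha]
        by_cases hb : ∃ b : F, y'.1.rep = b • r.1.rep
        · obtain ⟨b, hb⟩ := hb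
          apply hne
          apply Subtype.ext
          rw [← hmk y'.1, ← hmk r.1, mk_eq_iff]
          exact ⟨b, hb.symm⟩
        · push Not at hb
          exact hg1 (uniq_fix hF S hV (hrep r) (hiso r) (hrep y') (hiso y') hb hg.2 hgv)
      · intro r g hg
        have hg' : g.1 ∈ H ⊓ vstab h r.1.rep := hg
        apply Subtype.ext
        show g • r.1 = r.1
        conv_lhs => rw [← hmk r.1, smul_mk_eq]
        conv_rhs => rw [← hmk r.1]
        rw [mk_eq_iff]
        exact ⟨1, by rw [one_smul]; exact hg'.2.2.symm⟩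
    have hxm : Projectivization.mk F x hx ∈ OmS hF S H hH := (isoP_mk hF S hx).mpr hxx
    have hym : Projectivization.mk F y hy ∈ OmS hF S H hH := (isoP_mk hF S hy).mpr hyy
    obtain ⟨g, hg⟩ := MulAction.exists_smul_eq H (⟨_, hxm⟩ : X) (⟨_, hym⟩ : X)
    exact ⟨g, congrArg Subtype.val hg⟩

end Cfsg.Agent.Lib.MinU3.Trans
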