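/-
The action of the stabilizer of a non-isotropic point on the projective line `c^⊥`: the isotropic and non-isotropic
points of the line, and the elements with many fixed points.
-/
import Mathlib
import Cfsg.Agent.Lib.MinU3.Trans

set_option autoImplicit false
set_option linter.unusedSectionVars false
set_option linter.unusedVariables false
set_option linter.unusedSimpArgs false
set_option linter.style.haveILetI false

namespace Cfsg.Agent.Lib.MinU3.Cnt

open Module Cfsg.Agent.Lib.MinU.Four Cfsg.Agent.Lib.MinU.Fld Cfsg.Agent.Lib.MinU.Sp Cfsg.Agent.Lib.MinU.Eich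
open Cfsg.Agent.Lib.HermCount.Field
open Cfsg.Agent.Lib.Classical.HermBasic Cfsg.Agent.Lib.Classical.HermElem Cfsg.Agent.Lib.Classical.HermGen
open Cfsg.Agent.Lib.Classical.HermBridge
open Cfsg.Agent.Lib.MinU3.Basic Cfsg.Agent.Lib.MinU3.Pts Cfsg.Agent.Lib.MinU3.Grp Cfsg.Agent.Lib.MinU3.Trans
open scoped _root_.Classical LinearAlgebra.Projectivization

attribute [-simp] frobHom_apply

universe u v w

section line

variable {F : Type u} [Field F] {σ : F →+* F}
variable {V : Type v} [AddCommGroup V] [Module F V] [FiniteDimensional F V] {h : V → V → F} (S : HForm σ h)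
  (hV : finrank F V = 3)

include S hV

variable {x f c : V}

theorem det_ne_of_nonprop (hfr : Fr h x f c) {v₁ v₂ : V} (h1 : h v₁ c = 0) (h2 : h v₂ c = 0) (hn : v₁ ≠ 0)
    (hp : ∀ a : F, a • v₁ ≠ v₂) : h v₁ f * h v₂ x - h v₂ f * h v₁ x ≠ 0 := by
  intro hd
  have d1 := hfr.decomp_perp S hV h1
  have d2 := hfr.decomp_perp S hV h2
  generalize h v₁ f = a₁ at d1 hd
  generalize h v₁ x = b₁ at d1 hd
  generalize h v₂ f = a₂ at d2 hd
  generalize h v₂ x = b₂ at d2 hd
  subst d1 d2
  by_cases ha : a₁ = 0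
  · have hb : b₁ ≠ 0 := by
      intro hb
      apply hn
      rw [ha, hb, zero_smul, zero_smul, add_zero]
    apply hp (b₂ / b₁)
    have e : a₂ = 0 := by
      rw [ha, zero_mul] at hd
      have : a₂ * b₁ = 0 := by linear_combination -hd
      exact (mul_eq_zero.mp this).resolve_right hb
    rw [ha, e, zero_smul, zero_add, zero_add, smul_smul]
    congr 1
    field_simp
  · apply hp (a₂ / a₁)
    have e : b₂ = a₂ / a₁ * b₁ := by
      field_simp
      linear_combination hd
    rw [e, smul_add, smul_smul, smul_smul]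
    congr 2
    field_simp

theorem span_two (hfr : Fr h x f c) {v₁ v₂ : V} (h1 : h v₁ c = 0) (h2 : h v₂ c = 0)
    (hd : h v₁ f * h v₂ x - h v₂ f * h v₁ x ≠ 0) {v : V} (hv : h v c = 0) : ∃ A B : F, v = A • v₁ + B • v₂ := by
  have d0 := hfr.decomp_perp S hV hv
  have d1 := hfr.decomp_perp S hV h1
  have d2 := hfr.decomp_perp S hV h2
  set D := h v₁ f * h v₂ x - h v₂ f * h v₁ x with hD
  refine ⟨(h v f * h v₂ x - h v₂ f * h v x) / D, (h v₁ f * h v x - h v f * h v₁ x) / D, ?_⟩
  set a₁ := h v₁ f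
  set b₁ := h v₁ x
  set a₂ := h v₂ f
  set b₂ := h v₂ x
  set a := h v f
  set b := h v x
  rw [d0, d1, d2]
  have e1 : a = (a * b₂ - a₂ * b) / D * a₁ + (a₁ * b - a * b₁) / D * a₂ := by
    field_simp
    rw [hD]
    ring
  have e2 : b = (a * b₂ - a₂ * b) / D * b₁ + (a₁ * b - a * b₁) / D * b₂ := by
    field_simp
    rw [hD]
    ring
  set A := (a * b₂ - a₂ * b) / D
  set B := (a₁ * b - a * b₁) / D
  conv_lhs => rw [e1, e2]
  module

theorem indep_two (hfr : Fr h x f c) {v₁ v₂ : V} (hd : h v₁ f * h v₂ x - h v₂ f * h v₁ x ≠ 0) {A B : F}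
    (h0 : A • v₁ + B • v₂ = 0) : A = 0 ∧ B = 0 := by
  have e1 := congrArg (fun v => h v f) h0
  have e2 := congrArg (fun v => h v x) h0
  simp only [S.add_left, S.smul_left, S.zero_left] at e1 e2
  constructor
  · apply (mul_eq_zero.mp _).resolve_right hd
    linear_combination h v₂ x * e1 - h v₂ f * e2
  · apply (mul_eq_zero.mp _).resolve_right hd
    linear_combination h v₁ f * e2 - h v₁ x * e1

/-- **Three eigenvectors on a line**: the element is a scalar on the line. -/
theorem three_pt (hfr : Fr h x f c) {g : V ≃ₗ[F] V} {v₁ v₂ v₃ : V} (h1 : h v₁ c = 0) (h2 : h v₂ c = 0) (h3 : h v₃ c = 0)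
    (n1 : v₁ ≠ 0) (n2 : v₂ ≠ 0) (n3 : v₃ ≠ 0)
    (p12 : ∀ a : F, a • v₁ ≠ v₂) (p13 : ∀ a : F, a • v₁ ≠ v₃) (p23 : ∀ a : F, a • v₂ ≠ v₃)
    {l₁ l₂ l₃ : F} (e1 : g v₁ = l₁ • v₁) (e2 : g v₂ = l₂ • v₂) (e3 : g v₃ = l₃ • v₃) :
    ∀ v, h v c = 0 → g v = l₁ • v := by
  have hd := det_ne_of_nonprop S hV hfr h1 h2 n1 p12
  obtain ⟨α, β, hab⟩ := span_two S hV hfr h1 h2 hd h3
  have hα : α ≠ 0 := by
    rintro rfl
    apply p23 β
    rw [hab, zero_smul, zero_add]
  have hβ : β ≠ 0 := by
    rintro rfl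
    apply p13 α
    rw [hab, zero_smul, add_zero]
  have e4 : (α * (l₃ - l₁)) • v₁ + (β * (l₃ - l₂)) • v₂ = 0 := by
    have e5 : g v₃ = α • g v₁ + β • g v₂ := by
      rw [hab, map_add, map_smul, map_smul]
    rw [e3, e1, e2] at e5
    rw [hab] at e5
    have : (α * (l₃ - l₁)) • v₁ + (β * (l₃ - l₂)) • v₂ =
      l₃ • (α • v₁ + β • v₂) - (α • l₁ • v₁ + β • l₂ • v₂) := by module
    rw [this, e5, sub_self]
  obtain ⟨h5, h6⟩ := indep_two S hV hfr hd e4
  have h7 : l₃ = l₁ := sub_eq_zero.mp ((mul_eq_zero.mp h5).resolve_left hα)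
  have h8 : l₃ = l₂ := sub_eq_zero.mp ((mul_eq_zero.mp h6).resolve_left hβ)
  intro v hv
  obtain ⟨A, B, hAB⟩ := span_two S hV hfr h1 h2 hd hv
  rw [hAB, map_add, map_smul, map_smul, e1, e2, ← h8, h7]
  module

end line

section acts

variable {F : Type u} [Field F] {V : Type v} [AddCommGroup V] [Module F V]

/-- Elements acting as a scalar on `c^⊥`. -/
def ScalOn (h : V → V → F) (c : V) : Subgroup (V ≃ₗ[F] V) where
  carrier := {g | ∃ μ : F, μ ≠ 0 ∧ ∀ v, h v c = 0 → g v = μ • v}
  mul_mem' := by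
    rintro a b ⟨μ, hμ, ha⟩ ⟨ν, hν, hb⟩
    refine ⟨μ * ν, mul_ne_zero hμ hν, fun v hv => ?_⟩
    show a (b v) = _
    rw [hb v hv, map_smul, ha v hv, smul_smul, mul_comm]
  one_mem' := ⟨1, one_ne_zero, fun v _ => by simp⟩
  inv_mem' := by
    rintro a ⟨μ, hμ, ha⟩
    refine ⟨μ⁻¹, inv_ne_zero hμ, fun v hv => ?_⟩
    apply a.injective
    have : a (a⁻¹ v) = v := a.apply_symm_apply v
    rw [this, map_smul, ha v hv, smul_smul, inv_mul_cancel₀ hμ, one_smul]

theorem mem_ScalOn {h : V → V → F} {c : V} {g : V ≃ₗ[F] V} :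
    g ∈ ScalOn h c ↔ ∃ μ : F, μ ≠ 0 ∧ ∀ v, h v c = 0 → g v = μ • v := Iff.rfl

/-- A subgroup of the stabilizer of the non-isotropic point `c`. -/
structure Ln (h : V → V → F) (J : Subgroup (V ≃ₗ[F] V)) (c : V) : Prop where
  le : J ≤ suGroup h
  cc : h c c ≠ 0
  eig : ∀ g ∈ J, ∃ κ : F, g c = κ • c

variable [Fintype F] {q : ℕ} (hF : Fintype.card F = q ^ 2)

local notation "σ" => frobHom hF

variable [FiniteDimensional F V] {h : V → V → F} (S : HForm (frobHom hF) h) (hV : finrank F V = 3)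

variable {J : Subgroup (V ≃ₗ[F] V)} {c : V}

include S

theorem Ln.ne (hL : Ln h J c) : c ≠ 0 := by
  rintro rfl
  exact hL.cc (S.zero_left _)

theorem Ln.perp (hL : Ln h J c) {g : V ≃ₗ[F] V} (hg : g ∈ J) {y : V} (hy : h y c = 0) : h (g y) c = 0 := by
  obtain ⟨κ, hκ⟩ := hL.eig g hg
  have hk : κ ≠ 0 := by
    rintro rfl
    rw [zero_smul] at hκ
    exact hL.ne hF S (g.map_eq_zero_iff.mp hκ)
  have h1 : h (g y) (g c) = h y c := (mem_suGroup.mp (hL.le hg)).1 y c
  rw [hκ, S.smul_right, hy] at h1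
  have hs : σ κ ≠ 0 := by simpa using hk
  exact (mul_eq_zero.mp h1).resolve_left hs

theorem Ln.perp_smul (hL : Ln h J c) (g : J) {p : ℙ F V} (hp : PerpP h c p) : PerpP h c (g • p) := by
  induction p using Projectivization.ind with
  | h y hy =>
    rw [perpP_mk hF S hy] at hp
    rw [smul_mk_eq, perpP_mk hF S]
    exact hL.perp hF S g.2 hp

/-- The isotropic points on the line. -/
noncomputable def LS (S : HForm (frobHom hF) h) (hL : Ln h J c) : SubMulAction J (ℙ F V) where
  carrier := {p | IsoP h p ∧ PerpP h c p}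
  smul_mem' g _ hp := ⟨iso_smul hF S hL.le g hp.1, hL.perp_smul hF S g hp.2⟩

/-- The non-isotropic points on the line. -/
noncomputable def YS (S : HForm (frobHom hF) h) (hL : Ln h J c) : SubMulAction J (ℙ F V) where
  carrier := {p | ¬ IsoP h p ∧ PerpP h c p}
  smul_mem' g p hp := ⟨fun hi => hp.1 (by
    have h1 := iso_smul hF S hL.le g⁻¹ hi
    rwa [inv_smul_smul] at h1), hL.perp_smul hF S g hp.2⟩

theorem mem_LS {hL : Ln h J c} {p : ℙ F V} : p ∈ LS hF S hL ↔ IsoP h p ∧ PerpP h c p := Iff.rfl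
theorem mem_YS {hL : Ln h J c} {p : ℙ F V} : p ∈ YS hF S hL ↔ ¬ IsoP h p ∧ PerpP h c p := Iff.rfl

section theta

variable {x f : V} (H : Fr h x f c)

/-- The points of the line other than `x`. -/
def tv (x f : V) (γ : F) : V := f + γ • x

include H

theorem tv_x (γ : F) : h (tv x f γ) x = 1 := by
  simp only [tv, S.add_left, S.smul_left, H.hp.ee, H.hp.fe]
  ring

theorem tv_c (γ : F) : h (tv x f γ) c = 0 := by
  simp only [tv, S.add_left, S.smul_left, H.xc S, H.fc S]
  ring

theorem tv_ne (γ : F) : tv x f γ ≠ 0 := by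
  intro h0
  have := tv_x hF S H γ
  rw [h0, S.zero_left] at this
  exact zero_ne_one this

theorem tv_self (γ : F) : h (tv x f γ) (tv x f γ) = γ + σ γ := by
  simp only [tv, S.add_left, S.add_right, S.smul_left, S.smul_right, H.hp.ee, H.hp.ff, H.hp.fe, H.xf S]
  ring

theorem tv_inj {γ γ' : F} (hp : Projectivization.mk F (tv x f γ) (tv_ne hF S H γ) =
    Projectivization.mk F (tv x f γ') (tv_ne hF S H γ')) : γ = γ' := by
  obtain ⟨a, ha⟩ := (mk_eq_iff _ _).mp hp
  have h1 := congrArg (fun v => h v x) ha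
  simp only [S.smul_left, tv_x hF S H] at h1
  have ha1 : a = 1 := by linear_combination h1
  rw [ha1, one_smul] at ha
  have h3 := congrArg (fun v => h v f) ha
  simp only [tv, S.add_left, S.smul_left, H.hp.ff, H.xf S] at h3
  linear_combination -h3

theorem line_cases (hV : finrank F V = 3) {y : V} (hy : y ≠ 0) (hyc : h y c = 0) :
    Projectivization.mk F y hy = Projectivization.mk F x (H.ne_x S) ∨
      ∃ γ : F, Projectivization.mk F y hy = Projectivization.mk F (tv x f γ) (tv_ne hF S H γ) := by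
  have d := H.decomp_perp S hV hyc
  by_cases hb : h y x = 0
  · left
    rw [mk_eq_iff]
    refine ⟨h y f, ?_⟩
    conv_rhs => rw [d]
    rw [hb, zero_smul, add_zero]
  · right
    refine ⟨h y f / h y x, ?_⟩
    rw [mk_eq_iff]
    refine ⟨h y x, ?_⟩
    conv_rhs => rw [d]
    rw [tv, smul_add, smul_smul, mul_div_cancel₀ _ hb, add_comm]

theorem mk_x_ne (γ : F) : Projectivization.mk F x (H.ne_x S) ≠ Projectivization.mk F (tv x f γ) (tv_ne hF S H γ) := by
  intro hp
  obtain ⟨a, ha⟩ := (mk_eq_iff _ _).mp hp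
  have h1 := congrArg (fun v => h v x) ha
  simp only [S.smul_left, tv_x hF S H, H.hp.ee] at h1
  have ha0 : a = 0 := by linear_combination h1
  rw [ha0, zero_smul] at ha
  exact H.ne_x S ha.symm

theorem card_LS (hV : finrank F V = 3) (hL : Ln h J c) : Nat.card (LS hF S hL) = q + 1 := by
  haveI : Fintype (ℙ F V) := Fintype.ofFinite _
  set T : Finset (ℙ F V) := insert (Projectivization.mk F x (H.ne_x S))
    ((Lam hF).image fun γ => Projectivization.mk F (tv x f γ) (tv_ne hF S H γ)) with hT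
  have e : Nat.card (LS hF S hL) = T.card := by
    rw [← Nat.card_eq_fintype_card.trans (Fintype.card_coe T)]
    apply Nat.card_congr
    apply Equiv.subtypeEquivRight
    intro p
    rw [mem_LS, hT, Finset.mem_insert, Finset.mem_image]
    induction p using Projectivization.ind with
    | h y hy =>
      rw [isoP_mk hF S hy, perpP_mk hF S hy]
      constructor
      · rintro ⟨h1, h2⟩
        rcases line_cases hF S H hV hy h2 with h3 | ⟨γ, h3⟩
        · exact Or.inl h3
        · refine Or.inr ⟨γ, ?_, h3.symm⟩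
          obtain ⟨a, ha⟩ := (mk_eq_iff _ _).mp h3
          have ha0 : a ≠ 0 := by
            rintro rfl
            rw [zero_smul] at ha
            exact hy ha.symm
          have hs : σ a ≠ 0 := by simpa using ha0
          rw [← ha, S.smul_left, S.smul_right, tv_self hF S H] at h1
          rw [mem_Lam]
          exact (mul_eq_zero.mp ((mul_eq_zero.mp h1).resolve_left ha0)).resolve_left hs
      · rintro (h3 | ⟨γ, hγ, h3⟩)
        · obtain ⟨a, ha⟩ := (mk_eq_iff _ _).mp h3
          rw [← ha, S.smul_left, S.smul_right, H.hp.ee, S.smul_left, H.xc S]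
          constructor <;> ring
        · obtain ⟨a, ha⟩ := (mk_eq_iff _ _).mp h3.symm
          rw [← ha, S.smul_left, S.smul_right, tv_self hF S H, S.smul_left, tv_c hF S H, mem_Lam.mp hγ]
          constructor <;> ring
  rw [e, hT, Finset.card_insert_of_notMem, Finset.card_image_of_injective, card_Lam hF]
  · intro a b hab
    exact tv_inj hF S H hab
  · rw [Finset.mem_image]
    rintro ⟨γ, _, hγ⟩
    exact mk_x_ne hF S H γ hγ.symm

theorem card_YS (hV : finrank F V = 3) (hL : Ln h J c) : Nat.card (YS hF S hL) = q ^ 2 - q := by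
  haveI : Fintype (ℙ F V) := Fintype.ofFinite _
  set T : Finset (ℙ F V) := ((Finset.univ \ Lam hF).image fun γ =>
    Projectivization.mk F (tv x f γ) (tv_ne hF S H γ)) with hT
  have e : Nat.card (YS hF S hL) = T.card := by
    rw [← Nat.card_eq_fintype_card.trans (Fintype.card_coe T)]
    apply Nat.card_congr
    apply Equiv.subtypeEquivRight
    intro p
    rw [mem_YS, hT, Finset.mem_image]
    induction p using Projectivization.ind with
    | h y hy =>
      rw [isoP_mk hF S hy, perpP_mk hF S hy]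
      constructor
      · rintro ⟨h1, h2⟩
        rcases line_cases hF S H hV hy h2 with h3 | ⟨γ, h3⟩
        · exfalso
          apply h1
          obtain ⟨a, ha⟩ := (mk_eq_iff _ _).mp h3
          rw [← ha, S.smul_left, S.smul_right, H.hp.ee]
          ring
        · refine ⟨γ, ?_, h3.symm⟩
          rw [Finset.mem_sdiff]
          refine ⟨Finset.mem_univ _, fun hγ => h1 ?_⟩
          obtain ⟨a, ha⟩ := (mk_eq_iff _ _).mp h3
          rw [← ha, S.smul_left, S.smul_right, tv_self hF S H, mem_Lam.mp hγ]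
          ring
      · rintro ⟨γ, hγ, h3⟩
        obtain ⟨a, ha⟩ := (mk_eq_iff _ _).mp h3.symm
        rw [Finset.mem_sdiff] at hγ
        have ha0 : a ≠ 0 := by
          rintro rfl
          rw [zero_smul] at ha
          exact hy ha.symm
        have hs : σ a ≠ 0 := by simpa using ha0
        rw [← ha, S.smul_left, S.smul_right, tv_self hF S H, S.smul_left, tv_c hF S H]
        constructor
        · intro h1
          apply hγ.2
          rw [mem_Lam]
          exact (mul_eq_zero.mp ((mul_eq_zero.mp h1).resolve_left ha0)).resolve_left hs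
        · ring
  rw [e, hT, Finset.card_image_of_injective, Finset.card_sdiff_of_subset (Finset.subset_univ _), card_Lam hF,
    Finset.card_univ, hF]
  intro a b hab
  exact tv_inj hF S H hab

end theta

end acts

section fix

variable {G : Type u} {P : Type v} [Group G] [MulAction G P] [Finite P]

theorem fix_add_le (A B : SubMulAction G P) (hAB : ∀ p ∈ A, p ∉ B) (g : G) (T : Finset P)
    (hA : ∀ a ∈ A, g • a = a → a ∈ T) (hB : ∀ a ∈ B, g • a = a → a ∈ T) :
    Nat.card (MulAction.fixedBy A g) + Nat.card (MulAction.fixedBy B g) ≤ T.card := by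
  have h1 : Nat.card (MulAction.fixedBy A g) ≤ (T.filter (· ∈ A)).card := by
    rw [← Nat.card_eq_fintype_card.trans (Fintype.card_coe _)]
    refine Nat.card_le_card_of_injective
      (fun a => ⟨a.1.1, Finset.mem_filter.mpr ⟨hA _ a.1.2 (congrArg Subtype.val a.2), a.1.2⟩⟩) ?_
    intro a b hab
    apply Subtype.ext
    apply Subtype.ext
    have h0 := congrArg Subtype.val hab
    exact h0
  have h2 : Nat.card (MulAction.fixedBy B g) ≤ (T.filter (· ∉ A)).card := by
    rw [← Nat.card_eq_fintype_card.trans (Fintype.card_coe _)]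
    refine Nat.card_le_card_of_injective
      (fun a => ⟨a.1.1, Finset.mem_filter.mpr ⟨hB _ a.1.2 (congrArg Subtype.val a.2),
        fun hc => hAB _ hc a.1.2⟩⟩) ?_
    intro a b hab
    apply Subtype.ext
    apply Subtype.ext
    have h0 := congrArg Subtype.val hab
    exact h0
  have h3 := Finset.card_filter_add_card_filter_not (s := T) (· ∈ A)
  omega

end fix

section fixline

variable {F : Type u} [Field F] [Fintype F] {q : ℕ} (hF : Fintype.card F = q ^ 2)

local notation "σ" => frobHom hF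

variable {V : Type v} [AddCommGroup V] [Module F V] [FiniteDimensional F V] {h : V → V → F}
  (S : HForm (frobHom hF) h) (hV : finrank F V = 3)

variable {J : Subgroup (V ≃ₗ[F] V)} {c x f : V}

omit S hV in
theorem eig_of_fix {M : Subgroup (V ≃ₗ[F] V)} (g : M) {p : ℙ F V} (hg : g • p = p) : ∃ a : F, g.1 p.rep = a • p.rep := by
  have h1 : Projectivization.mk F p.rep p.rep_nonzero = p := p.mk_rep
  have h2 := hg
  rw [← h1, smul_mk_eq] at h2
  obtain ⟨a, ha⟩ := (mk_eq_iff _ _).mp h2
  exact ⟨a, ha.symm⟩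

include S hV

/-- **An element which is not a scalar on the line has at most two fixed points there**. -/
theorem fix_two (H : Fr h x f c) (hL : Ln h J c) (g : J) (hg : g.1 ∉ ScalOn h c) :
    Nat.card (MulAction.fixedBy (LS hF S hL) g) + Nat.card (MulAction.fixedBy (YS hF S hL) g) ≤ 2 := by
  haveI : Fintype (ℙ F V) := Fintype.ofFinite _
  set T : Finset (ℙ F V) := Finset.univ.filter fun p => PerpP h c p ∧ g • p = p with hT
  have h1 : Nat.card (MulAction.fixedBy (LS hF S hL) g) + Nat.card (MulAction.fixedBy (YS hF S hL) g) ≤ T.card := by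
    apply fix_add_le
    · intro p hp hy
      exact hy.1 hp.1
    · intro a ha hga
      rw [hT, Finset.mem_filter]
      exact ⟨Finset.mem_univ _, ha.2, hga⟩
    · intro a ha hga
      rw [hT, Finset.mem_filter]
      exact ⟨Finset.mem_univ _, ha.2, hga⟩
  by_contra hcon
  have h2 : 2 < T.card := by omega
  obtain ⟨p₁, p₂, p₃, h₁, h₂, h₃, n12, n13, n23⟩ := Finset.two_lt_card_iff.mp h2
  rw [hT, Finset.mem_filter] at h₁ h₂ h₃
  obtain ⟨l₁, e1⟩ := eig_of_fix g h₁.2.2
  obtain ⟨l₂, e2⟩ := eig_of_fix g h₂.2.2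
  obtain ⟨l₃, e3⟩ := eig_of_fix g h₃.2.2
  have hne : ∀ {p r : ℙ F V}, p ≠ r → ∀ a : F, a • p.rep ≠ r.rep := by
    intro p r hpr a ha
    apply hpr
    rw [← p.mk_rep, ← r.mk_rep]
    rw [mk_eq_iff]
    have ha0 : a ≠ 0 := by
      rintro rfl
      rw [zero_smul] at ha
      exact r.rep_nonzero ha.symm
    exact ⟨a⁻¹, by rw [← ha, smul_smul, inv_mul_cancel₀ ha0, one_smul]⟩
  have hsc := three_pt S hV H h₁.2.1 h₂.2.1 h₃.2.1 p₁.rep_nonzero p₂.rep_nonzero p₃.rep_nonzero (hne n12) (hne n13)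
    (hne n23) e1 e2 e3
  apply hg
  refine ⟨l₁, ?_, hsc⟩
  rintro rfl
  rw [zero_smul] at e1
  exact p₁.rep_nonzero (g.1.map_eq_zero_iff.mp e1)

end fixline

end Cfsg.Agent.Lib.MinU3.Cnt
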