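/-
The kernel of the norm of the eigenvalue on the stabilizer of a point in a subgroup of the stabilizer of a line.
-/
import Mathlib
import Cfsg.Agent.Lib.MinU3.Cnt

set_option autoImplicit false
set_option linter.unusedSectionVars false
set_option linter.unusedVariables false
set_option linter.unusedSimpArgs false
set_option linter.style.haveILetI false

namespace Cfsg.Agent.Lib.MinU3.Ker

open Module Cfsg.Agent.Lib.MinU.Four Cfsg.Agent.Lib.MinU.Fld Cfsg.Agent.Lib.MinU.Sp Cfsg.Agent.Lib.MinU.Eich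
open Cfsg.Agent.Lib.HermCount.Field
open Cfsg.Agent.Lib.Classical.HermBasic Cfsg.Agent.Lib.Classical.HermElem Cfsg.Agent.Lib.Classical.HermGen
open Cfsg.Agent.Lib.Classical.HermBridge
open Cfsg.Agent.Lib.MinU3.Basic Cfsg.Agent.Lib.MinU3.Pts Cfsg.Agent.Lib.MinU3.Grp Cfsg.Agent.Lib.MinU3.Trans
open Cfsg.Agent.Lib.MinU3.Cnt
open scoped _root_.Classical LinearAlgebra.Projectivization

attribute [-simp] frobHom_apply

universe u v w

variable {F : Type u} [Field F] [Fintype F] {q : ℕ} (hF : Fintype.card F = q ^ 2)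

local notation "σ" => frobHom hF

variable {V : Type v} [AddCommGroup V] [Module F V] [FiniteDimensional F V] {h : V → V → F}
  (S : HForm (frobHom hF) h) (hV : finrank F V = 3)

/-- The norm on units. -/
noncomputable def Nmh (hF : Fintype.card F = q ^ 2) : Fˣ →* Fˣ where
  toFun u := u * Units.map ((frobHom hF : F →+* F) : F →* F) u
  map_one' := by simp
  map_mul' a b := by
    rw [map_mul]
    exact mul_mul_mul_comm _ _ _ _

theorem Nmh_val (u : Fˣ) : ((Nmh hF u : Fˣ) : F) = (u : F) * σ (u : F) := rfl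

variable {J : Subgroup (V ≃ₗ[F] V)} {x f c : V}

include hF in
theorem pow_card_sub_one_eq {κ : F} (hκ : κ ≠ 0) : κ ^ (q ^ 2 - 1) = 1 := by
  rw [← hF]
  exact FiniteField.pow_card_sub_one_eq_one κ hκ

include hF in
theorem cast_card_sub (hq : 1 ≤ q) : ((q ^ 2 - 1 : ℕ) : F) = -1 := by
  have h1 : ((q ^ 2 : ℕ) : F) = 0 := by
    rw [← hF]
    exact Nat.cast_card_eq_zero F
  have h2 : 1 ≤ q ^ 2 := Nat.one_le_pow _ _ hq
  rw [Nat.cast_sub h2, h1]
  simp

include S hV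

/-- Conjugating the transvections. -/
theorem Ab_conj (hJ : J ≤ suGroup h) {y : V} (hxx : h x x = 0) {g : V ≃ₗ[F] V} (hg : g ∈ J) {b : F} (hb : b ≠ 0)
    (hgx : g x = b • y) {l : F} (hl : l ∈ Ab hF S J x) : l * (b * σ b) ∈ Ab hF S J y := by
  have hσ := invol_frob hF
  rw [mem_Ab] at hl ⊢
  have hv := val_Z hF S hxx hl.1
  have e0 := E_conj (S := S) hv ⟨g, hJ hg⟩
  have hv0 := hv.conj ⟨g, hJ hg⟩
  simp only [map_zero] at e0 hv0
  rw [hgx] at e0 hv0
  have e2 := E_smul (S := S) hσ hv0 hb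
  have hv1 := hv0.smul S hσ hb
  rw [smul_zero] at e2 hv1
  refine ⟨?_, ?_⟩
  · rw [mem_Lam]
    have := hv1.ha
    rw [S.zero_left, add_zero] at this
    exact this
  · rw [← e2, ← e0]
    show g * (E S x 0 l).1 * g⁻¹ ∈ J
    exact mul_mem (mul_mem hg hl.2) (inv_mem hg)

theorem card_Ab_le (hJ : J ≤ suGroup h) {y : V} (hxx : h x x = 0) {g : V ≃ₗ[F] V} (hg : g ∈ J) {b : F} (hb : b ≠ 0)
    (hgx : g x = b • y) : (Ab hF S J x).card ≤ (Ab hF S J y).card := by
  have hs : σ b ≠ 0 := by simpa using hb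
  apply Finset.card_le_card_of_injOn (fun l => l * (b * σ b))
  · intro l hl
    exact Ab_conj hF S hV hJ hxx hg hb hgx hl
  · intro l _ l' _ he
    exact mul_right_cancel₀ (mul_ne_zero hb hs) he

/-- **The transvection parameters at points in an orbit have the same size**. -/
theorem card_Ab_eq (hJ : J ≤ suGroup h) {y : V} (hxx : h x x = 0) (hyy : h y y = 0) (hy : y ≠ 0) {g : V ≃ₗ[F] V}
    (hg : g ∈ J) {b : F} (hb : b ≠ 0) (hgx : g x = b • y) : (Ab hF S J x).card = (Ab hF S J y).card := by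
  apply le_antisymm (card_Ab_le hF S hV hJ hxx hg hb hgx)
  apply card_Ab_le hF S hV hJ hyy (inv_mem hg) (inv_ne_zero hb)
  apply g.injective
  have e1 : g (g⁻¹ y) = y := g.apply_symm_apply y
  rw [e1, map_smul, hgx, smul_smul, inv_mul_cancel₀ hb, one_smul]

theorem E_self_pow (H : Fr h x f c) {g : V ≃ₗ[F] V} {l κ t : F} (h1 : g x = l • x) (h2 : g f = l • (f + t • x))
    (h3 : g c = κ • c) (n : ℕ) : (g ^ n) x = l ^ n • x ∧ (g ^ n) f = l ^ n • (f + ((n : F) * t) • x) ∧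
      (g ^ n) c = κ ^ n • c := by
  induction n with
  | zero => simp
  | succ n ih =>
    obtain ⟨i1, i2, i3⟩ := ih
    rw [pow_succ']
    refine ⟨?_, ?_, ?_⟩
    · show g ((g ^ n) x) = _
      rw [i1, map_smul, h1, smul_smul, pow_succ]
    · show g ((g ^ n) f) = _
      rw [i2, map_smul, map_add, map_smul, h2, h1]
      push_cast
      rw [pow_succ]
      module
    · show g ((g ^ n) c) = _
      rw [i3, map_smul, h3, smul_smul, pow_succ]

/-- **The structure of an element with eigenvalue of norm one**. -/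
theorem kn (H : Fr h x f c) (hL : Ln h J c) {g : V ≃ₗ[F] V} (hg : g ∈ J) {l : F} (hl : l ≠ 0) (hgx : g x = l • x)
    (hN : l * σ l = 1) : ∃ ℓ ∈ Ab hF S J x, ∃ g₀ ∈ J ⊓ ScalOn h c, g = (E S x 0 ℓ).1 * g₀ := by
  have hσ := invol_frob hF
  have hiso : ∀ a b, h (g a) (g b) = h a b := fun a b => (mem_suGroup.mp (hL.le hg)).1 a b
  obtain ⟨κ, hκ⟩ := hL.eig g hg
  have hc0 := hL.ne hF S
  have hκ0 : κ ≠ 0 := by
    rintro rfl
    rw [zero_smul] at hκ
    exact hc0 (g.map_eq_zero_iff.mp hκ)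
  have hsl : σ l ≠ 0 := by simpa using hl
  have hlinv : l⁻¹ = σ l := by
    field_simp
    linear_combination -hN
  -- `g f`
  have e1 : h (g f) x = l := by
    have := hiso f x
    rw [hgx, S.smul_right, H.hp.fe] at this
    have h5 : h (g f) x = (σ l)⁻¹ := by
      field_simp
      linear_combination this
    rw [h5]
    field_simp
    linear_combination -hN
  have e2 : h (g f) c = 0 := hL.perp hF S hg (H.fc S)
  have dec := H.decomp_perp S hV e2
  rw [e1] at dec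
  set τ := h (g f) f with hτ
  set t := τ * σ l with ht
  have hq : 1 ≤ q := by
    rcases Nat.eq_zero_or_pos q with h0 | h0
    · rw [h0] at hF
      have := Fintype.card_pos (α := F)
      omega
    · exact h0
  have hgf : g f = l • (f + t • x) := by
    rw [dec, ht, smul_add, smul_smul, add_comm]
    congr 2
    rw [mul_comm τ, ← mul_assoc, hN, one_mul]
  have hzero : t + σ t = 0 := by
    have h1 : h (g f) (g f) = 0 := by rw [hiso, H.hp.ff]
    rw [hgf] at h1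
    simp only [S.add_left, S.add_right, S.smul_left, S.smul_right, H.hp.ee, H.hp.ff, H.xf S, H.hp.fe] at h1
    have hnm : l * σ l ≠ 0 := mul_ne_zero hl hsl
    apply mul_left_cancel₀ hnm
    linear_combination h1
  have hlam : t ∈ Lam hF := mem_Lam.mpr hzero
  have hlamn : -t ∈ Lam hF := (sg_Lam hF).neg hlam
  have hsp := E_self_pow hF S hV H hgx hgf hκ (q ^ 2 - 1)
  rw [pow_card_sub_one_eq hF hl, pow_card_sub_one_eq hF hκ0, cast_card_sub hF hq] at hsp
  obtain ⟨s1, s2, s3⟩ := hsp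
  rw [one_smul] at s1 s2 s3
  have hvn : Val (σ) h x 0 (-t) := val_Z hF S H.hp.ee hlamn
  have hE : (E S x 0 (-t)).1 = g ^ (q ^ 2 - 1) := by
    apply H.ext S hV
    · rw [H.E_x S hvn, s1]
    · rw [Fr.E_z S hvn, s2, H.hp.fe]
      ring_nf
    · rw [Fr.E_z S hvn, s3, H.cx]
      simp
  have hAbn : -t ∈ Ab hF S J x := by
    rw [mem_Ab]
    refine ⟨hlamn, ?_⟩
    rw [hE]
    exact pow_mem hg _
  have hAb : t ∈ Ab hF S J x := by
    have := (sg_Ab hF S J H.hp.ee).neg hAbn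
    rwa [neg_neg] at this
  have hzJ : (E S x 0 t).1 ∈ J := ((mem_Ab hF S).mp hAb).2
  have hvt : Val (σ) h x 0 t := val_Z hF S H.hp.ee hlam
  refine ⟨t, hAb, (E S x 0 t).1⁻¹ * g, Subgroup.mem_inf.mpr ⟨mul_mem (inv_mem hzJ) hg, l, hl, ?_⟩, ?_⟩
  · intro v hv
    apply (E S x 0 t).1.injective
    have e3 : (E S x 0 t).1 (((E S x 0 t).1⁻¹ * g) v) = g v := (E S x 0 t).1.apply_symm_apply (g v)
    rw [e3, map_smul]
    have d := H.decomp_perp S hV hv
    conv_lhs => rw [d]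
    conv_rhs => rw [d]
    rw [map_add, map_smul, map_smul, hgx, hgf, map_add, map_smul, map_smul, H.E_x S hvt, Fr.E_z S hvt, H.hp.fe]
    module
  · group

/-- The scalar on a line with an isotropic point has norm one. -/
theorem scal_norm (H : Fr h x f c) {g₀ : V ≃ₗ[F] V} (hg₀ : g₀ ∈ uGroup h) {μ : F} (hs : ∀ v, h v c = 0 → g₀ v = μ • v) :
    μ * σ μ = 1 := by
  have h1 : h (g₀ x) (g₀ f) = h x f := hg₀ x f
  rw [hs x (H.xc S), hs f (H.fc S), S.smul_left, S.smul_right, H.xf S] at h1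
  linear_combination h1

/-- **The order of the stabilizer of a point**. -/
theorem card_Jx (H : Fr h x f c) (hL : Ln h J c) :
    Nat.card ↥(J ⊓ pstab h x (H.ne_x S)) =
      Nat.card ((Ig J x).map (Nmh hF)) * ((Ab hF S J x).card * Nat.card ↥(J ⊓ ScalOn h c)) := by
  have hx := H.ne_x S
  haveI := finite_H (F := F) (V := V) (J ⊓ pstab h x hx)
  let f₁ : ↥(J ⊓ pstab h x hx) →* Fˣ := (lamHom h x hx).comp (Subgroup.inclusion inf_le_right)
  let f₂ : ↥(J ⊓ pstab h x hx) →* Fˣ := (Nmh hF).comp f₁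
  have h1 := card_hom f₂
  have hf : ∀ g : ↥(J ⊓ pstab h x hx), g.1 x = ((f₁ g : Fˣ) : F) • x := fun g =>
    lamHom_spec (Subgroup.inclusion inf_le_right g)
  have hf' : ∀ (g : ↥(J ⊓ pstab h x hx)) {a : F}, g.1 x = a • x → ((f₁ g : Fˣ) : F) = a := fun g a ha =>
    lamHom_eq (Subgroup.inclusion inf_le_right g) ha
  have h2 : f₂.range = (Ig J x).map (Nmh hF) := by
    ext u
    constructor
    · rintro ⟨g, rfl⟩
      exact Subgroup.mem_map.mpr ⟨f₁ g, ⟨g.1, g.2.1, hf g⟩, rfl⟩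
    · intro hu
      obtain ⟨v, ⟨g, hg, hgv⟩, rfl⟩ := Subgroup.mem_map.mp hu
      have hmem : g ∈ J ⊓ pstab h x hx := Subgroup.mem_inf.mpr ⟨hg, hL.le hg, v, hgv⟩
      refine ⟨⟨g, hmem⟩, ?_⟩
      show Nmh hF (f₁ ⟨g, hmem⟩) = _
      congr 1
      ext
      exact hf' ⟨g, hmem⟩ hgv
  have hz : ∀ l ∈ Ab hF S J x, Val (σ) h x 0 l := fun l hl => val_Z hF S H.hp.ee ((mem_Ab hF S).mp hl).1
  have hm1 : ∀ p : ↥(Ab hF S J x) × ↥(J ⊓ ScalOn h c), ∃ μ : F, μ ≠ 0 ∧ ∀ v, h v c = 0 → p.2.1 v = μ • v :=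
    fun p => (Subgroup.mem_inf.mp p.2.2).2
  have hm2 : ∀ p : ↥(Ab hF S J x) × ↥(J ⊓ ScalOn h c), (E S x 0 p.1.1).1 * p.2.1 ∈ J ⊓ pstab h x hx := by
    intro p
    obtain ⟨μ, hμ, hs⟩ := hm1 p
    have h3 := ((mem_Ab hF S).mp p.1.2).2
    have h4 := (Subgroup.mem_inf.mp p.2.2).1
    refine Subgroup.mem_inf.mpr ⟨mul_mem h3 h4, hL.le (mul_mem h3 h4), μ, ?_⟩
    show (E S x 0 p.1.1).1 (p.2.1 x) = _
    rw [hs x (H.xc S), map_smul, H.E_x S (hz _ p.1.2)]
  have hm3 : ∀ p : ↥(Ab hF S J x) × ↥(J ⊓ ScalOn h c), f₂ ⟨_, hm2 p⟩ = 1 := by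
    intro p
    obtain ⟨μ, hμ, hs⟩ := hm1 p
    ext
    show ((Nmh hF (f₁ ⟨_, hm2 p⟩) : Fˣ) : F) = 1
    have h4 := (Subgroup.mem_inf.mp p.2.2).1
    have e : ((f₁ ⟨_, hm2 p⟩ : Fˣ) : F) = μ := by
      apply hf'
      show (E S x 0 p.1.1).1 (p.2.1 x) = _
      rw [hs x (H.xc S), map_smul, H.E_x S (hz _ p.1.2)]
    rw [Nmh_val, e]
    exact scal_norm hF S hV H (mem_suGroup.mp (hL.le h4)).1 hs
  have h3 : Nat.card f₂.ker = (Ab hF S J x).card * Nat.card ↥(J ⊓ ScalOn h c) := by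
    have e1 : (Ab hF S J x).card = Nat.card ↥(Ab hF S J x) := by
      rw [Nat.card_eq_fintype_card, Fintype.card_coe]
    rw [e1, ← Nat.card_prod]
    symm
    apply Nat.card_congr
    refine Equiv.ofBijective (fun p => ⟨⟨_, hm2 p⟩, hm3 p⟩) ⟨?_, ?_⟩
    · rintro ⟨⟨l, hl⟩, ⟨g₀, hg₀⟩⟩ ⟨⟨l', hl'⟩, ⟨g₀', hg₀'⟩⟩ he
      have he' : (E S x 0 l).1 * g₀ = (E S x 0 l').1 * g₀' := by
        have := congrArg (fun k : f₂.ker => k.1.1) he
        exact this
      obtain ⟨μ, hμ, hs⟩ := (Subgroup.mem_inf.mp hg₀).2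
      obtain ⟨μ', hμ', hs'⟩ := (Subgroup.mem_inf.mp hg₀').2
      have e2 : (E S x 0 l).1 (g₀ f) = (E S x 0 l').1 (g₀' f) := by
        exact congrArg (fun k : V ≃ₗ[F] V => k f) he'
      rw [hs f (H.fc S), hs' f (H.fc S), map_smul, map_smul, Fr.E_z S (hz _ hl), Fr.E_z S (hz _ hl'), H.hp.fe] at e2
      have e3 := congrArg (fun v => h v x) e2
      have e4 := congrArg (fun v => h v f) e2
      simp only [S.add_left, S.smul_left, H.hp.fe, H.hp.ee, H.hp.ff, H.xf S] at e3 e4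
      have e5 : μ = μ' := by linear_combination e3
      have e6 : l = l' := by
        rw [← e5] at e4
        apply mul_left_cancel₀ hμ
        linear_combination e4
      subst e6
      have e7 : g₀ = g₀' := mul_left_cancel he'
      subst e7
      rfl
    · rintro ⟨⟨g, hg⟩, hk⟩
      have hk' : f₂ ⟨g, hg⟩ = 1 := hk
      have hN : ((f₁ ⟨g, hg⟩ : Fˣ) : F) * σ ((f₁ ⟨g, hg⟩ : Fˣ) : F) = 1 := by
        have := congrArg (Units.val) hk'
        exact this
      obtain ⟨l, hl, g₀, hg₀, he⟩ := kn hF S hV H hL (Subgroup.mem_inf.mp hg).1 (f₁ ⟨g, hg⟩).ne_zero (hf ⟨g, hg⟩) hN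
      refine ⟨(⟨l, hl⟩, ⟨g₀, hg₀⟩), ?_⟩
      apply Subtype.ext
      apply Subtype.ext
      exact he.symm
  rw [h1, h2, h3]

end Cfsg.Agent.Lib.MinU3.Ker
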