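/-
The count for a subgroup of the stabilizer of a non-isotropic point which is transitive on the isotropic points of
the line.
-/
import Mathlib
import Cfsg.Agent.Lib.MinU3.Ker

set_option autoImplicit false
set_option linter.unusedSectionVars false
set_option linter.unusedVariables false
set_option linter.unusedSimpArgs false
set_option linter.style.haveILetI false

namespace Cfsg.Agent.Lib.MinU3.LC

open Module Cfsg.Agent.Lib.MinU.Four Cfsg.Agent.Lib.MinU.Fld Cfsg.Agent.Lib.MinU.Sp Cfsg.Agent.Lib.MinU.Eich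
open Cfsg.Agent.Lib.HermCount.Field
open Cfsg.Agent.Lib.Classical.HermBasic Cfsg.Agent.Lib.Classical.HermElem Cfsg.Agent.Lib.Classical.HermGen
open Cfsg.Agent.Lib.Classical.HermBridge
open Cfsg.Agent.Lib.MinU3.Basic Cfsg.Agent.Lib.MinU3.Pts Cfsg.Agent.Lib.MinU3.Grp Cfsg.Agent.Lib.MinU3.Trans
open Cfsg.Agent.Lib.MinU3.Cnt Cfsg.Agent.Lib.MinU3.Ker
open scoped _root_.Classical LinearAlgebra.Projectivization

attribute [-simp] frobHom_apply

universe u v w

variable {F : Type u} [Field F] [Fintype F] {q : ℕ} (hF : Fintype.card F = q ^ 2)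

local notation "σ" => frobHom hF

variable {V : Type v} [AddCommGroup V] [Module F V] [FiniteDimensional F V] {h : V → V → F}
  (S : HForm (frobHom hF) h) (hV : finrank F V = 3)

variable {J : Subgroup (V ≃ₗ[F] V)} {x f c : V}

include S hV

/-- A frame on a line through a given isotropic point. -/
theorem exists_fr_line {y : V} (hy : y ≠ 0) (hyy : h y y = 0) (hyc : h y c = 0) (hcc : h c c ≠ 0) : ∃ f', Fr h y f' c := by
  have hσ := invol_frob hF
  obtain ⟨f₁, hff, hfx⟩ := S.exists_partner hσ hy hyy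
  have hcy : h c y = 0 := S.zero_symm hyc
  set f₂ := f₁ - (h f₁ c / h c c) • c with hf₂
  have e1 : h f₂ y = 1 := by
    rw [hf₂, S.sub_left, S.smul_left, hfx, hcy]
    ring
  have e2 : h f₂ c = 0 := by
    rw [hf₂, S.sub_left, S.smul_left]
    field_simp
    ring
  have e3 : h y f₂ = 1 := by
    have := S.conj' f₂ y
    rw [e1, map_one] at this
    exact this.symm
  obtain ⟨α, hα⟩ := hσ.exists_trace (-(h f₂ f₂)) (by rw [map_neg, S.self_fix])
  have hf₃ : h (f₂ + α • y) (f₂ + α • y) = 0 := by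
    simp only [S.add_left, S.add_right, S.smul_left, S.smul_right, hyy, e1, e3]
    linear_combination hα
  have e4 : h (f₂ + α • y) y = 1 := by
    rw [S.add_left, S.smul_left, hyy, e1]
    ring
  have e5 : h (f₂ + α • y) c = 0 := by
    rw [S.add_left, S.smul_left, hyc, e2]
    ring
  exact ⟨f₂ + α • y, ⟨hyy, hf₃, e4⟩, hcy, S.zero_symm e5, hcc⟩

/-- **The eigenvectors of a transvection times a scalar**. -/
theorem ey_fix (hcc : h c c ≠ 0) {y : V} (hy : y ≠ 0) (hyy : h y y = 0) (hyc : h y c = 0) {ℓ : F} (hℓ : ℓ ∈ Lam hF)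
    (hℓ0 : ℓ ≠ 0) {g₀ : V ≃ₗ[F] V} {μ : F} (hμ : μ ≠ 0) (hs : ∀ v, h v c = 0 → g₀ v = μ • v) {v : V} (hv : h v c = 0)
    {ν : F} (hg : (E S y 0 ℓ).1 (g₀ v) = ν • v) : ∃ b : F, v = b • y := by
  obtain ⟨f', H⟩ := exists_fr_line hF S hV hy hyy hyc hcc
  have hz := val_Z hF S hyy hℓ
  rw [hs v hv, map_smul, Fr.E_z S hz] at hg
  have d := H.decomp_perp S hV hv
  by_cases hb : h v y = 0
  · refine ⟨h v f', ?_⟩
    conv_lhs => rw [d]
    rw [hb, zero_smul, add_zero]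
  · exfalso
    have e1 := congrArg (fun w => h w y) hg
    have e2 := congrArg (fun w => h w f') hg
    simp only [S.smul_left, S.add_left, hyy, H.xf S] at e1 e2
    have e3 : μ = ν := by
      apply mul_right_cancel₀ hb
      linear_combination e1
    rw [e3] at e2
    have hν : ν ≠ 0 := e3 ▸ hμ
    have : ν * (ℓ * h v y) = 0 := by linear_combination e2
    rcases mul_eq_zero.mp this with h1 | h1
    · exact hν h1
    · rcases mul_eq_zero.mp h1 with h2 | h2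
      · exact hℓ0 h2
      · exact hb h2

/-- A transvection times a scalar is not a scalar. -/
theorem ey_not_scal (hcc : h c c ≠ 0) {y : V} (hy : y ≠ 0) (hyy : h y y = 0) (hyc : h y c = 0) {ℓ : F} (hℓ : ℓ ∈ Lam hF)
    (hℓ0 : ℓ ≠ 0) {g₀ : V ≃ₗ[F] V} (hg₀ : g₀ ∈ ScalOn h c) : (E S y 0 ℓ).1 * g₀ ∉ ScalOn h c := by
  intro hcon
  obtain ⟨f', H⟩ := exists_fr_line hF S hV hy hyy hyc hcc
  have hz := val_Z hF S hyy hℓ
  obtain ⟨μ, hμ, hs⟩ := hg₀
  obtain ⟨ν, hν, hs'⟩ := hcon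
  have e := hs' f' (H.fc S)
  have e' : (E S y 0 ℓ).1 (g₀ f') = ν • f' := e
  rw [hs f' (H.fc S), map_smul, Fr.E_z S hz, H.hp.fe] at e'
  have e2 := congrArg (fun w => h w f') e'
  simp only [S.smul_left, S.add_left, H.hp.ff, H.xf S] at e2
  have : μ * ℓ = 0 := by linear_combination e2
  rcases mul_eq_zero.mp this with h1 | h1
  · exact hμ h1
  · exact hℓ0 h1

/-- The unique writing. -/
theorem z_inj (hcc : h c c ≠ 0) {y : V} (hy : y ≠ 0) (hyy : h y y = 0) (hyc : h y c = 0) {l l' : F} (hl : l ∈ Lam hF)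
    (hl' : l' ∈ Lam hF) {g₀ g₀' : V ≃ₗ[F] V} (hg₀ : g₀ ∈ ScalOn h c) (hg₀' : g₀' ∈ ScalOn h c)
    (he : (E S y 0 l).1 * g₀ = (E S y 0 l').1 * g₀') : l = l' ∧ g₀ = g₀' := by
  obtain ⟨f', H⟩ := exists_fr_line hF S hV hy hyy hyc hcc
  obtain ⟨μ, hμ, hs⟩ := hg₀
  obtain ⟨μ', hμ', hs'⟩ := hg₀'
  have e2 : (E S y 0 l).1 (g₀ f') = (E S y 0 l').1 (g₀' f') := congrArg (fun k : V ≃ₗ[F] V => k f') he
  rw [hs f' (H.fc S), hs' f' (H.fc S), map_smul, map_smul, Fr.E_z S (val_Z hF S hyy hl), Fr.E_z S (val_Z hF S hyy hl'),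
    H.hp.fe] at e2
  have e3 := congrArg (fun v => h v y) e2
  have e4 := congrArg (fun v => h v f') e2
  simp only [S.add_left, S.smul_left, H.hp.fe, H.hp.ee, H.hp.ff, H.xf S] at e3 e4
  have e5 : μ = μ' := by linear_combination e3
  have e6 : l = l' := by
    rw [← e5] at e4
    apply mul_left_cancel₀ hμ
    linear_combination e4
  subst e6
  exact ⟨rfl, mul_left_cancel he⟩

/-- The elements with a unique fixed point attached to `y`. -/
noncomputable def Ey (S : HForm (frobHom hF) h) (J : Subgroup (V ≃ₗ[F] V)) (c y : V) : Finset J :=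
  haveI := finite_H (F := F) (V := V) J
  haveI : Fintype J := Fintype.ofFinite _
  Finset.univ.filter fun g => ∃ l ∈ (Ab hF S J y).erase 0, ∃ g₀ ∈ J ⊓ ScalOn h c, g.1 = (E S y 0 l).1 * g₀

omit hV in
theorem mem_Ey {y : V} {g : J} : g ∈ Ey hF S J c y ↔
    ∃ l ∈ (Ab hF S J y).erase 0, ∃ g₀ ∈ J ⊓ ScalOn h c, g.1 = (E S y 0 l).1 * g₀ := by
  simp [Ey]

theorem card_Ey (hcc : h c c ≠ 0) {y : V} (hy : y ≠ 0) (hyy : h y y = 0) (hyc : h y c = 0) :
    (Ey hF S J c y).card = ((Ab hF S J y).card - 1) * Nat.card ↥(J ⊓ ScalOn h c) := by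
  have e0 : (0 : F) ∈ Ab hF S J y := (sg_Ab hF S J hyy).zero
  have e1 : (Ab hF S J y).card - 1 = Nat.card ↥((Ab hF S J y).erase 0) := by
    rw [Nat.card_eq_fintype_card, Fintype.card_coe, Finset.card_erase_of_mem e0]
  have e2 : (Ey hF S J c y).card = Nat.card ↥(Ey hF S J c y) := by
    rw [Nat.card_eq_fintype_card, Fintype.card_coe]
  rw [e1, e2, ← Nat.card_prod]
  symm
  apply Nat.card_congr
  have hm : ∀ p : ↥((Ab hF S J y).erase 0) × ↥(J ⊓ ScalOn h c), (E S y 0 p.1.1).1 * p.2.1 ∈ J := by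
    intro p
    exact mul_mem ((mem_Ab hF S).mp (Finset.mem_of_mem_erase p.1.2)).2 (Subgroup.mem_inf.mp p.2.2).1
  refine Equiv.ofBijective (fun p => ⟨⟨_, hm p⟩, (mem_Ey hF S).mpr ⟨p.1.1, p.1.2, p.2.1, p.2.2, rfl⟩⟩) ⟨?_, ?_⟩
  · rintro ⟨⟨l, hl⟩, ⟨g₀, hg₀⟩⟩ ⟨⟨l', hl'⟩, ⟨g₀', hg₀'⟩⟩ he
    have he' : (E S y 0 l).1 * g₀ = (E S y 0 l').1 * g₀' := by
      have := congrArg (fun k : ↥(Ey hF S J c y) => k.1.1) he
      exact this
    obtain ⟨e6, e7⟩ := z_inj hF S hV hcc hy hyy hyc ((mem_Ab hF S).mp (Finset.mem_of_mem_erase hl)).1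
      ((mem_Ab hF S).mp (Finset.mem_of_mem_erase hl')).1 (Subgroup.mem_inf.mp hg₀).2 (Subgroup.mem_inf.mp hg₀').2 he'
    subst e6 e7
    rfl
  · rintro ⟨g, hg⟩
    obtain ⟨l, hl, g₀, hg₀, he⟩ := (mem_Ey hF S).mp hg
    refine ⟨(⟨l, hl⟩, ⟨g₀, hg₀⟩), ?_⟩
    apply Subtype.ext
    apply Subtype.ext
    exact he.symm

omit S hV in
theorem smul_eq_of {M : Subgroup (V ≃ₗ[F] V)} (g : M) {a b : ℙ F V} {k : F} (hk : g.1 a.rep = k • b.rep) : g • a = b := by
  rw [← a.mk_rep, ← b.mk_rep, smul_mk_eq, mk_eq_iff]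
  exact ⟨k, hk.symm⟩

/-- The elements of the count. -/
noncomputable def Eall (S : HForm (frobHom hF) h) (J : Subgroup (V ≃ₗ[F] V)) (c : V) : Finset J :=
  haveI : Fintype (ℙ F V) := Fintype.ofFinite _
  (Finset.univ.filter fun p : ℙ F V => IsoP h p ∧ PerpP h c p).biUnion fun p => Ey hF S J c p.rep

/-- **The count**. -/
theorem line_count (H : Fr h x f c) (hL : Ln h J c)
    (htr : ∀ y z : V, y ≠ 0 → z ≠ 0 → h y y = 0 → h z z = 0 → h y c = 0 → h z c = 0 → ∃ g ∈ J, ∃ b : F, g y = b • z) :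
    ∃ m : Multiset ℕ, m.sum = q ^ 2 - q ∧
      (∀ s ∈ m, s ∣ (q + 1) * ((Ab hF S J x).card * Nat.card ((Ig J x).map (Nmh hF))) ∧ 0 < s) ∧
      (Multiset.card m + 1) * ((q + 1) * ((Ab hF S J x).card * Nat.card ((Ig J x).map (Nmh hF)))) +
        (q + 1) * ((Ab hF S J x).card - 1) + 2 ≤
        q ^ 2 + 1 + 2 * ((q + 1) * ((Ab hF S J x).card * Nat.card ((Ig J x).map (Nmh hF)))) := by
  haveI := finite_H (F := F) (V := V) J
  haveI : Fintype (ℙ F V) := Fintype.ofFinite _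
  have hq : 1 ≤ q := by
    rcases Nat.eq_zero_or_pos q with h0 | h0
    · rw [h0] at hF
      have := Fintype.card_pos (α := F)
      omega
    · exact h0
  have hcc := hL.cc
  set a := (Ab hF S J x).card with ha
  set τ := Nat.card ((Ig J x).map (Nmh hF)) with hτ
  set j₀ := Nat.card ↥(J ⊓ ScalOn h c) with hj₀
  have hx := H.ne_x S
  have hxL : Projectivization.mk F x hx ∈ LS hF S hL :=
    ⟨(isoP_mk hF S hx).mpr H.hp.ee, (perpP_mk hF S hx).mpr (H.xc S)⟩
  -- transitivity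
  have htr' : ∀ p r : ℙ F V, p ∈ LS hF S hL → r ∈ LS hF S hL → ∃ g : J, g • p = r := by
    intro p r hp hr
    obtain ⟨g, hg, b, hb⟩ := htr p.rep r.rep p.rep_nonzero r.rep_nonzero hp.1 hr.1 hp.2 hr.2
    exact ⟨⟨g, hg⟩, smul_eq_of (g := ⟨g, hg⟩) hb⟩
  haveI : MulAction.IsPretransitive J (LS hF S hL) := by
    constructor
    rintro ⟨p, hp⟩ ⟨r, hr⟩
    obtain ⟨g, hg⟩ := htr' p r hp hr
    exact ⟨g, Subtype.ext hg⟩
  haveI : Nonempty (LS hF S hL) := ⟨⟨_, hxL⟩⟩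
  -- the order
  have horb : Nat.card (MulAction.orbit J (Projectivization.mk F x hx)) = q + 1 := by
    rw [← card_LS hF S H hV hL]
    apply Nat.card_congr
    apply Equiv.subtypeEquivRight
    intro p
    constructor
    · rintro ⟨g, rfl⟩
      exact (LS hF S hL).smul_mem' g hxL
    · intro hp
      obtain ⟨g, hg⟩ := htr' _ p hxL hp
      exact ⟨g, hg⟩
  have hcard : Nat.card J = (q + 1) * (τ * (a * j₀)) := by
    rw [← orbit_stab hF hL.le hx, horb, card_Jx hF S hV H hL]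
  have hj₀' : Nat.card ((ScalOn h c).subgroupOf J) = j₀ := by
    apply Nat.card_congr
    refine ⟨fun g => ⟨g.1.1, Subgroup.mem_inf.mpr ⟨g.1.2, g.2⟩⟩,
      fun g => ⟨⟨g.1, (Subgroup.mem_inf.mp g.2).1⟩, (Subgroup.mem_inf.mp g.2).2⟩, ?_, ?_⟩
    · intro g
      rfl
    · intro g
      rfl
  -- the set `E`
  set LF : Finset (ℙ F V) := Finset.univ.filter fun p : ℙ F V => IsoP h p ∧ PerpP h c p with hLF
  have hLFc : LF.card = q + 1 := by
    rw [← card_LS hF S H hV hL, ← Nat.card_eq_fintype_card.trans (Fintype.card_coe LF)]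
    apply Nat.card_congr
    apply Equiv.subtypeEquivRight
    intro p
    rw [hLF, Finset.mem_filter]
    simp only [Finset.mem_univ, true_and]
    rfl
  have hAb : ∀ p ∈ LF, (Ab hF S J p.rep).card = a := by
    intro p hp
    rw [hLF, Finset.mem_filter] at hp
    obtain ⟨g, hg, b, hb⟩ := htr x p.rep hx p.rep_nonzero H.hp.ee hp.2.1 (H.xc S) hp.2.2
    have hb0 : b ≠ 0 := by
      rintro rfl
      rw [zero_smul] at hb
      exact hx (g.map_eq_zero_iff.mp hb)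
    exact (card_Ab_eq hF S hV hL.le H.hp.ee hp.2.1 p.rep_nonzero hg hb0 hb).symm
  have hdata : ∀ p ∈ LF, ∀ g : J, g ∈ Ey hF S J c p.rep → g.1 ∉ ScalOn h c ∧ g • p = p ∧
      ∀ r : ℙ F V, PerpP h c r → g • r = r → r = p := by
    intro p hp g hg
    rw [hLF, Finset.mem_filter] at hp
    obtain ⟨-, hp1, hp2⟩ := hp
    obtain ⟨l, hl, g₀, hg₀, he⟩ := (mem_Ey hF S).mp hg
    have hl1 := ((mem_Ab hF S).mp (Finset.mem_of_mem_erase hl)).1
    have hl0 := Finset.ne_of_mem_erase hl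
    have hg₀' := Subgroup.mem_inf.mp hg₀
    obtain ⟨μ, hμ, hs⟩ := hg₀'.2
    refine ⟨?_, ?_, ?_⟩
    · rw [he]
      exact ey_not_scal hF S hV hcc p.rep_nonzero hp1 hp2 hl1 hl0 hg₀'.2
    · apply smul_eq_of (k := μ)
      rw [he]
      show (E S p.rep 0 l).1 (g₀ p.rep) = _
      rw [hs _ hp2, map_smul, Fr.E_z S (val_Z hF S hp1 hl1), hp1]
      simp
    · intro r hr hgr
      obtain ⟨ν, hν⟩ := eig_of_fix g hgr
      rw [he] at hν
      obtain ⟨b, hb⟩ := ey_fix hF S hV hcc p.rep_nonzero hp1 hp2 hl1 hl0 hμ hs hr hν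
      rw [← r.mk_rep, ← p.mk_rep, mk_eq_iff]
      exact ⟨b, hb.symm⟩
  have hdisj : (LF : Set (ℙ F V)).PairwiseDisjoint fun p => Ey hF S J c p.rep := by
    intro p hp r hr hne
    rw [Function.onFun, Finset.disjoint_left]
    intro g hgp hgr
    obtain ⟨-, h2, -⟩ := hdata p hp g hgp
    obtain ⟨-, -, h3⟩ := hdata r hr g hgr
    have hp' := Finset.mem_filter.mp (Finset.mem_coe.mp hp)
    exact hne (h3 p hp'.2.2 h2)
  have hEcard : (Eall hF S J c).card = j₀ * ((q + 1) * (a - 1)) := by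
    have e0 : Eall hF S J c = LF.biUnion fun p => Ey hF S J c p.rep := by
      rw [Eall]
      convert rfl
    rw [e0, Finset.card_biUnion hdisj]
    have : ∀ p ∈ LF, (Ey hF S J c p.rep).card = (a - 1) * j₀ := by
      intro p hp
      have hp' := Finset.mem_filter.mp hp
      rw [card_Ey hF S hV hcc p.rep_nonzero hp'.2.1 hp'.2.2, hAb p hp]
    rw [Finset.sum_congr rfl this, Finset.sum_const, hLFc, smul_eq_mul]
    ring
  have key := Cfsg.Agent.Lib.MinU3.Abs.abs_count (J := J) (L := LS hF S hL) (Y := YS hF S hL)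
    ((ScalOn h c).subgroupOf J) (Eall hF S J c) (q := q) (n := (q + 1) * (a * τ)) (f₁ := (q + 1) * (a - 1)) hq
    (card_LS hF S H hV hL) (card_YS hF S H hV hL) (by rw [hcard, hj₀']; ring) (by rw [hj₀']; exact hEcard)
    ?_ ?_ ?_
  · exact key
  · -- `J₀` acts trivially
    rintro g hg ⟨p, hp⟩
    apply Subtype.ext
    obtain ⟨μ, hμ, hs⟩ : g.1 ∈ ScalOn h c := hg
    exact smul_eq_of g (k := μ) (hs _ hp.2)
  · intro g hg
    exact fix_two hF S hV H hL g hg
  · intro g hgE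
    have e0 : Eall hF S J c = LF.biUnion fun p => Ey hF S J c p.rep := by
      rw [Eall]
      convert rfl
    rw [e0, Finset.mem_biUnion] at hgE
    obtain ⟨p, hp, hgp⟩ := hgE
    obtain ⟨h1, h2, h3⟩ := hdata p hp g hgp
    refine ⟨h1, ?_⟩
    have := fix_add_le (LS hF S hL) (YS hF S hL) (fun r hr hy => hy.1 hr.1) g {p}
      (fun r hr hgr => Finset.mem_singleton.mpr (h3 r hr.2 hgr))
      (fun r hr hgr => Finset.mem_singleton.mpr (h3 r hr.2 hgr))
    simpa using this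

end Cfsg.Agent.Lib.MinU3.LC
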