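/-
The constraints on the eigenvalues and the parameters of the stabilizer of a point in a subgroup.
-/
import Mathlib
import Cfsg.Agent.Lib.MinU3.LC

set_option autoImplicit false
set_option linter.unusedSectionVars false
set_option linter.unusedVariables false
set_option linter.unusedSimpArgs false
set_option linter.style.haveILetI false

namespace Cfsg.Agent.Lib.MinU3.Str

open Module Cfsg.Agent.Lib.MinU.Four Cfsg.Agent.Lib.MinU.Fld Cfsg.Agent.Lib.MinU.Sp Cfsg.Agent.Lib.MinU.Eich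
open Cfsg.Agent.Lib.HermCount.Field
open Cfsg.Agent.Lib.Classical.HermBasic Cfsg.Agent.Lib.Classical.HermElem Cfsg.Agent.Lib.Classical.HermGen
open Cfsg.Agent.Lib.Classical.HermBridge
open Cfsg.Agent.Lib.MinU3.Basic Cfsg.Agent.Lib.MinU3.Pts Cfsg.Agent.Lib.MinU3.Grp Cfsg.Agent.Lib.MinU3.Trans
open Cfsg.Agent.Lib.MinU3.Cnt Cfsg.Agent.Lib.MinU3.Ker Cfsg.Agent.Lib.MinU3.LC
open scoped _root_.Classical LinearAlgebra.Projectivization

attribute [-simp] frobHom_apply

universe u v w

section gen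

/-- A free action. -/
theorem free_dvd {Γ : Type u} {X : Type v} [Group Γ] [Finite Γ] [Finite X] [MulAction Γ X]
    (hfree : ∀ (g : Γ) (x : X), g • x = x → g = 1) : Nat.card Γ ∣ Nat.card X := by
  haveI : Fintype (MulAction.orbitRel.Quotient Γ X) := Fintype.ofFinite _
  rw [Nat.card_congr (MulAction.selfEquivSigmaOrbits' Γ X), Nat.card_sigma]
  apply Finset.dvd_sum
  intro O _
  induction O using Quotient.inductionOn' with
  | h y =>
    have e1 : MulAction.orbitRel.Quotient.orbit (Quotient.mk'' y : MulAction.orbitRel.Quotient Γ X) =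
        MulAction.orbit Γ y := MulAction.orbitRel.Quotient.orbit_mk y
    have e2 : Nat.card (MulAction.orbitRel.Quotient.orbit (Quotient.mk'' y : MulAction.orbitRel.Quotient Γ X)) =
        Nat.card (MulAction.orbit Γ y) := by
      rw [e1]
    rw [e2]
    have h3 := Cfsg.Agent.Lib.MinU3.Abs.orb_card (J := Γ) y
    have h4 : Nat.card (MulAction.stabilizer Γ y) = 1 := by
      rw [Nat.card_eq_one_iff_unique]
      refine ⟨⟨?_⟩, ⟨1⟩⟩
      rintro ⟨a, ha⟩ ⟨b, hb⟩
      apply Subtype.ext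
      show a = b
      rw [hfree a y ha, hfree b y hb]
    rw [h4, mul_one] at h3
    rw [h3]

theorem card_map_mul {G : Type u} {K : Type v} [Group G] [Group K] [Finite G] (I : Subgroup G) (f : G →* K) :
    Nat.card I = Nat.card (I.map f) * Nat.card ↥(I ⊓ f.ker) := by
  have h1 := card_hom (f.comp I.subtype)
  have h2 : (f.comp I.subtype).range = I.map f := by
    rw [MonoidHom.range_comp, Subgroup.range_subtype]
  have h3 : Nat.card (f.comp I.subtype).ker = Nat.card ↥(I ⊓ f.ker) := by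
    apply Nat.card_congr
    refine ⟨fun g => ⟨g.1.1, Subgroup.mem_inf.mpr ⟨g.1.2, g.2⟩⟩,
      fun g => ⟨⟨g.1, (Subgroup.mem_inf.mp g.2).1⟩, (Subgroup.mem_inf.mp g.2).2⟩, ?_, ?_⟩
    · intro g
      rfl
    · intro g
      rfl
  rw [h1, h2, h3]

/-- In a cyclic group the order of a subgroup of exponent dividing `n` divides `n`. -/
theorem card_dvd_of_pow {G : Type u} [Group G] [IsCyclic G] [Finite G] (K : Subgroup G) {n : ℕ}
    (hK : ∀ u ∈ K, u ^ n = 1) : Nat.card K ∣ n := by
  haveI : IsCyclic K := inferInstance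
  obtain ⟨g, hg⟩ := IsCyclic.exists_generator (α := K)
  rw [← orderOf_eq_card_of_forall_mem_zpowers hg]
  apply orderOf_dvd_of_pow_eq_one
  apply Subtype.ext
  simpa using hK g.1 g.2

variable {E : Type u} [AddCommGroup E] [Finite E]

/-- Lagrange for additive subgroups given as finsets. -/
theorem sg_dvd {I B : Finset E} (hI : Sg I) (hB : Sg B) (hle : I ⊆ B) : I.card ∣ B.card := by
  let I' : AddSubgroup E := ⟨⟨⟨(I : Set E), fun {a b} ha hb => hI.add ha hb⟩, hI.zero⟩, fun {a} ha => hI.neg ha⟩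
  let B' : AddSubgroup E := ⟨⟨⟨(B : Set E), fun {a b} ha hb => hB.add ha hb⟩, hB.zero⟩, fun {a} ha => hB.neg ha⟩
  have h1 : I' ≤ B' := fun a ha => hle ha
  have h2 := AddSubgroup.card_dvd_of_le h1
  have e1 : Nat.card I' = I.card := by
    have : Nat.card I' = Nat.card ↥I := rfl
    rw [this, Nat.card_eq_fintype_card, Fintype.card_coe]
  have e2 : Nat.card B' = B.card := by
    have : Nat.card B' = Nat.card ↥B := rfl
    rw [this, Nat.card_eq_fintype_card, Fintype.card_coe]
  rwa [e1, e2] at h2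

end gen

section units

variable {F : Type u} [Field F] [Finite F]

/-- A subgroup of the units stabilizing a set acts freely on its non-zero elements. -/
theorem units_dvd (Γ : Subgroup Fˣ) (X : Finset F) (hX : ∀ u ∈ Γ, ∀ ξ ∈ X, (u : F) * ξ ∈ X) :
    Nat.card Γ ∣ (X.erase 0).card := by
  have he : ∀ (g : Γ) (ξ : F), g • ξ = ((g.1 : Fˣ) : F) * ξ := fun g ξ => rfl
  let T : SubMulAction Γ F :=
    { carrier := ((X.erase 0 : Finset F) : Set F)
      smul_mem' := by
        intro g ξ hξ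
        have hξ' := Finset.mem_erase.mp (Finset.mem_coe.mp hξ)
        apply Finset.mem_coe.mpr
        apply Finset.mem_erase.mpr
        rw [he]
        exact ⟨mul_ne_zero g.1.ne_zero hξ'.1, hX g.1 g.2 ξ hξ'.2⟩ }
  have h1 : Nat.card T = (X.erase 0).card := by
    have : Nat.card T = Nat.card ↥(X.erase 0) := rfl
    rw [this, Nat.card_eq_fintype_card, Fintype.card_coe]
  rw [← h1]
  apply free_dvd
  rintro g ⟨ξ, hξ⟩ hg
  have h2 : g • ξ = ξ := congrArg Subtype.val hg
  rw [he] at h2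
  have h3 : ξ ≠ 0 := (Finset.mem_erase.mp (Finset.mem_coe.mp hξ)).1
  apply Subtype.ext
  apply Units.ext
  exact mul_right_cancel₀ h3 (by rw [h2]; simp)

end units

section main

variable {F : Type u} [Field F] [Fintype F] {q : ℕ} (hF : Fintype.card F = q ^ 2)

local notation "σ" => frobHom hF

variable {V : Type v} [AddCommGroup V] [Module F V] [FiniteDimensional F V] {h : V → V → F}
  (S : HForm (frobHom hF) h) (hV : finrank F V = 3)

/-- The action on the linear part. -/
noncomputable def Rhoh (hF : Fintype.card F = q ^ 2) : Fˣ →* Fˣ where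
  toFun u := (Units.map ((frobHom hF : F →+* F) : F →* F) u) ^ 2 * u⁻¹
  map_one' := by simp
  map_mul' a b := by
    rw [map_mul, mul_pow, mul_inv]
    exact mul_mul_mul_comm _ _ _ _

theorem Rhoh_val (u : Fˣ) : ((Rhoh hF u : Fˣ) : F) = (σ (u : F)) ^ 2 / u := by
  show ((Units.map ((frobHom hF : F →+* F) : F →* F) u) ^ 2 * u⁻¹ : Fˣ).val = _
  rw [Units.val_mul, Units.val_pow_eq_pow_val, Units.val_inv_eq_inv_val, div_eq_mul_inv]
  rfl

instance instCyc : IsCyclic Fˣ := inferInstance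

variable {H : Subgroup (V ≃ₗ[F] V)} {x f c : V}

include hF in
theorem frob_eq (a : F) : σ a = a ^ q := by
  rw [frobHom_apply]

include hF in
theorem one_le_q : 1 ≤ q := by
  rcases Nat.eq_zero_or_pos q with h0 | h0
  · rw [h0] at hF
    have := Fintype.card_pos (α := F)
    omega
  · exact h0

include hF in
theorem units_pow (u : Fˣ) : u ^ (q ^ 2 - 1) = 1 := by
  apply Units.ext
  rw [Units.val_pow_eq_pow_val, Units.val_one]
  exact pow_card_sub_one_eq hF u.ne_zero

include hF in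
theorem card_units : Nat.card Fˣ = q ^ 2 - 1 := by
  rw [Nat.card_eq_fintype_card, Fintype.card_units, hF]

include hF in
/-- Elements of norm one. -/
theorem pow_of_nmh {u : Fˣ} (hu : u ∈ (Nmh hF).ker) : u ^ (q + 1) = 1 := by
  have h1 : Nmh hF u = 1 := hu
  apply Units.ext
  have h2 := congrArg Units.val h1
  rw [Nmh_val, frob_eq hF] at h2
  rw [Units.val_pow_eq_pow_val, pow_succ, mul_comm]
  exact h2

include hF in
/-- Norms lie in the fixed field. -/
theorem pow_of_norm (hq : 1 ≤ q) (u : Fˣ) : (Nmh hF u) ^ (q - 1) = 1 := by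
  apply Units.ext
  rw [Units.val_pow_eq_pow_val, Nmh_val, frob_eq hF, Units.val_one]
  have h1 := pow_card_sub_one_eq hF u.ne_zero
  rw [← h1, ← pow_succ']
  rw [← pow_mul]
  congr 1
  obtain ⟨t, rfl⟩ : ∃ t, q = t + 1 := ⟨q - 1, by omega⟩
  have e1 : (t + 1) ^ 2 - 1 = t ^ 2 + 2 * t := by
    have : (t + 1) ^ 2 = t ^ 2 + 2 * t + 1 := by ring
    omega
  simp only [e1, Nat.add_sub_cancel]
  ring

include hF in
theorem pow_of_rho {u : Fˣ} (hu : u ∈ (Rhoh hF).ker) : u ^ 3 = 1 ∧ (u : F) ^ q = u ^ 2 := by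
  have hσ := invol_frob hF
  have h1 : Rhoh hF u = 1 := hu
  have h2 := congrArg Units.val h1
  rw [Rhoh_val, Units.val_one, div_eq_one_iff_eq u.ne_zero] at h2
  have h3 : σ (u : F) = (u : F) ^ 2 := by
    have := congrArg σ h2
    rw [map_pow, hσ.invol] at this
    exact this.symm
  have h4 : (u : F) ^ 3 = 1 := by
    rw [h3] at h2
    have h5 := u.ne_zero
    apply mul_left_cancel₀ h5
    linear_combination h2
  refine ⟨Units.ext (by rw [Units.val_pow_eq_pow_val, h4, Units.val_one]), ?_⟩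
  rw [← frob_eq hF]
  exact h3

include S hV

/-- The eigenvalues at different points of an orbit. -/
theorem Ig_eq (hJ : H ≤ suGroup h) {y : V} {g : V ≃ₗ[F] V} (hg : g ∈ H) {b : F} (hb : b ≠ 0) (hgx : g x = b • y) :
    Ig H x = Ig H y := by
  have key : ∀ {x y : V} {g : V ≃ₗ[F] V} {b : F}, g ∈ H → b ≠ 0 → g x = b • y → Ig H x ≤ Ig H y := by
    intro x y g b hg hb hgx u hu
    obtain ⟨k, hk, hku⟩ := hu
    refine ⟨g * k * g⁻¹, mul_mem (mul_mem hg hk) (inv_mem hg), ?_⟩
    show g (k (g⁻¹ y)) = _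
    have e : g⁻¹ y = b⁻¹ • x := by
      apply g.injective
      have : g (g⁻¹ y) = y := g.apply_symm_apply y
      rw [this, map_smul, hgx, smul_smul, inv_mul_cancel₀ hb, one_smul]
    rw [e, map_smul, hku, smul_smul, map_smul, hgx, smul_smul]
    congr 1
    field_simp
  apply le_antisymm (key hg hb hgx)
  apply key (inv_mem hg) (inv_ne_zero hb)
  apply g.injective
  have e1 : g (g⁻¹ y) = y := g.apply_symm_apply y
  rw [e1, map_smul, hgx, smul_smul, inv_mul_cancel₀ hb, one_smul]

theorem Ab_dvd_q (hxx : h x x = 0) : (Ab hF S H x).card ∣ q := by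
  have := sg_dvd (sg_Ab hF S H hxx) (sg_Lam hF) (fun l hl => ((mem_Ab hF S).mp hl).1)
  rwa [card_Lam hF] at this

theorem Sb_dvd (hfr : Fr h x f c) : (Sb hF S H x c).card ∣ q ^ 2 := by
  have := sg_dvd (sg_Sb hF S H hfr) (Sg.univ (E := F)) (Finset.subset_univ _)
  rwa [Finset.card_univ, hF] at this

/-- The norms act on the transvection parameters. -/
theorem Nm_dvd (hH : H ≤ suGroup h) (hxx : h x x = 0) : Nat.card ((Ig H x).map (Nmh hF)) ∣ (Ab hF S H x).card - 1 := by
  have e0 : (0 : F) ∈ Ab hF S H x := (sg_Ab hF S H hxx).zero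
  rw [← Finset.card_erase_of_mem e0]
  apply units_dvd
  intro u hu ξ hξ
  obtain ⟨v, ⟨g, hg, hgv⟩, rfl⟩ := Subgroup.mem_map.mp hu
  have := Ab_conj hF S hV hH hxx hg v.ne_zero hgv hξ
  rw [Nmh_val, mul_comm]
  exact this

/-- The action on the linear parts. -/
theorem Rho_dvd (hH : H ≤ suGroup h) (hfr : Fr h x f c) : Nat.card ((Ig H x).map (Rhoh hF)) ∣ (Sb hF S H x c).card - 1 := by
  have hσ := invol_frob hF
  have e0 : (0 : F) ∈ Sb hF S H x c := (sg_Sb hF S H hfr).zero
  rw [← Finset.card_erase_of_mem e0]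
  apply units_dvd
  intro u hu ξ hξ
  obtain ⟨v, ⟨g, hg, hgv⟩, rfl⟩ := Subgroup.mem_map.mp hu
  rw [mem_Sb] at hξ ⊢
  obtain ⟨α, hv, hm⟩ := hξ
  obtain ⟨α', hv', he⟩ := hfr.conj_E S hσ hV ⟨g, hH hg⟩ v.ne_zero hgv hv
  rw [Rhoh_val]
  refine ⟨α', hv', ?_⟩
  rw [← he]
  exact mul_mem (mul_mem hg hm) (inv_mem hg)

/-- **The order of a subgroup transitive on the isotropic points**. -/
theorem card_main (hH : H ≤ suGroup h) (hfr : Fr h x f c)
    (htr : ∀ y : V, y ≠ 0 → h y y = 0 → ∃ g ∈ H, ∃ b : F, g x = b • y) :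
    Nat.card H = (q ^ 3 + 1) * (Nat.card (Ig H x) * ((Ab hF S H x).card * (Sb hF S H x c).card)) := by
  have hx := hfr.ne_x S
  haveI := finite_H (F := F) (V := V) H
  rw [← orbit_stab hF hH hx, card_Hx H hH hx, card_R hF S hV H hH hfr]
  congr 1
  rw [← card_Om hF S hV hfr]
  have : Nat.card (MulAction.orbit H (Projectivization.mk F x hx)) = Nat.card ↥(Om h) := by
    apply Nat.card_congr
    apply Equiv.subtypeEquivRight
    intro p
    constructor
    · rintro ⟨g, rfl⟩
      rw [mem_Om]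
      exact iso_smul hF S hH g ((isoP_mk hF S hx).mpr hfr.hp.ee)
    · intro hp
      rw [mem_Om] at hp
      obtain ⟨g, hg, b, hb⟩ := htr p.rep p.rep_nonzero hp
      refine ⟨⟨g, hg⟩, ?_⟩
      show (⟨g, hg⟩ : H) • Projectivization.mk F x hx = p
      rw [← p.mk_rep, smul_mk_eq, mk_eq_iff]
      exact ⟨b, hb.symm⟩
  rw [this, Nat.card_eq_fintype_card, Fintype.card_coe]

end main

end Cfsg.Agent.Lib.MinU3.Str
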