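/-
A subgroup transitive on the isotropic points containing some transvections.
-/
import Mathlib
import Cfsg.Agent.Lib.MinU3.Str

set_option autoImplicit false
set_option linter.unusedSectionVars false
set_option linter.unusedVariables false
set_option linter.unusedSimpArgs false
set_option linter.style.haveILetI false

namespace Cfsg.Agent.Lib.MinU3.Line

open Module Cfsg.Agent.Lib.MinU.Four Cfsg.Agent.Lib.MinU.Fld Cfsg.Agent.Lib.MinU.Sp Cfsg.Agent.Lib.MinU.Eich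
open Cfsg.Agent.Lib.HermCount.Field
open Cfsg.Agent.Lib.Classical.HermBasic Cfsg.Agent.Lib.Classical.HermElem Cfsg.Agent.Lib.Classical.HermGen
open Cfsg.Agent.Lib.Classical.HermBridge
open Cfsg.Agent.Lib.MinU3.Basic Cfsg.Agent.Lib.MinU3.Pts Cfsg.Agent.Lib.MinU3.Grp Cfsg.Agent.Lib.MinU3.Trans
open Cfsg.Agent.Lib.MinU3.Cnt Cfsg.Agent.Lib.MinU3.Ker Cfsg.Agent.Lib.MinU3.LC Cfsg.Agent.Lib.MinU3.Str
open scoped _root_.Classical LinearAlgebra.Projectivization

attribute [-simp] frobHom_apply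

universe u v w

variable {F : Type u} [Field F] [Fintype F] {q : ℕ} (hF : Fintype.card F = q ^ 2)

local notation "σ" => frobHom hF

variable {V : Type v} [AddCommGroup V] [Module F V] [FiniteDimensional F V] {h : V → V → F}
  (S : HForm (frobHom hF) h) (hV : finrank F V = 3)

variable {H : Subgroup (V ≃ₗ[F] V)} {x f c : V}

include S hV

theorem E_mem_Zs {y : V} (hyy : h y y = 0) {l : F} (hl : l ∈ Lam hF) : (E S y 0 l).1 ∈ Zs h y := by
  refine ⟨(E S y 0 l).2, fun v hv => ?_⟩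
  rw [Fr.E_z S (val_Z hF S hyy hl), hv]
  simp

/-- The subgroup of the stabilizer of the line. -/
theorem ln_pstab (hH : H ≤ suGroup h) (hcc : h c c ≠ 0) (hc : c ≠ 0) : Ln h (H ⊓ pstab h c hc) c :=
  ⟨fun g hg => hH (Subgroup.mem_inf.mp hg).1, hcc, fun g hg => (Subgroup.mem_inf.mp hg).2.2⟩

theorem Ab_pstab (hH : H ≤ suGroup h) (hfr : Fr h x f c) (hc : c ≠ 0) :
    Ab hF S (H ⊓ pstab h c hc) x = Ab hF S H x := by
  ext l
  rw [mem_Ab, mem_Ab]
  constructor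
  · rintro ⟨h1, h2⟩
    exact ⟨h1, (Subgroup.mem_inf.mp h2).1⟩
  · rintro ⟨h1, h2⟩
    refine ⟨h1, Subgroup.mem_inf.mpr ⟨h2, (E S x 0 l).2, 1, ?_⟩⟩
    rw [one_smul, (E_mem_Zs hF S hV hfr.hp.ee h1).2 c hfr.cx]

/-- **The stabilizer of a line is transitive on its isotropic points if there are transvections**. -/
theorem line_trans (hH : H ≤ suGroup h) (hfr : Fr h x f c) (hc : c ≠ 0)
    (htr : ∀ y z : V, y ≠ 0 → z ≠ 0 → h y y = 0 → h z z = 0 → ∃ g ∈ H, ∃ b : F, g y = b • z)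
    (ha : 2 ≤ (Ab hF S H x).card) {y z : V} (hy : y ≠ 0) (hz : z ≠ 0) (hyy : h y y = 0) (hzz : h z z = 0)
    (hyc : h y c = 0) (hzc : h z c = 0) : ∃ g ∈ H ⊓ pstab h c hc, ∃ b : F, g y = b • z := by
  have hσ := invol_frob hF
  set M := H ⊓ pstab h c hc with hM
  have hL : Ln h M c := ln_pstab hF S hV hH hfr.cc hc
  haveI := finite_H (F := F) (V := V) M
  obtain ⟨p, m, hp, hqm, -⟩ := exists_char hF
  haveI : Fact p.Prime := ⟨hp⟩
  let X := ↥(LS hF S hL)
  have hrep : ∀ r : X, r.1.rep ≠ 0 := fun r => r.1.rep_nonzero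
  have hiso : ∀ r : X, h r.1.rep r.1.rep = 0 := fun r => r.2.1
  have hperp : ∀ r : X, h r.1.rep c = 0 := fun r => r.2.2
  let R : X → Subgroup M := fun r => (H ⊓ Zs h r.1.rep).subgroupOf M
  have hcard : ∀ r : X, 2 ≤ (Ab hF S H r.1.rep).card := by
    intro r
    obtain ⟨g, hg, b, hb⟩ := htr x r.1.rep (hfr.ne_x S) (hrep r) hfr.hp.ee (hiso r)
    have hb0 : b ≠ 0 := by
      rintro rfl
      rw [zero_smul] at hb
      exact hfr.ne_x S (g.map_eq_zero_iff.mp hb)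
    rwa [← card_Ab_eq hF S hV hH hfr.hp.ee (hiso r) (hrep r) hg hb0 hb]
  haveI : MulAction.IsPretransitive M X := by
    apply par (p := p) R
    · intro r g
      have h1 := isP_vstab hF S hV hp hqm (hrep r) (hiso r)
      have hg : g.1.1 ∈ H ⊓ Zs h r.1.rep := g.2
      have hg2 := (Subgroup.mem_inf.mp hg).2
      obtain ⟨k, hk⟩ := h1 ⟨g.1.1, Zs_le_vstab (hiso r) hg2⟩
      refine ⟨k, ?_⟩
      apply Subtype.ext
      apply Subtype.ext
      have := congrArg Subtype.val hk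
      simpa using this
    · intro r y' hall
      obtain ⟨l, hl, hl0⟩ := Finset.exists_mem_ne (s := Ab hF S H r.1.rep) (by have := hcard r; omega) (0 : F)
      obtain ⟨hl1, hl2⟩ := (mem_Ab hF S).mp hl
      have hZ := E_mem_Zs hF S hV (hiso r) hl1
      have hgM : (E S r.1.rep 0 l).1 ∈ M := Subgroup.mem_inf.mpr ⟨hl2, (E S r.1.rep 0 l).2, 1, by
        rw [one_smul]
        exact hZ.2 c (S.zero_symm (hperp r))⟩
      have h2 : (⟨_, hgM⟩ : M) • y' = y' := hall _ (by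
        show (E S r.1.rep 0 l).1 ∈ H ⊓ Zs h r.1.rep
        exact Subgroup.mem_inf.mpr ⟨hl2, hZ⟩)
      have h3 : (⟨_, hgM⟩ : M) • y'.1 = y'.1 := congrArg Subtype.val h2
      obtain ⟨ν, hν⟩ := eig_of_fix _ h3
      obtain ⟨b, hb⟩ := ey_fix hF S hV hfr.cc (hrep r) (hiso r) (hperp r) hl1 hl0 (g₀ := 1) (μ := 1) one_ne_zero
        (fun v _ => by simp) (hperp y') (v := y'.1.rep) (ν := ν) hν
      apply Subtype.ext
      rw [← y'.1.mk_rep, ← r.1.mk_rep, mk_eq_iff]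
      exact ⟨b, hb.symm⟩
    · intro r g hg
      have hg' : g.1 ∈ H ⊓ Zs h r.1.rep := hg
      apply Subtype.ext
      exact smul_eq_of g (k := 1) (by
        rw [one_smul]
        exact (Subgroup.mem_inf.mp hg').2.2 _ (hiso r))
  have hym : Projectivization.mk F y hy ∈ LS hF S hL :=
    ⟨(isoP_mk hF S hy).mpr hyy, (perpP_mk hF S hy).mpr hyc⟩
  have hzm : Projectivization.mk F z hz ∈ LS hF S hL :=
    ⟨(isoP_mk hF S hz).mpr hzz, (perpP_mk hF S hz).mpr hzc⟩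
  obtain ⟨g, hg⟩ := MulAction.exists_smul_eq M (⟨_, hym⟩ : X) (⟨_, hzm⟩ : X)
  have h5 : g • Projectivization.mk F y hy = Projectivization.mk F z hz := congrArg Subtype.val hg
  rw [smul_mk_eq, mk_eq_iff] at h5
  obtain ⟨a, ha⟩ := h5
  exact ⟨g.1, g.2, a, ha.symm⟩

/-- **The arithmetic constraints on a subgroup with some transvections**. -/
theorem line_case (hH : H ≤ suGroup h) (hfr : Fr h x f c)
    (htr : ∀ y z : V, y ≠ 0 → z ≠ 0 → h y y = 0 → h z z = 0 → ∃ g ∈ H, ∃ b : F, g y = b • z)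
    {a w : ℕ} (ha : (Ab hF S H x).card = a) (hq : q = a * w) (ha2 : 2 ≤ a) (hw : 2 ≤ w) :
    (Even q → a = 2) ∧ (a - 2) * (w - 2) ≤ 1 := by
  have hc := hfr.ne_c S
  set M := H ⊓ pstab h c hc with hM
  have hL : Ln h M c := ln_pstab hF S hV hH hfr.cc hc
  have hAb : Ab hF S M x = Ab hF S H x := Ab_pstab hF S hV hH hfr hc
  obtain ⟨m, h1, h2, h3⟩ := line_count hF S hV hfr hL (fun y z hy hz hyy hzz hyc hzc =>
    line_trans hF S hV hH hfr hc htr (by rw [ha]; exact ha2) hy hz hyy hzz hyc hzc)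
  rw [hAb, ha] at h2 h3
  have hτ := Nm_dvd hF S hV hL.le (H := M) hfr.hp.ee
  rw [hAb, ha] at hτ
  set τ := Nat.card ((Ig M x).map (Nmh hF)) with hτdef
  have hτ1 : 1 ≤ τ := Nat.card_pos
  have hτ2 : τ ≤ a - 1 := Nat.le_of_dvd (by omega) hτ
  exact Cfsg.Agent.Lib.MinU3.Abs.L_arith m hq ha2 hw hτ1 (by omega) h1 h2 rfl h3

end Cfsg.Agent.Lib.MinU3.Line
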