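/-
Involutions in odd characteristic, and the centralizer of an involution in a subgroup transitive on isotropic points.
-/
import Mathlib
import Cfsg.Agent.Lib.MinU3.Line

set_option autoImplicit false
set_option linter.unusedSectionVars false
set_option linter.unusedVariables false
set_option linter.unusedSimpArgs false
set_option linter.style.haveILetI false

namespace Cfsg.Agent.Lib.MinU3.Inv

open Module Cfsg.Agent.Lib.MinU.Four Cfsg.Agent.Lib.MinU.Fld Cfsg.Agent.Lib.MinU.Sp Cfsg.Agent.Lib.MinU.Eich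
open Cfsg.Agent.Lib.HermCount.Field
open Cfsg.Agent.Lib.Classical.HermBasic Cfsg.Agent.Lib.Classical.HermElem Cfsg.Agent.Lib.Classical.HermGen
open Cfsg.Agent.Lib.Classical.HermBridge
open Cfsg.Agent.Lib.MinU3.Basic Cfsg.Agent.Lib.MinU3.Pts Cfsg.Agent.Lib.MinU3.Grp Cfsg.Agent.Lib.MinU3.Trans
open Cfsg.Agent.Lib.MinU3.Cnt Cfsg.Agent.Lib.MinU3.Ker Cfsg.Agent.Lib.MinU3.LC Cfsg.Agent.Lib.MinU3.Str
open Cfsg.Agent.Lib.MinU3.Line
open scoped _root_.Classical LinearAlgebra.Projectivization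

attribute [-simp] frobHom_apply

universe u v w

section grp

variable {G : Type u} [Group G]

/-- Square roots of an element inverted by an involution. -/
theorem root_inv {t x₀ : G} (ht : t * t = 1) (hinv : t * x₀ * t = x₀⁻¹) {N : ℕ} (hN : x₀ ^ N = 1) (hodd : Odd N) :
    ∃ k : ℕ, (x₀ ^ k) * (x₀ ^ k) = x₀ ∧ t * (x₀ ^ k) * t = (x₀ ^ k)⁻¹ := by
  obtain ⟨m, rfl⟩ := hodd
  refine ⟨m + 1, ?_, ?_⟩
  · rw [← pow_add]
    have e : m + 1 + (m + 1) = 2 * m + 1 + 1 := by ring
    rw [e, pow_succ, hN, one_mul]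
  · have hti : t⁻¹ = t := inv_eq_of_mul_eq_one_left ht
    have h1 : t * (x₀ ^ (m + 1)) * t⁻¹ = (t * x₀ * t⁻¹) ^ (m + 1) := by
      rw [conj_pow]
    rw [hti] at h1
    rw [h1, hinv, inv_pow]

end grp

variable {F : Type u} [Field F] [Fintype F] {q : ℕ} (hF : Fintype.card F = q ^ 2)

local notation "σ" => frobHom hF

variable {V : Type v} [AddCommGroup V] [Module F V] [FiniteDimensional F V] {h : V → V → F}
  (S : HForm (frobHom hF) h) (hV : finrank F V = 3)

include S hV

omit hV in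
theorem perp_map {t : V ≃ₗ[F] V} (ht : t ∈ uGroup h) {y w : V} {a : F} (ha : a ≠ 0) (hty : t y = a • y) (hw : h w y = 0) :
    h (t w) y = 0 := by
  have h1 : h (t w) (t y) = h w y := ht w y
  rw [hty, S.smul_right, hw] at h1
  have hs : σ a ≠ 0 := by simpa using ha
  exact (mul_eq_zero.mp h1).resolve_left hs

/-- **An isotropic vector in the `-1` eigenspace of an involution**. -/
theorem exists_iso_minus (h2 : (2 : F) ≠ 0) {t : V ≃ₗ[F] V} (ht : t ∈ suGroup h) (ht2 : t * t = 1) (ht1 : t ≠ 1) :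
    ∃ v : V, v ≠ 0 ∧ h v v = 0 ∧ t v = -v := by
  have hσ := invol_frob hF
  have htt : ∀ v, t (t v) = v := fun v => by
    have : (t * t) v = v := by rw [ht2]; rfl
    exact this
  have hu : t ∈ uGroup h := (mem_suGroup.mp ht).1
  have hminus : ∀ v, t (v - t v) = -(v - t v) := fun v => by
    rw [map_sub, htt]
    abel
  obtain ⟨v₀, hv₀⟩ : ∃ v₀, t v₀ ≠ v₀ := by
    by_contra hcon
    push Not at hcon
    apply ht1
    ext v
    exact hcon v
  set y := v₀ - t v₀ with hy
  have hy0 : y ≠ 0 := sub_ne_zero.mpr (Ne.symm hv₀)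
  have hty : t y = -y := hminus v₀
  by_cases hyy : h y y = 0
  · exact ⟨y, hy0, hyy, hty⟩
  have hneg : (-1 : F) ≠ 0 := by simp
  have hn1 : (-1 : F) * σ (-1) = 1 := by simp
  obtain ⟨r, hr⟩ := exists_qrAt S hyy hn1
  obtain ⟨w, hw, htw⟩ : ∃ w, h w y = 0 ∧ t w ≠ w := by
    by_contra hcon
    push Not at hcon
    have htr : t = r := by
      ext v
      have e1 : h (v - (h v y / h y y) • y) y = 0 := by
        rw [S.sub_left, S.smul_left]
        field_simp
        ring
      have e2 := hcon _ e1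
      rw [map_sub, map_smul, hty] at e2
      rw [hr.apply]
      have e3 : t v = v - (h v y / h y y) • y - (h v y / h y y) • y := by
        have : t v = (t v - (h v y / h y y) • -y) + (h v y / h y y) • -y := by abel
        rw [this, e2]
        module
      rw [e3]
      have e4 : (-1 - 1) * h v y / h y y = -2 * (h v y / h y y) := by ring
      rw [e4]
      module
    have e1 := hr.det S
    rw [← htr, (mem_suGroup.mp ht).2] at e1
    apply h2
    linear_combination e1
  set z := w - t w with hz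
  have hz0 : z ≠ 0 := sub_ne_zero.mpr (Ne.symm htw)
  have htz : t z = -z := hminus w
  have hzy : h z y = 0 := by
    rw [hz, S.sub_left, hw, perp_map hF S hu hneg (by rw [neg_one_smul]; exact hty) hw]
    ring
  by_cases hzz : h z z = 0
  · exact ⟨z, hz0, hzz, htz⟩
  obtain ⟨a, ha, hiso⟩ := S.exists_isotropic_of_orth hσ hyy hzz (S.zero_symm hzy)
  refine ⟨a • y + z, ?_, hiso, ?_⟩
  · intro h0
    have e1 := congrArg (fun v => h v y) h0
    simp only [S.add_left, S.smul_left, hzy, S.zero_left, add_zero] at e1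
    rcases mul_eq_zero.mp e1 with h3 | h3
    · exact ha h3
    · exact hyy h3
  · rw [map_add, map_smul, hty, htz]
    module

/-- **The frame of an involution**. -/
theorem inv_frame (h2 : (2 : F) ≠ 0) {t : V ≃ₗ[F] V} (ht : t ∈ suGroup h) (ht2 : t * t = 1) (ht1 : t ≠ 1) :
    ∃ u f c : V, Fr h u f c ∧ t u = -u ∧ t f = -f ∧ t c = c := by
  have hσ := invol_frob hF
  have htt : ∀ v, t (t v) = v := fun v => by
    have : (t * t) v = v := by rw [ht2]; rfl
    exact this
  have hu : t ∈ uGroup h := (mem_suGroup.mp ht).1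
  have hneg : (-1 : F) ≠ 0 := by simp
  obtain ⟨v, hv0, hvv, htv⟩ := exists_iso_minus hF S hV h2 ht ht2 ht1
  have htv' : t v = (-1 : F) • v := by rw [neg_one_smul]; exact htv
  obtain ⟨f₁, hff, hfx⟩ := S.exists_partner hσ hv0 hvv
  have e0 : h (t f₁) v = -1 := by
    have h1 : h (t f₁) (t v) = h f₁ v := hu f₁ v
    rw [htv', S.smul_right, hfx, map_neg, map_one] at h1
    linear_combination -h1
  obtain ⟨f₂, e1, htf₂⟩ : ∃ f₂, h f₂ v = 1 ∧ t f₂ = -f₂ := by
    refine ⟨(2 : F)⁻¹ • (f₁ - t f₁), ?_, ?_⟩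
    · rw [S.smul_left, S.sub_left, hfx, e0]
      field_simp
      ring
    · rw [map_smul, map_sub, htt]
      module
  have e3 : h v f₂ = 1 := by
    have := S.conj' f₂ v
    rw [e1, map_one] at this
    exact this.symm
  obtain ⟨α, hα⟩ := hσ.exists_trace (-(h f₂ f₂)) (by rw [map_neg, S.self_fix])
  obtain ⟨f₃, e4, e5, htf₃⟩ : ∃ f₃, h f₃ f₃ = 0 ∧ h f₃ v = 1 ∧ t f₃ = -f₃ := by
    refine ⟨f₂ + α • v, ?_, ?_, ?_⟩
    · simp only [S.add_left, S.add_right, S.smul_left, S.smul_right, hvv, e1, e3]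
      linear_combination hα
    · rw [S.add_left, S.smul_left, hvv, e1]
      ring
    · rw [map_add, map_smul, htf₂, htv]
      module
  have htf₃' : t f₃ = (-1 : F) • f₃ := by rw [neg_one_smul]; exact htf₃
  have HP : IsHP h v f₃ := ⟨hvv, e4, e5⟩
  obtain ⟨c, hc, hcc⟩ := exists_nonisotropic_perp2 S hσ (by omega) HP
  have fr : Fr h v f₃ c := ⟨HP, hc.1, hc.2, hcc⟩
  have d := fr.decomp S hV (t c)
  rw [perp_map hF S hu hneg htf₃' fr.cf, perp_map hF S hu hneg htv' fr.cx, zero_smul, zero_smul, zero_add, zero_add] at d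
  set κ := h (t c) c / h c c with hκ
  have hκ2 : κ * κ = 1 := by
    have h3 := htt c
    rw [d, map_smul, d, smul_smul] at h3
    have h4 : (κ * κ - 1) • c = 0 := by
      rw [sub_smul, h3, one_smul, sub_self]
    rcases smul_eq_zero.mp h4 with h5 | h5
    · linear_combination h5
    · exact absurd h5 (fr.ne_c S)
  have hκ1 : κ = 1 ∨ κ = -1 := by
    have : (κ - 1) * (κ + 1) = 0 := by linear_combination hκ2
    rcases mul_eq_zero.mp this with h5 | h5
    · left
      linear_combination h5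
    · right
      linear_combination h5
  rcases hκ1 with h5 | h5
  · refine ⟨v, f₃, c, fr, htv, htf₃, ?_⟩
    rw [d, h5, one_smul]
  · exfalso
    have hall : ∀ w, t w = -w := by
      intro w
      rw [fr.decomp S hV w, map_add, map_add, map_smul, map_smul, map_smul, htv, htf₃, d, h5]
      module
    have hdet : (t : V →ₗ[F] V) = (-1 : F) • LinearMap.id := by
      ext w
      simp [hall w]
    have hdt := (mem_suGroup.mp ht).2
    rw [hdet, LinearMap.det_smul, LinearMap.det_id, hV] at hdt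
    apply h2
    linear_combination -hdt

section wlemma

variable {H : Subgroup (V ≃ₗ[F] V)} {t : V ≃ₗ[F] V} {u f c : V}

omit hV in
/-- Elements of the transvection-free part commute with `t` in a suitable coset. -/
theorem root_exists {x₀ : V ≃ₗ[F] V} (hodd : Odd q) (hfr : Fr h u f c) (hV : finrank F V = 3) (hx₀ : x₀ ∈ vstab h u)
    (ht : t * t = 1) (hinv : t * x₀ * t = x₀⁻¹) :
    ∃ v : V ≃ₗ[F] V, v ∈ Subgroup.zpowers x₀ ∧ v * v = x₀ ∧ t * v * t = v⁻¹ := by
  have h1 := card_vstab hF S hV hfr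
  have h2 : x₀ ^ (q ^ 3) = 1 := by
    have h3 := pow_card_eq_one' (x := (⟨x₀, hx₀⟩ : vstab h u))
    rw [h1] at h3
    have := congrArg Subtype.val h3
    simpa using this
  obtain ⟨k, h3, h4⟩ := root_inv ht hinv h2 hodd.pow
  exact ⟨x₀ ^ k, Subgroup.npow_mem_zpowers x₀ k, h3, h4⟩

/-- The stabilizer of a non-isotropic point contains the centralizer of an involution. -/
theorem ln_cent (hH : H ≤ suGroup h) (h2 : (2 : F) ≠ 0) (fr : Fr h u f c) (htu : t u = -u) (htf : t f = -f)
    (htc : t c = c) (htU : t ∈ uGroup h) : Ln h (H ⊓ Subgroup.centralizer {t}) c := by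
  refine ⟨fun g hg => hH (Subgroup.mem_inf.mp hg).1, fr.cc, fun g hg => ?_⟩
  have hg2 := Subgroup.mem_centralizer_singleton_iff.mp (Subgroup.mem_inf.mp hg).2
  have h1 : t (g c) = g c := by
    have : (t * g) c = (g * t) c := by rw [hg2]
    have e : (g * t) c = g (t c) := rfl
    rw [e, htc] at this
    exact this
  have h3 : ∀ {y : V}, t y = -y → h (g c) y = 0 := by
    intro y hy
    have h4 : h (t (g c)) (t y) = h (g c) y := htU _ _
    rw [h1, hy] at h4
    have h5 : h (g c) (-y) = - h (g c) y := by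
      rw [← neg_one_smul F y, S.smul_right]
      simp
    rw [h5] at h4
    apply (mul_eq_zero.mp (?_ : (2 : F) * h (g c) y = 0)).resolve_left h2
    linear_combination -h4
  have d := fr.decomp S hV (g c)
  rw [h3 htu, h3 htf, zero_smul, zero_smul, zero_add, zero_add] at d
  exact ⟨_, d⟩

omit hV in
theorem minus_on_perp (hV : finrank F V = 3) (fr : Fr h u f c) (htu : t u = -u) (htf : t f = -f) {y : V} (hy : h y c = 0) :
    t y = -y := by
  rw [fr.decomp_perp S hV hy, map_add, map_smul, map_smul, htu, htf]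
  module

/-- **The centralizer of an involution is transitive on the isotropic points of the line**. -/
theorem W_trans (hH : H ≤ suGroup h) (hodd : Odd q) (fr : Fr h u f c) (ht : t ∈ H) (ht2 : t * t = 1) (htu : t u = -u)
    (htf : t f = -f) (htc : t c = c) {y z : V} (hy : y ≠ 0) (hz : z ≠ 0) (hyy : h y y = 0) (hzz : h z z = 0)
    (hyc : h y c = 0) (hzc : h z c = 0) (htr : ∃ g ∈ H, ∃ b : F, g y = b • z) :
    ∃ g ∈ H ⊓ Subgroup.centralizer {t}, ∃ b : F, g y = b • z := by
  obtain ⟨k, hk, b, hb⟩ := htr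
  have hb0 : b ≠ 0 := by
    rintro rfl
    rw [zero_smul] at hb
    exact hy (k.map_eq_zero_iff.mp hb)
  have hty := minus_on_perp hF S hV fr htu htf hyc
  have htz := minus_on_perp hF S hV fr htu htf hzc
  have hti : t⁻¹ = t := inv_eq_of_mul_eq_one_left ht2
  set t' := k * t * k⁻¹ with ht'
  have ht'2 : t' * t' = 1 := by
    calc t' * t' = k * (t * t) * k⁻¹ := by rw [ht']; group
      _ = 1 := by rw [ht2]; group
  have ht'i : t'⁻¹ = t' := inv_eq_of_mul_eq_one_left ht'2
  set x₀ := t * t' with hx₀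
  have hkz : k⁻¹ z = b⁻¹ • y := by
    apply k.injective
    have : k (k⁻¹ z) = z := k.apply_symm_apply z
    rw [this, map_smul, hb, smul_smul, inv_mul_cancel₀ hb0, one_smul]
  have hx₀z : x₀ z = z := by
    show t (k (t (k⁻¹ z))) = z
    rw [hkz, map_smul, hty, smul_neg, map_neg, map_smul, hb, smul_smul, inv_mul_cancel₀ hb0, one_smul, map_neg, htz,
      neg_neg]
  have hx₀H : x₀ ∈ H := mul_mem ht (mul_mem (mul_mem hk ht) (inv_mem hk))
  obtain ⟨f', fr'⟩ := exists_fr_line hF S hV hz hzz hzc fr.cc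
  have hinv : t * x₀ * t = x₀⁻¹ := by
    rw [hx₀, mul_inv_rev, hti, ht'i, ← mul_assoc, ht2, one_mul]
  obtain ⟨v, hv, hvv, htv⟩ := root_exists hF S hodd fr' hV (x₀ := x₀) ⟨hH hx₀H, hx₀z⟩ ht2 hinv
  have hvH : v ∈ H := (Subgroup.zpowers_le.mpr hx₀H) hv
  have hvz : v ∈ vstab h z := (Subgroup.zpowers_le.mpr (⟨hH hx₀H, hx₀z⟩ : x₀ ∈ vstab h z)) hv
  refine ⟨v * k, Subgroup.mem_inf.mpr ⟨mul_mem hvH hk, ?_⟩, b, ?_⟩
  · rw [Subgroup.mem_centralizer_singleton_iff]
    have e1 : v * t = t * v⁻¹ := by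
      rw [← htv]
      calc v * t = (t * t) * v * t := by rw [ht2, one_mul]
        _ = t * (t * v * t) := by group
    have e2 : t' = t * (v * v) := by
      rw [hvv, hx₀, ← mul_assoc, ht2, one_mul]
    have e3 : k * t = t' * k := by
      rw [ht']
      group
    calc v * k * t = v * (k * t) := by group
      _ = v * (t' * k) := by rw [e3]
      _ = (v * t) * (v * v) * k := by rw [e2]; group
      _ = t * v⁻¹ * (v * v) * k := by rw [e1]
      _ = t * (v * k) := by group
  · show v (k y) = _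
    rw [hb, map_smul, hvz.2]

/-- **The centralizer contains all the eigenvalues of the stabilizer**. -/
theorem W_Ig (hH : H ≤ suGroup h) (hodd : Odd q) (fr : Fr h u f c) (ht : t ∈ H) (ht2 : t * t = 1) (htu : t u = -u) :
    Ig (H ⊓ Subgroup.centralizer {t}) u = Ig H u := by
  apply le_antisymm
  · rintro l ⟨g, hg, hgl⟩
    exact ⟨g, (Subgroup.mem_inf.mp hg).1, hgl⟩
  rintro l ⟨g, hg, hgl⟩
  have hl : (l : F) ≠ 0 := l.ne_zero
  have hti : t⁻¹ = t := inv_eq_of_mul_eq_one_left ht2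
  set x₀ := t * g * t * g⁻¹ with hx₀
  have hgi : g⁻¹ u = (l : F)⁻¹ • u := by
    apply g.injective
    have : g (g⁻¹ u) = u := g.apply_symm_apply u
    rw [this, map_smul, hgl, smul_smul, inv_mul_cancel₀ hl, one_smul]
  have hx₀u : x₀ u = u := by
    show t (g (t (g⁻¹ u))) = u
    rw [hgi, map_smul, htu, smul_neg, map_neg, map_smul, hgl, smul_smul, inv_mul_cancel₀ hl, one_smul, map_neg, htu,
      neg_neg]
  have hx₀H : x₀ ∈ H := mul_mem (mul_mem (mul_mem ht hg) ht) (inv_mem hg)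
  have hinv : t * x₀ * t = x₀⁻¹ := by
    rw [hx₀]
    simp only [mul_inv_rev, inv_inv, hti]
    calc t * (t * g * t * g⁻¹) * t = (t * t) * g * t * g⁻¹ * t := by group
      _ = g * t * g⁻¹ * t := by rw [ht2, one_mul]
      _ = _ := by group
  obtain ⟨v, hv, hvv, htv⟩ := root_exists hF S hodd fr hV (x₀ := x₀) ⟨hH hx₀H, hx₀u⟩ ht2 hinv
  have hvH : v ∈ H := (Subgroup.zpowers_le.mpr hx₀H) hv
  have hvz : v ∈ vstab h u := (Subgroup.zpowers_le.mpr (⟨hH hx₀H, hx₀u⟩ : x₀ ∈ vstab h u)) hv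
  refine ⟨v * g, Subgroup.mem_inf.mpr ⟨mul_mem hvH hg, ?_⟩, ?_⟩
  · rw [Subgroup.mem_centralizer_singleton_iff]
    have e1 : t * v = v⁻¹ * t := by
      rw [← htv]
      calc t * v = t * v * (t * t) := by rw [ht2, mul_one]
        _ = t * v * t * t := by group
    calc v * g * t = v⁻¹ * (v * v) * g * t := by group
      _ = v⁻¹ * (t * g * t * g⁻¹) * g * t := by rw [hvv]
      _ = v⁻¹ * t * g * (t * t) := by group
      _ = v⁻¹ * t * g := by rw [ht2, mul_one]
      _ = t * v * g := by rw [e1]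
      _ = t * (v * g) := by group
  · show v (g u) = _
    rw [hgl, map_smul, hvz.2]

/-- **The arithmetic constraint from the centralizer of an involution**. -/
theorem W_case (hH : H ≤ suGroup h) (hodd : Odd q) (h2 : (2 : F) ≠ 0) (hq2 : 2 ≤ q) (fr : Fr h u f c) (ht : t ∈ H)
    (ht2 : t * t = 1) (htu : t u = -u) (htf : t f = -f) (htc : t c = c)
    (htr : ∀ y z : V, y ≠ 0 → z ≠ 0 → h y y = 0 → h z z = 0 → ∃ g ∈ H, ∃ b : F, g y = b • z)
    (hA : (Ab hF S H u).card = 1) {e : ℕ} (he : Nat.card ((Ig H u).map (Nmh hF)) * e = q - 1) (h3 : 3 * e < q + 1) :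
    (q + 1 - 2 * e) ∣ 4 * e := by
  have hU : t ∈ uGroup h := (mem_suGroup.mp (hH ht)).1
  set W := H ⊓ Subgroup.centralizer {t} with hW
  have hL : Ln h W c := ln_cent hF S hV hH h2 fr htu htf htc hU
  obtain ⟨m, h1, h4, h5⟩ := line_count hF S hV fr hL (fun y z hy hz hyy hzz hyc hzc =>
    W_trans hF S hV hH hodd fr ht ht2 htu htf htc hy hz hyy hzz hyc hzc (htr y z hy hz hyy hzz))
  have hAb : (Ab hF S W u).card = 1 := by
    apply le_antisymm
    · rw [← hA]
      apply Finset.card_le_card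
      intro l hl
      rw [mem_Ab] at hl ⊢
      exact ⟨hl.1, (Subgroup.mem_inf.mp hl.2).1⟩
    · exact Finset.card_pos.mpr ⟨0, (sg_Ab hF S W fr.hp.ee).zero⟩
  rw [hAb, W_Ig hF S hV hH hodd fr ht ht2 htu] at h4 h5
  rw [one_mul] at h4 h5
  simp only [Nat.sub_self, mul_zero, add_zero] at h5
  have he1 : 1 ≤ e := by
    rcases Nat.eq_zero_or_pos e with h0 | h0
    · rw [h0, mul_zero] at he
      omega
    · exact h0
  exact Cfsg.Agent.Lib.MinU3.Abs.W_arith m hq2 h1 h4 rfl he he1 h5 h3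

end wlemma

end Cfsg.Agent.Lib.MinU3.Inv
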