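/-
Constraints on the linear parts of the stabilizer of a vector.
-/
import Mathlib
import Cfsg.Agent.Lib.MinU3.Inv

set_option autoImplicit false
set_option linter.unusedSectionVars false
set_option linter.unusedVariables false
set_option linter.unusedSimpArgs false
set_option linter.style.haveILetI false

namespace Cfsg.Agent.Lib.MinU3.Par

open Module Cfsg.Agent.Lib.MinU.Four Cfsg.Agent.Lib.MinU.Fld Cfsg.Agent.Lib.MinU.Sp Cfsg.Agent.Lib.MinU.Eich
open Cfsg.Agent.Lib.HermCount.Field
open Cfsg.Agent.Lib.Classical.HermBasic Cfsg.Agent.Lib.Classical.HermElem Cfsg.Agent.Lib.Classical.HermGen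
open Cfsg.Agent.Lib.Classical.HermBridge
open Cfsg.Agent.Lib.MinU3.Basic Cfsg.Agent.Lib.MinU3.Pts Cfsg.Agent.Lib.MinU3.Grp Cfsg.Agent.Lib.MinU3.Trans
open Cfsg.Agent.Lib.MinU3.Cnt Cfsg.Agent.Lib.MinU3.Ker Cfsg.Agent.Lib.MinU3.LC Cfsg.Agent.Lib.MinU3.Str
open Cfsg.Agent.Lib.MinU3.Line Cfsg.Agent.Lib.MinU3.Inv
open scoped _root_.Classical LinearAlgebra.Projectivization

attribute [-simp] frobHom_apply

universe u v w

variable {F : Type u} [Field F] [Fintype F] {q : ℕ} (hF : Fintype.card F = q ^ 2)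

local notation "σ" => frobHom hF

variable {V : Type v} [AddCommGroup V] [Module F V] [FiniteDimensional F V] {h : V → V → F}
  (S : HForm (frobHom hF) h) (hV : finrank F V = 3)

variable {H : Subgroup (V ≃ₗ[F] V)} {x f c : V}

include S

/-- **Commutators**. -/
theorem comm_Ab (hfr : Fr h x f c) {ξ η : F} (hξ : ξ ∈ Sb hF S H x c) (hη : η ∈ Sb hF S H x c) :
    (ξ * σ η - η * σ ξ) * h c c ∈ Ab hF S H x := by
  have hσ := invol_frob hF
  rw [mem_Sb] at hξ hη
  obtain ⟨α, hv, hm⟩ := hξ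
  obtain ⟨α', hv', hm'⟩ := hη
  have hc := S.self_fix c
  have e0 : h (ξ • c) (η • c) - h (η • c) (ξ • c) = (ξ * σ η - η * σ ξ) * h c c := by
    simp only [S.smul_left, S.smul_right]
    ring
  have hz := E_comm (S := S) hv hv' (S.conj' _ _)
  rw [e0] at hz
  have hlam : (ξ * σ η - η * σ ξ) * h c c ∈ Lam hF := by
    rw [mem_Lam]
    simp only [map_mul, map_sub, hσ.invol, hc]
    ring
  rw [mem_Ab]
  refine ⟨hlam, ?_⟩
  have e1 : (E S x 0 ((ξ * σ η - η * σ ξ) * h c c)).1 =
      (E S x (ξ • c) α).1 * (E S x (η • c) α').1 * ((E S x (η • c) α').1 * (E S x (ξ • c) α).1)⁻¹ := by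
    have := congrArg Subtype.val hz
    have e2 : (E S x (ξ • c) α).1 * (E S x (η • c) α').1 =
        (E S x 0 ((ξ * σ η - η * σ ξ) * h c c)).1 * ((E S x (η • c) α').1 * (E S x (ξ • c) α).1) := this
    rw [e2]
    group
  rw [e1]
  exact mul_mem (mul_mem hm hm') (inv_mem (mul_mem hm' hm))

/-- **Squares in characteristic two**. -/
theorem sq_Ab (h2 : (2 : F) = 0) (hfr : Fr h x f c) {ξ : F} (hξ : ξ ∈ Sb hF S H x c) :
    ξ * σ ξ * h c c ∈ Ab hF S H x := by
  rw [mem_Sb] at hξ
  obtain ⟨α, hv, hm⟩ := hξ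
  have hm2 := E_mul (S := S) hv hv
  have hv2 := hv.mul hv S
  have e1 : ξ • c + ξ • c = 0 := by
    rw [← two_smul F, smul_smul, h2, zero_mul, zero_smul]
  have e2 : α + α - h (ξ • c) (ξ • c) = ξ * σ ξ * h c c := by
    simp only [S.smul_left, S.smul_right]
    have : α + α = 2 * α := by ring
    rw [this, h2]
    have : (ξ * σ ξ * h c c) + (ξ * σ ξ * h c c) = 2 * (ξ * σ ξ * h c c) := by ring
    have h3 : (ξ * σ ξ * h c c) + (ξ * σ ξ * h c c) = 0 := by rw [this, h2, zero_mul]
    linear_combination -h3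
  rw [e1, e2] at hm2 hv2
  rw [mem_Ab]
  refine ⟨?_, ?_⟩
  · rw [mem_Lam]
    have := hv2.ha
    rwa [S.zero_left, add_zero] at this
  · rw [← hm2]
    exact mul_mem hm hm

/-- **No linear parts if there are no transvections in characteristic two**. -/
theorem even_one (h2 : (2 : F) = 0) (hfr : Fr h x f c) (ha : (Ab hF S H x).card = 1) : (Sb hF S H x c).card = 1 := by
  have e0 : (0 : F) ∈ Ab hF S H x := (sg_Ab hF S H hfr.hp.ee).zero
  rw [Finset.card_eq_one]
  refine ⟨0, ?_⟩
  ext ξ
  rw [Finset.mem_singleton]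
  constructor
  · intro hξ
    have h3 := sq_Ab hF S h2 hfr hξ
    have h4 : ξ * σ ξ * h c c = 0 := by
      obtain ⟨l, hl⟩ := Finset.card_eq_one.mp ha
      rw [hl, Finset.mem_singleton] at e0 h3
      rw [h3, e0]
    by_contra h5
    have hs : σ ξ ≠ 0 := by simpa using h5
    exact (mul_ne_zero (mul_ne_zero h5 hs) hfr.cc) h4
  · rintro rfl
    exact (sg_Sb hF S H hfr).zero

/-- **Few linear parts if there are few transvections in characteristic two**. -/
theorem even_two (h2 : (2 : F) = 0) (hfr : Fr h x f c) (ha : (Ab hF S H x).card = 2) :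
    (Sb hF S H x c).card ≤ 4 ∧ (2 < (Sb hF S H x c).card → 3 ∣ q + 1) := by
  have hσ := invol_frob hF
  have hsg := sg_Sb hF S H hfr (x := x)
  have e0 : (0 : F) ∈ Ab hF S H x := (sg_Ab hF S H hfr.hp.ee).zero
  have hcc := hfr.cc
  have hβ := S.self_fix c
  obtain ⟨l, hl0, hlu⟩ : ∃ l, l ≠ 0 ∧ ∀ m ∈ Ab hF S H x, m ≠ 0 → m = l := by
    obtain ⟨a, b, hab, hAb⟩ := Finset.card_eq_two.mp ha
    rw [hAb] at e0
    simp only [Finset.mem_insert, Finset.mem_singleton] at e0
    rcases e0 with e0 | e0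
    · refine ⟨b, ?_, ?_⟩
      · rintro rfl
        exact hab e0.symm
      · intro m hm hm0
        rw [hAb] at hm
        simp only [Finset.mem_insert, Finset.mem_singleton] at hm
        rcases hm with hm | hm
        · rw [hm, ← e0] at hm0
          exact absurd rfl hm0
        · exact hm
    · refine ⟨a, ?_, ?_⟩
      · rintro rfl
        exact hab e0
      · intro m hm hm0
        rw [hAb] at hm
        simp only [Finset.mem_insert, Finset.mem_singleton] at hm
        rcases hm with hm | hm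
        · exact hm
        · rw [hm, ← e0] at hm0
          exact absurd rfl hm0
  -- all non-zero elements have the same norm
  have hnorm : ∀ ξ ∈ Sb hF S H x c, ξ ≠ 0 → ξ * σ ξ * h c c = l := by
    intro ξ hξ h0
    apply hlu _ (sq_Ab hF S h2 hfr hξ)
    have hs : σ ξ ≠ 0 := by simpa using h0
    exact mul_ne_zero (mul_ne_zero h0 hs) hcc
  -- the trace relation
  have hneg : ∀ y : F, -y = y := fun y => by
    have : y + y = 0 := by
      have : y + y = 2 * y := by ring
      rw [this, h2, zero_mul]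
    linear_combination -this
  have htr : ∀ ξ ∈ Sb hF S H x c, ∀ η ∈ Sb hF S H x c, ξ ≠ 0 → η ≠ 0 → ξ ≠ η →
      (ξ * σ η + η * σ ξ) * h c c = l := by
    intro ξ hξ η hη h1 h3 h4
    have h5 := hnorm _ hξ h1
    have h6 := hnorm _ hη h3
    have h7 : ξ + η ≠ 0 := by
      intro h8
      apply h4
      have : ξ = -η := by linear_combination h8
      rw [this, hneg]
    have h8 := hnorm _ (hsg.add hξ hη) h7
    rw [map_add] at h8
    have h9 : (ξ + η) * (σ ξ + σ η) * h c c = ξ * σ ξ * h c c + η * σ η * h c c + (ξ * σ η + η * σ ξ) * h c c := by ring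
    rw [h9, h5, h6] at h8
    have h10 : l + l = 0 := by
      have : l + l = 2 * l := by ring
      rw [this, h2, zero_mul]
    linear_combination h8 - h10
  -- the ratio
  have hρ : ∀ ξ ∈ Sb hF S H x c, ∀ η ∈ Sb hF S H x c, ξ ≠ 0 → η ≠ 0 → ξ ≠ η →
      (ξ / η) * (ξ / η) + ξ / η + 1 = 0 ∧ σ (ξ / η) = ξ / η + 1 := by
    intro ξ hξ η hη h1 h3 h4
    have hsξ : σ ξ ≠ 0 := by simpa using h1
    have hsη : σ η ≠ 0 := by simpa using h3
    have h5 := hnorm _ hξ h1
    have h6 := hnorm _ hη h3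
    have h7 := htr ξ hξ η hη h1 h3 h4
    have e1 : ξ * σ ξ = η * σ η := by
      apply mul_right_cancel₀ hcc
      rw [h5, h6]
    have e2 : ξ * σ η + η * σ ξ = η * σ η := by
      apply mul_right_cancel₀ hcc
      rw [h7, h6]
    have hs : σ (ξ / η) = ξ / η + 1 := by
      rw [map_div₀, div_add_one h3, div_eq_div_iff hsη h3]
      have hy : ξ * σ η + ξ * σ η = 0 := by
        have : ξ * σ η + ξ * σ η = 2 * (ξ * σ η) := by ring
        rw [this, h2, zero_mul]
      linear_combination e2 - hy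
    refine ⟨?_, hs⟩
    have e3 : (ξ / η) * σ (ξ / η) = 1 := by
      rw [map_div₀]
      field_simp
      exact e1
    rw [hs] at e3
    have h1' : (1 : F) + 1 = 0 := by
      have : (1 : F) + 1 = 2 := by norm_num
      rw [this, h2]
    linear_combination e3 + h1'
  constructor
  · by_contra hcon
    push Not at hcon
    -- find `η ≠ 0`
    obtain ⟨η, hη, hη0⟩ := Finset.exists_mem_ne (s := Sb hF S H x c) (by omega) (0 : F)
    -- find `ξ ∉ {0, η}`
    obtain ⟨ξ, hξ, hξ1⟩ : ∃ ξ ∈ Sb hF S H x c, ξ ∉ ({0, η} : Finset F) := by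
      by_contra hc
      push Not at hc
      have := Finset.card_le_card (fun y hy => hc y hy : Sb hF S H x c ⊆ {0, η})
      have h3 : ({0, η} : Finset F).card ≤ 2 := Finset.card_le_two
      omega
    simp only [Finset.mem_insert, Finset.mem_singleton, not_or] at hξ1
    obtain ⟨hξ0, hξη⟩ := hξ1
    have hsub : Sb hF S H x c ⊆ {0, η, ξ, ξ + η} := by
      intro ζ hζ
      simp only [Finset.mem_insert, Finset.mem_singleton]
      by_cases h0 : ζ = 0
      · exact Or.inl h0
      by_cases h1 : ζ = η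
      · exact Or.inr (Or.inl h1)
      right
      right
      obtain ⟨a1, a2⟩ := hρ ξ hξ η hη hξ0 hη0 hξη
      obtain ⟨b1, b2⟩ := hρ ζ hζ η hη h0 hη0 h1
      have h5 : (ζ / η - ξ / η) * (ζ / η + ξ / η + 1) = 0 := by linear_combination b1 - a1
      rcases mul_eq_zero.mp h5 with h6 | h6
      · left
        have : ζ / η = ξ / η := by linear_combination h6
        field_simp at this
        exact this
      · right
        have hn := hneg (ξ / η + 1)
        have h7 : ζ / η = ξ / η + 1 := by linear_combination h6 + hn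
        field_simp at h7
        exact h7
    have := Finset.card_le_card hsub
    have h3 : ({0, η, ξ, ξ + η} : Finset F).card ≤ 4 := Finset.card_le_four
    omega
  · intro h3
    obtain ⟨η, hη, hη0⟩ := Finset.exists_mem_ne (s := Sb hF S H x c) (by omega) (0 : F)
    obtain ⟨ξ, hξ, hξ1⟩ : ∃ ξ ∈ Sb hF S H x c, ξ ∉ ({0, η} : Finset F) := by
      by_contra hc
      push Not at hc
      have := Finset.card_le_card (fun y hy => hc y hy : Sb hF S H x c ⊆ {0, η})
      have h4 : ({0, η} : Finset F).card ≤ 2 := Finset.card_le_two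
      omega
    simp only [Finset.mem_insert, Finset.mem_singleton, not_or] at hξ1
    obtain ⟨hξ0, hξη⟩ := hξ1
    obtain ⟨a1, a2⟩ := hρ ξ hξ η hη hξ0 hη0 hξη
    set r := ξ / η with hr
    have hr0 : r ≠ 0 := div_ne_zero hξ0 hη0
    have h1' : (1 : F) + 1 = 0 := by
      have : (1 : F) + 1 = 2 := by norm_num
      rw [this, h2]
    have hr1 : r ≠ 1 := by
      rintro hr1
      rw [hr1] at a1
      have : (1 : F) = 0 := by linear_combination a1 - h1'
      exact one_ne_zero this
    have hr3 : r ^ 3 = 1 := by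
      linear_combination (r - 1) * a1
    have hr2 : r * σ r = 1 := by
      rw [a2]
      linear_combination a1 - h1'
    have hrq : r ^ (q + 1) = 1 := by
      have := frob_eq hF r
      rw [pow_succ, ← this, mul_comm]
      exact hr2
    let u : Fˣ := Units.mk0 r hr0
    have hu3 : u ^ 3 = 1 := Units.ext (by simpa [u] using hr3)
    have huq : u ^ (q + 1) = 1 := Units.ext (by simpa [u] using hrq)
    have hu1 : u ≠ 1 := by
      intro hc
      apply hr1
      have := congrArg Units.val hc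
      simpa [u] using this
    have ho : orderOf u = 3 := orderOf_eq_prime hu3 hu1
    rw [← ho]
    exact orderOf_dvd_of_pow_eq_one huq

/-- The linear parts of a stabilizer are permuted by the eigenvalues. -/
theorem Rho_mem (hV : finrank F V = 3) (hH : H ≤ suGroup h) (hfr : Fr h x f c) {u : F} (hu0 : u ≠ 0) {g : V ≃ₗ[F] V}
    (hg : g ∈ H) (hgu : g x = u • x) {ξ : F} (hξ : ξ ∈ Sb hF S H x c) : (σ u) ^ 2 / u * ξ ∈ Sb hF S H x c := by
  have hσ := invol_frob hF
  rw [mem_Sb] at hξ ⊢
  obtain ⟨α, hv, hm⟩ := hξ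
  obtain ⟨α', hv', he⟩ := hfr.conj_E S hσ hV ⟨g, hH hg⟩ hu0 hgu hv
  refine ⟨α', hv', ?_⟩
  rw [← he]
  exact mul_mem (mul_mem hg hm) (inv_mem hg)

/-- Without transvections the linear parts lie in a line over the fixed field. -/
theorem odd_fix (hfr : Fr h x f c) (ha : (Ab hF S H x).card = 1) {ξ η : F} (hξ : ξ ∈ Sb hF S H x c)
    (hη : η ∈ Sb hF S H x c) (hη0 : η ≠ 0) : σ (ξ / η) = ξ / η := by
  have e0 : (0 : F) ∈ Ab hF S H x := (sg_Ab hF S H hfr.hp.ee).zero
  have h3 := comm_Ab hF S hfr hξ hη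
  have h4 : (ξ * σ η - η * σ ξ) * h c c = 0 := by
    obtain ⟨l, hl⟩ := Finset.card_eq_one.mp ha
    rw [hl, Finset.mem_singleton] at e0 h3
    rw [h3, e0]
  have h5 := (mul_eq_zero.mp h4).resolve_right hfr.cc
  have hs : σ η ≠ 0 := by simpa using hη0
  rw [map_div₀, div_eq_div_iff hs hη0]
  linear_combination -h5

/-- The bound for the linear parts. -/
theorem odd_card (hfr : Fr h x f c) (ha : (Ab hF S H x).card = 1) {η : F} (hη : η ∈ Sb hF S H x c) (hη0 : η ≠ 0) :
    (Sb hF S H x c).card ≤ q := by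
  refine le_trans ?_ (card_Fq hF).le
  apply Finset.card_le_card_of_injOn (fun ξ => ξ / η)
  · intro ξ hξ
    exact mem_Fq.mpr (odd_fix hF S hfr ha hξ hη hη0)
  · intro a _ b _ hab
    have hab' : a / η = b / η := hab
    field_simp at hab'
    exact hab'

/-- The eigenvalues without transvections. -/
theorem odd_pow (hV : finrank F V = 3) (hH : H ≤ suGroup h) (hfr : Fr h x f c) (ha : (Ab hF S H x).card = 1) {η : F}
    (hη : η ∈ Sb hF S H x c) (hη0 : η ≠ 0) (hq : 1 ≤ q) {u : Fˣ} (hu : u ∈ Ig H x) : u ^ (3 * (q - 1)) = 1 := by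
  have hσ := invol_frob hF
  obtain ⟨g, hg, hgu⟩ := hu
  have hu0 : (u : F) ≠ 0 := u.ne_zero
  have hs : σ (u : F) ≠ 0 := by simpa using hu0
  have h1 := Rho_mem hF S hV hH hfr hu0 hg hgu hη
  have h2 := odd_fix hF S hfr ha h1 hη hη0
  rw [mul_div_assoc, div_self hη0, mul_one, map_div₀, map_pow, hσ.invol, div_eq_div_iff hs hu0] at h2
  have h3 : σ ((u : F) ^ 3) = (u : F) ^ 3 := by
    rw [map_pow]
    linear_combination -h2
  rw [frob_eq hF] at h3
  apply Units.ext
  rw [Units.val_pow_eq_pow_val, Units.val_one]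
  have h4 : ((u : F) ^ 3) ≠ 0 := pow_ne_zero _ hu0
  apply mul_right_cancel₀ h4
  rw [one_mul, ← pow_add]
  have e : 3 * (q - 1) + 3 = 3 * q := by
    obtain ⟨t, rfl⟩ : ∃ t, q = t + 1 := ⟨q - 1, by omega⟩
    simp only [Nat.add_sub_cancel]
    ring
  rw [e, pow_mul]
  exact h3

/-- The orders of the eigenvalue groups without transvections. -/
theorem odd_dvd (hV : finrank F V = 3) (hH : H ≤ suGroup h) (hfr : Fr h x f c) (ha : (Ab hF S H x).card = 1) {η : F}
    (hη : η ∈ Sb hF S H x c) (hη0 : η ≠ 0) (hq : 1 ≤ q) :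
    Nat.card (Ig H x) ∣ 3 * (q - 1) ∧ Nat.card ↥(Ig H x ⊓ (Nmh hF).ker) ∣ 6 := by
  constructor
  · apply card_dvd_of_pow
    intro u hu
    exact odd_pow hF S hV hH hfr ha hη hη0 hq hu
  · apply card_dvd_of_pow
    intro u hu
    obtain ⟨h1, h2⟩ := Subgroup.mem_inf.mp hu
    have h3 := odd_pow hF S hV hH hfr ha hη hη0 hq h1
    have h4 := pow_of_nmh hF h2
    have h5 : u ^ (3 * (q + 1)) = 1 := by
      rw [mul_comm, pow_mul, h4, one_pow]
    have e : 3 * (q + 1) = 3 * (q - 1) + 6 := by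
      obtain ⟨t, rfl⟩ : ∃ t, q = t + 1 := ⟨q - 1, by omega⟩
      simp only [Nat.add_sub_cancel]
      ring
    rw [e, pow_add, h3, one_mul] at h5
    exact h5

/-- If all linear parts occur then all transvections occur. -/
theorem full_Ab (hfr : Fr h x f c) (hfull : (Sb hF S H x c).card = q ^ 2) (hq : 1 ≤ q) : q ≤ (Ab hF S H x).card := by
  have hσ := invol_frob hF
  have hu : Sb hF S H x c = Finset.univ := by
    apply Finset.eq_univ_of_card
    rw [hfull, hF]
  have hcc := hfr.cc
  set φ : F → F := fun ξ => (ξ * σ 1 - 1 * σ ξ) * h c c with hφ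
  have h1 : (Finset.univ : Finset F).image φ ⊆ Ab hF S H x := by
    intro l hl
    obtain ⟨ξ, -, rfl⟩ := Finset.mem_image.mp hl
    exact comm_Ab hF S hfr (hu ▸ Finset.mem_univ ξ) (hu ▸ Finset.mem_univ 1)
  have h2 : (Finset.univ : Finset F).card ≤ q * ((Finset.univ : Finset F).image φ).card := by
    apply Finset.card_le_mul_card_image
    intro t ht
    obtain ⟨ξ₀, -, rfl⟩ := Finset.mem_image.mp ht
    refine le_trans ?_ (card_Fq hF).le
    apply Finset.card_le_card_of_injOn (fun ξ => ξ - ξ₀)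
    · intro ξ hξ
      have h3 : φ ξ = φ ξ₀ := (Finset.mem_filter.mp hξ).2
      simp only [hφ, map_one, mul_one, one_mul] at h3
      have h4 := mul_right_cancel₀ hcc h3
      apply mem_Fq.mpr
      rw [map_sub]
      linear_combination -h4
    · intro a _ b _ hab
      have hab' : a - ξ₀ = b - ξ₀ := hab
      exact sub_left_inj.mp hab'
  rw [Finset.card_univ, hF] at h2
  have h3 := Finset.card_le_card h1
  have h4 : q * q ≤ q * (Ab hF S H x).card := by
    calc q * q = q ^ 2 := (sq q).symm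
      _ ≤ _ := h2
      _ ≤ _ := Nat.mul_le_mul_left _ h3
  exact Nat.le_of_mul_le_mul_left h4 (by omega)

end Cfsg.Agent.Lib.MinU3.Par
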