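/-
Elements of prime order without fixed points, and Sylow's theorem, for subgroups transitive on isotropic points.
-/
import Mathlib
import Cfsg.Agent.Lib.MinU3.Par

set_option autoImplicit false
set_option linter.unusedSectionVars false
set_option linter.unusedVariables false
set_option linter.unusedSimpArgs false
set_option linter.style.haveILetI false

namespace Cfsg.Agent.Lib.MinU3.Syl

open Module Cfsg.Agent.Lib.MinU.Four Cfsg.Agent.Lib.MinU.Fld Cfsg.Agent.Lib.MinU.Sp Cfsg.Agent.Lib.MinU.Eich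
open Cfsg.Agent.Lib.HermCount.Field
open Cfsg.Agent.Lib.Classical.HermBasic Cfsg.Agent.Lib.Classical.HermElem Cfsg.Agent.Lib.Classical.HermGen
open Cfsg.Agent.Lib.Classical.HermBridge
open Cfsg.Agent.Lib.MinU3.Basic Cfsg.Agent.Lib.MinU3.Pts Cfsg.Agent.Lib.MinU3.Grp Cfsg.Agent.Lib.MinU3.Trans
open Cfsg.Agent.Lib.MinU3.Cnt Cfsg.Agent.Lib.MinU3.Ker Cfsg.Agent.Lib.MinU3.LC Cfsg.Agent.Lib.MinU3.Str
open Cfsg.Agent.Lib.MinU3.Line Cfsg.Agent.Lib.MinU3.Inv Cfsg.Agent.Lib.MinU3.Par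
open scoped _root_.Classical LinearAlgebra.Projectivization

attribute [-simp] frobHom_apply

universe u v w

variable {F : Type u} [Field F] [Fintype F] {q : ℕ} (hF : Fintype.card F = q ^ 2)

local notation "σ" => frobHom hF

variable {V : Type v} [AddCommGroup V] [Module F V] [FiniteDimensional F V] {h : V → V → F}
  (S : HForm (frobHom hF) h) (hV : finrank F V = 3)

variable {H : Subgroup (V ≃ₗ[F] V)} {x f c : V}

include S hV

/-- A vector orthogonal to two given ones. -/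
theorem exists_perp_two (c₁ c₂ : V) : ∃ z : V, z ≠ 0 ∧ h z c₁ = 0 ∧ h z c₂ = 0 := by
  let φ : V →ₗ[F] F × F := (S.hL c₁).prod (S.hL c₂)
  have h1 : LinearMap.ker φ ≠ ⊥ := φ.ker_ne_bot_of_finrank_lt (by
    rw [hV, Module.finrank_prod, Module.finrank_self]
    norm_num)
  obtain ⟨z, hz, hz0⟩ := Submodule.exists_mem_ne_zero_of_ne_bot h1
  have h2 : φ z = 0 := hz
  have h3 : S.hL c₁ z = 0 := congrArg Prod.fst h2
  have h4 : S.hL c₂ z = 0 := congrArg Prod.snd h2
  exact ⟨z, hz0, h3, h4⟩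

/-- **The central involutions in even characteristic**. -/
theorem inv_Z (h2 : (2 : F) = 0) {i : V ≃ₗ[F] V} (hi : i ∈ suGroup h) (hi2 : i * i = 1) (hi1 : i ≠ 1) :
    ∃ v : V, v ≠ 0 ∧ h v v = 0 ∧ i ∈ Zs h v := by
  have hσ := invol_frob hF
  haveI : Fact (Nat.Prime 2) := ⟨Nat.prime_two⟩
  set J := Subgroup.zpowers i with hJ
  have hJle : J ≤ suGroup h := Subgroup.zpowers_le.mpr hi
  haveI := finite_H (F := F) (V := V) J
  have hord : orderOf i = 2 := orderOf_eq_prime (by rw [sq]; exact hi2) hi1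
  have hJ2 : IsPGroup 2 J := by
    apply IsPGroup.of_card (n := 1)
    rw [hJ, Nat.card_zpowers, hord, pow_one]
  -- a fixed isotropic point
  obtain ⟨x₀, hx₀, hx₀x₀⟩ := exists_isotropic S hσ (by omega : 2 ≤ finrank F V)
  obtain ⟨f₀, c₀, hfr₀⟩ := exists_fr hF S hV hx₀ hx₀x₀
  have hcΩ : Nat.card (OmS hF S J hJle) = q ^ 3 + 1 := by
    rw [← card_Om hF S hV hfr₀, ← Nat.card_eq_fintype_card.trans (Fintype.card_coe (Om h))]
    apply Nat.card_congr
    apply Equiv.subtypeEquivRight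
    intro p
    rw [mem_Om]
    rfl
  have hqe : Even q := by
    obtain ⟨p, m, hp, hqm, hch⟩ := exists_char hF
    haveI := hch
    have hp2 : p ∣ 2 := by
      rw [← CharP.cast_eq_zero_iff F p]
      exact_mod_cast h2
    have hp3 : p = 2 := (Nat.prime_dvd_prime_iff_eq hp Nat.prime_two).mp hp2
    rw [hqm, hp3]
    have hm : m ≠ 0 := by
      rintro rfl
      rw [hp3, pow_zero] at hqm
      rw [hqm] at hF
      have h3 : Fintype.card F = 1 := by rw [hF]; norm_num
      exact Fintype.one_lt_card.ne' h3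
    exact (Nat.even_pow.mpr ⟨even_two, hm⟩)
  have hm := hJ2.card_modEq_card_fixedPoints (OmS hF S J hJle)
  rw [hcΩ] at hm
  have hne : Nat.card (MulAction.fixedPoints J (OmS hF S J hJle)) ≠ 0 := by
    intro h0
    rw [h0] at hm
    have h3 := (Nat.modEq_zero_iff_dvd.mp hm)
    have h4 : Odd (q ^ 3 + 1) := (hqe.pow_of_ne_zero (by norm_num)).add_one
    exact (Nat.not_even_iff_odd.mpr h4) (even_iff_two_dvd.mpr h3)
  obtain ⟨⟨p, hp⟩⟩ : Nonempty (MulAction.fixedPoints J (OmS hF S J hJle)) := by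
    by_contra hcon
    rw [not_nonempty_iff] at hcon
    exact hne (Nat.card_of_isEmpty)
  have hp' : ∀ g : J, g • p = p := hp
  have hp'' := congrArg Subtype.val (hp' ⟨i, Subgroup.mem_zpowers i⟩)
  have hiso : h p.1.rep p.1.rep = 0 := p.2
  have hp0 := p.1.rep_nonzero
  obtain ⟨l, hl⟩ := eig_of_fix (⟨i, Subgroup.mem_zpowers i⟩ : J) hp''
  have hl' : i p.1.rep = l • p.1.rep := hl
  -- the eigenvalue is one
  have hl1 : l = 1 := by
    have e1 : (i * i) p.1.rep = p.1.rep := by rw [hi2]; rfl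
    have e2 : i (i p.1.rep) = p.1.rep := e1
    rw [hl', map_smul, hl', smul_smul] at e2
    have e3 : (l * l - 1) • p.1.rep = 0 := by rw [sub_smul, e2, one_smul, sub_self]
    have e4 := (smul_eq_zero.mp e3).resolve_right hp0
    have e5 : (l - 1) * (l - 1) = 0 := by
      linear_combination e4 - l * h2 + h2
    have e6 := mul_self_eq_zero.mp e5
    linear_combination e6
  rw [hl1, one_smul] at hl'
  obtain ⟨f', c', hfr⟩ := exists_fr hF S hV hp0 hiso
  obtain ⟨ξ, α, hv, he⟩ := hfr.exists_E S hσ hV hi hl'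
  have hsq := E_mul (S := S) hv hv
  have hv2 := hv.mul hv S
  have e1 : ξ • c' + ξ • c' = 0 := by
    rw [← two_smul F, smul_smul, h2, zero_mul, zero_smul]
  rw [e1] at hsq hv2
  have hone : (E S p.1.rep 0 (α + α - h (ξ • c') (ξ • c'))) = 1 := by
    rw [← hsq]
    apply Subtype.ext
    show (E S p.1.rep (ξ • c') α).1 * (E S p.1.rep (ξ • c') α).1 = 1
    rw [he, hi2]
  have hval : h f' p.1.rep = 1 := hfr.hp.fe
  have hf' : (E S p.1.rep 0 (α + α - h (ξ • c') (ξ • c'))).1 f' = f' := by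
    rw [hone]
    rfl
  rw [Fr.E_z S hv2, hval] at hf'
  have e2 : (α + α - h (ξ • c') (ξ • c')) * 1 = 0 := by
    have e3 : ((α + α - h (ξ • c') (ξ • c')) * 1) • p.1.rep = 0 := add_eq_left.mp hf'
    exact (smul_eq_zero.mp e3).resolve_right hp0
  have e3 : ξ * σ ξ * h c' c' = 0 := by
    simp only [S.smul_left, S.smul_right] at e2
    have e4 : α + α = 2 * α := by ring
    rw [e4, h2, zero_mul] at e2
    linear_combination -e2
  have hξ : ξ = 0 := by
    by_contra h0
    have hs : σ ξ ≠ 0 := by simpa using h0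
    exact (mul_ne_zero (mul_ne_zero h0 hs) hfr.cc) e3
  subst hξ
  rw [zero_smul] at he hv
  refine ⟨p.1.rep, hp0, hiso, ?_⟩
  rw [← he]
  apply E_mem_Zs hF S hV hiso
  rw [mem_Lam]
  have := hv.ha
  rwa [S.zero_left, add_zero] at this

/-- **An element without fixed points is not normalized by an involution**. -/
theorem no_inv {y i : V ≃ₗ[F] V} (hy : y ∈ suGroup h) (hi : i ∈ suGroup h) (hi2 : i * i = 1) (hi1 : i ≠ 1)
    (hy2 : y * y ≠ 1) (hfix : ∀ v : V, v ≠ 0 → ∀ a : F, y v ≠ a • v) (hcomm : i * y * i = y ∨ i * y * i = y⁻¹) : False := by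
  have hσ := invol_frob hF
  have hii : ∀ v, i (i v) = v := fun v => by
    have : (i * i) v = v := by rw [hi2]; rfl
    exact this
  -- the product
  have hprod : (i * y * i = y⁻¹) → (i * y) * (i * y) = 1 ∧ i * y ≠ 1 := by
    intro he
    constructor
    · calc (i * y) * (i * y) = (i * y * i) * y := by group
        _ = 1 := by rw [he]; group
    · intro hc
      apply hy2
      have e1 : y = i := by
        calc y = (i * i) * y := by rw [hi2, one_mul]
          _ = i * (i * y) := by group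
          _ = i := by rw [hc, mul_one]
      rw [e1, hi2]
  have hiU : i ∈ uGroup h := (mem_suGroup.mp hi).1
  by_cases h2 : (2 : F) = 0
  · obtain ⟨v, hv0, hvv, hZ⟩ := inv_Z hF S hV h2 hi hi2 hi1
    rcases hcomm with he | he
    · have hc : i * y = y * i := by
        calc i * y = (i * y * i) * i := by rw [mul_assoc (i * y), hi2, mul_one]
          _ = y * i := by rw [he]
      by_cases hne : ∀ a : F, y v ≠ a • v
      · apply hi1
        apply uniq_fix hF S hV hv0 hvv (y.map_ne_zero_iff.mpr hv0) (y := y v)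
          (by rw [(mem_suGroup.mp hy).1 v v]; exact hvv) hne (Zs_le_vstab hvv hZ) (a := 1)
        rw [one_smul]
        have e1 : (i * y) v = (y * i) v := by rw [hc]
        have e2 : (y * i) v = y (i v) := rfl
        rw [e2, hZ.2 v hvv] at e1
        exact e1
      · push Not at hne
        obtain ⟨a, ha⟩ := hne
        exact hfix v hv0 a ha
    · obtain ⟨e1, e2⟩ := hprod he
      obtain ⟨v', hv'0, hv'v', hZ'⟩ := inv_Z hF S hV h2 (mul_mem hi hy) e1 e2
      obtain ⟨z, hz0, hz1, hz2⟩ := exists_perp_two hF S hV v v'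
      apply hfix z hz0 1
      have e3 : i (y z) = z := hZ'.2 z hz2
      rw [one_smul]
      have e4 := hii (y z)
      rw [e3, hZ.2 z hz1] at e4
      exact e4.symm
  · obtain ⟨u, f, c, fr, hu, hf, hc⟩ := inv_frame hF S hV h2 hi hi2 hi1
    rcases hcomm with he | he
    · have hc' : y * i = i * y := by
        calc y * i = (i * y * i) * i := by rw [he]
          _ = i * y := by rw [mul_assoc (i * y), hi2, mul_one]
      have hL := ln_cent hF S hV (H := suGroup h) (t := i) le_rfl h2 fr hu hf hc hiU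
      obtain ⟨κ, hκ⟩ := hL.eig y (Subgroup.mem_inf.mpr ⟨hy, Subgroup.mem_centralizer_singleton_iff.mpr hc'⟩)
      exact hfix c (fr.ne_c S) κ hκ
    · obtain ⟨e1, e2⟩ := hprod he
      obtain ⟨u', f', c', fr', hu', hf', hc'⟩ := inv_frame hF S hV h2 (mul_mem hi hy) e1 e2
      obtain ⟨z, hz0, hz1, hz2⟩ := exists_perp_two hF S hV c c'
      have e3 := minus_on_perp hF S hV fr hu hf hz1
      have e4 := minus_on_perp hF S hV fr' hu' hf' hz2
      apply hfix z hz0 1
      rw [one_smul]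
      have e5 : i (y z) = -z := e4
      have e6 := hii (y z)
      rw [e5, map_neg, e3, neg_neg] at e6
      exact e6.symm

theorem card_orbit_eq (hH : H ≤ suGroup h) (hfr : Fr h x f c)
    (htr : ∀ y : V, y ≠ 0 → h y y = 0 → ∃ g ∈ H, ∃ b : F, g x = b • y) :
    Nat.card (MulAction.orbit H (Projectivization.mk F x (hfr.ne_x S))) = q ^ 3 + 1 := by
  have hx := hfr.ne_x S
  rw [← card_Om hF S hV hfr]
  have : Nat.card (MulAction.orbit H (Projectivization.mk F x hx)) = Nat.card ↥(Om h) := by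
    apply Nat.card_congr
    apply Equiv.subtypeEquivRight
    intro p
    constructor
    · rintro ⟨g, rfl⟩
      rw [mem_Om]
      exact iso_smul hF S hH g ((isoP_mk hF S hx).mpr hfr.hp.ee)
    · intro hp
      rw [mem_Om] at hp
      obtain ⟨g, hg, b, hb⟩ := htr p.rep p.rep_nonzero hp
      refine ⟨⟨g, hg⟩, ?_⟩
      show (⟨g, hg⟩ : H) • Projectivization.mk F x hx = p
      rw [← p.mk_rep, smul_mk_eq, mk_eq_iff]
      exact ⟨b, hb.symm⟩
  rw [this, Nat.card_eq_fintype_card, Fintype.card_coe]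

/-- The stabilizers in a transitive subgroup have the same order. -/
theorem card_pstab_eq (hH : H ≤ suGroup h) (hfr : Fr h x f c)
    (htr : ∀ y z : V, y ≠ 0 → z ≠ 0 → h y y = 0 → h z z = 0 → ∃ g ∈ H, ∃ b : F, g y = b • z) {v : V} (hv : v ≠ 0)
    (hvv : h v v = 0) : Nat.card ↥(H ⊓ pstab h v hv) = Nat.card ↥(H ⊓ pstab h x (hfr.ne_x S)) := by
  haveI := finite_H (F := F) (V := V) H
  obtain ⟨f', c', hfr'⟩ := exists_fr hF S hV hv hvv
  have hx := hfr.ne_x S
  have h3 := orbit_stab hF hH hx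
  have h4 := orbit_stab hF hH hv
  have h5 := card_orbit_eq hF S hV hH hfr (fun y hy hyy => htr x y hx hy hfr.hp.ee hyy)
  have h6 := card_orbit_eq hF S hV hH hfr' (fun y hy hyy => htr v y hv hy hvv hyy)
  rw [h5] at h3
  rw [h6] at h4
  have : (q ^ 3 + 1) * Nat.card ↥(H ⊓ pstab h v hv) = (q ^ 3 + 1) * Nat.card ↥(H ⊓ pstab h x hx) := by
    rw [h3, h4]
  exact Nat.eq_of_mul_eq_mul_left (by positivity) this

/-- The stabilizers of vectors in a transitive subgroup have the same order. -/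
theorem card_vstab_eq (hH : H ≤ suGroup h) (hfr : Fr h x f c)
    (htr : ∀ y z : V, y ≠ 0 → z ≠ 0 → h y y = 0 → h z z = 0 → ∃ g ∈ H, ∃ b : F, g y = b • z) {v : V} (hv : v ≠ 0)
    (hvv : h v v = 0) : Nat.card ↥(H ⊓ vstab h v) = Nat.card ↥(H ⊓ vstab h x) := by
  haveI := finite_H (F := F) (V := V) H
  have hx := hfr.ne_x S
  have h1 := card_pstab_eq hF S hV hH hfr htr hv hvv
  rw [card_Hx H hH hv, card_Hx H hH hx] at h1
  obtain ⟨g, hg, b, hb⟩ := htr x v hx hv hfr.hp.ee hvv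
  have hb0 : b ≠ 0 := by
    rintro rfl
    rw [zero_smul] at hb
    exact hx (g.map_eq_zero_iff.mp hb)
  rw [Ig_eq hF S hV hH hg hb0 hb] at h1
  exact (Nat.eq_of_mul_eq_mul_left Nat.card_pos h1)

/-- **An element of large prime order not dividing the stabilizers has no fixed points**. -/
theorem no_fix_of (hH : H ≤ suGroup h) (hfr : Fr h x f c)
    (htr : ∀ y z : V, y ≠ 0 → z ≠ 0 → h y y = 0 → h z z = 0 → ∃ g ∈ H, ∃ b : F, g y = b • z)
    {ρ : ℕ} (hρ : ρ.Prime) (hρq : q + 1 < ρ) (hnd : ¬ ρ ∣ Nat.card ↥(H ⊓ pstab h x (hfr.ne_x S)))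
    {y : V ≃ₗ[F] V} (hy : y ∈ H) (ho : orderOf y = ρ) : ∀ v : V, v ≠ 0 → ∀ a : F, y v ≠ a • v := by
  haveI := finite_H (F := F) (V := V) H
  haveI : Fact ρ.Prime := ⟨hρ⟩
  have hiso : ∀ v : V, v ≠ 0 → h v v = 0 → ∀ a : F, y v ≠ a • v := by
    intro v hv hvv a ha
    haveI := finite_H (F := F) (V := V) (H ⊓ pstab h v hv)
    have hm : y ∈ H ⊓ pstab h v hv := Subgroup.mem_inf.mpr ⟨hy, hH hy, a, ha⟩
    have h1 : orderOf (⟨y, hm⟩ : ↥(H ⊓ pstab h v hv)) = ρ := by
      rw [Subgroup.orderOf_mk]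
      exact ho
    have h2 := orderOf_dvd_natCard (⟨y, hm⟩ : ↥(H ⊓ pstab h v hv))
    rw [h1, card_pstab_eq hF S hV hH hfr htr hv hvv] at h2
    exact hnd h2
  intro v hv a ha
  by_cases hvv : h v v = 0
  · exact hiso v hv hvv a ha
  set J := Subgroup.zpowers y with hJ
  have hJ1 : J ≤ suGroup h := Subgroup.zpowers_le.mpr (hH hy)
  have hJ2 : J ≤ pstab h v hv := Subgroup.zpowers_le.mpr ⟨hH hy, a, ha⟩
  have hL : Ln h J v := ⟨hJ1, hvv, fun g hg => (hJ2 hg).2⟩
  obtain ⟨x', f', fr'⟩ := exists_fr_ni hF S hV hvv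
  have hc := card_LS hF S fr' hV hL
  haveI := finite_H (F := F) (V := V) J
  have hP : IsPGroup ρ J := by
    apply IsPGroup.of_card (n := 1)
    rw [hJ, Nat.card_zpowers, ho, pow_one]
  have hm := hP.card_modEq_card_fixedPoints (LS hF S hL)
  rw [hc] at hm
  have hne : Nat.card (MulAction.fixedPoints J (LS hF S hL)) ≠ 0 := by
    intro h0
    rw [h0] at hm
    have h3 := Nat.modEq_zero_iff_dvd.mp hm
    have := Nat.le_of_dvd (by omega) h3
    omega
  obtain ⟨⟨p, hp⟩⟩ : Nonempty (MulAction.fixedPoints J (LS hF S hL)) := by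
    by_contra hcon
    rw [not_nonempty_iff] at hcon
    exact hne (Nat.card_of_isEmpty)
  have hp' : ∀ g : J, g • p = p := hp
  have hp'' := congrArg Subtype.val (hp' ⟨y, Subgroup.mem_zpowers y⟩)
  obtain ⟨l, hl⟩ := eig_of_fix (⟨y, Subgroup.mem_zpowers y⟩ : J) hp''
  exact hiso _ p.1.rep_nonzero p.2.1 l hl

/-- **The normalizer of a Sylow subgroup of large prime order is odd**. -/
theorem syl_even (hH : H ≤ suGroup h) (hfr : Fr h x f c)
    (htr : ∀ y z : V, y ≠ 0 → z ≠ 0 → h y y = 0 → h z z = 0 → ∃ g ∈ H, ∃ b : F, g y = b • z)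
    {ρ : ℕ} (hρ : ρ.Prime) (hρq : q + 1 < ρ) (hnd : ¬ ρ ∣ Nat.card ↥(H ⊓ pstab h x (hfr.ne_x S)))
    (Y : Subgroup H) (hY : Nat.card Y = ρ) (hN : 2 ∣ Nat.card (Subgroup.normalizer (Y : Set H))) : False := by
  haveI := finite_H (F := F) (V := V) H
  haveI : Fact ρ.Prime := ⟨hρ⟩
  haveI : Fact (Nat.Prime 2) := ⟨Nat.prime_two⟩
  have hρ2 := hρ.two_le
  haveI : IsCyclic Y := isCyclic_of_prime_card hY
  obtain ⟨y₀, hy₀⟩ := IsCyclic.exists_generator (α := Y)
  set y : H := y₀.1 with hy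
  have ho : orderOf y = ρ := by
    rw [hy, Subgroup.orderOf_coe, orderOf_eq_card_of_forall_mem_zpowers hy₀, hY]
  have hmem : ∀ g ∈ Y, ∃ k : ℤ, g = y ^ k := by
    intro g hg
    obtain ⟨k, hk⟩ := hy₀ ⟨g, hg⟩
    refine ⟨k, ?_⟩
    have := congrArg Subtype.val hk
    simpa using this.symm
  obtain ⟨i₀, hi₀⟩ := exists_prime_orderOf_dvd_card' 2 hN
  set i : H := i₀.1 with hi
  have hio : orderOf i = 2 := by
    rw [hi, Subgroup.orderOf_coe, hi₀]
  have hi2 : i * i = 1 := by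
    rw [← sq, ← hio]
    exact pow_orderOf_eq_one i
  have hi1 : i ≠ 1 := by
    intro hc
    rw [hc, orderOf_one] at hio
    omega
  have hii : i⁻¹ = i := inv_eq_of_mul_eq_one_left hi2
  have hyY : y ∈ Y := y₀.2
  have hconj : i * y * i⁻¹ ∈ Y := (Subgroup.mem_normalizer_iff.mp i₀.2 y).mp hyY
  obtain ⟨k, hk⟩ := hmem _ hconj
  have hk2 : y ^ (k * k - 1) = 1 := by
    have e1 : i * (y ^ k) * i⁻¹ = y ^ (k * k) := by
      rw [← conj_zpow, hk, ← zpow_mul]
    have e2 : i * (y ^ k) * i⁻¹ = y := by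
      rw [← hk, hii]
      calc i * (i * y * i) * i = (i * i) * y * (i * i) := by group
        _ = y := by rw [hi2]; group
    rw [zpow_sub_one, ← e1, e2]
    group
  have hd : (ρ : ℤ) ∣ (k - 1) * (k + 1) := by
    have := orderOf_dvd_iff_zpow_eq_one.mpr hk2
    rw [ho] at this
    have e : k * k - 1 = (k - 1) * (k + 1) := by ring
    rwa [e] at this
  have hpi : Prime (ρ : ℤ) := Nat.prime_iff_prime_int.mp hρ
  have hcomm : i * y * i = y ∨ i * y * i = y⁻¹ := by
    rw [hii] at hk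
    rw [hk]
    rcases hpi.dvd_or_dvd hd with h1 | h1
    · left
      have h3 : y ^ (k - 1) = 1 := by
        apply orderOf_dvd_iff_zpow_eq_one.mp
        rw [ho]
        exact h1
      rw [zpow_sub_one] at h3
      exact mul_inv_eq_one.mp h3
    · right
      have h3 : y ^ (k + 1) = 1 := by
        apply orderOf_dvd_iff_zpow_eq_one.mp
        rw [ho]
        exact h1
      rw [zpow_add_one] at h3
      exact eq_inv_of_mul_eq_one_left h3
  have hy2 : y * y ≠ 1 := by
    intro hc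
    have := orderOf_dvd_of_pow_eq_one (by rw [sq]; exact hc : y ^ 2 = 1)
    rw [ho] at this
    have h5 := Nat.le_of_dvd (by norm_num) this
    have h6 := one_le_q hF
    omega
  have hy2' : y.1 * y.1 ≠ 1 := fun hc => hy2 (Subtype.ext hc)
  have hoy : orderOf y.1 = ρ := by
    rw [Subgroup.orderOf_coe]
    exact ho
  have hfix := no_fix_of hF S hV hH hfr htr hρ hρq hnd y.2 hoy
  apply no_inv hF S hV (hH y.2) (hH i.2) (congrArg Subtype.val hi2) (fun hc => hi1 (Subtype.ext hc)) hy2' hfix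
  rcases hcomm with h1 | h1
  · exact Or.inl (congrArg Subtype.val h1)
  · exact Or.inr (congrArg Subtype.val h1)

/-- **Sylow's theorem**. -/
theorem syl_data (H : Subgroup (V ≃ₗ[F] V)) {ρ M : ℕ} (hρ : ρ.Prime) (hcard : Nat.card H = ρ * M) (hM : ¬ ρ ∣ M) :
    ∃ Y : Sylow ρ H, Nat.card Y = ρ ∧ ∃ n : ℕ, n ∣ M ∧ n ≡ 1 [MOD ρ] ∧ n * Nat.card (Subgroup.normalizer ((Y : Subgroup H) : Set H)) = ρ * M := by
  haveI := finite_H (F := F) (V := V) H
  haveI : Fact ρ.Prime := ⟨hρ⟩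
  have hM0 : M ≠ 0 := by
    rintro rfl
    exact hM (dvd_zero _)
  have hρ0 := hρ.ne_zero
  obtain ⟨Y⟩ : Nonempty (Sylow ρ H) := inferInstance
  have hY : Nat.card Y = ρ := by
    rw [Sylow.card_eq_multiplicity, hcard, Nat.factorization_mul hρ0 hM0, Finsupp.add_apply,
      hρ.factorization_self, Nat.factorization_eq_zero_of_not_dvd hM, add_zero, pow_one]
  refine ⟨Y, hY, Nat.card (Sylow ρ H), ?_, card_sylow_modEq_one ρ H, ?_⟩
  · have h1 := Y.card_dvd_index
    have h2 := Subgroup.card_mul_index (Y : Subgroup H)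
    have h3 : Nat.card (Y : Subgroup H) = ρ := hY
    rw [h3, hcard] at h2
    have h4 : (Y : Subgroup H).index = M := Nat.eq_of_mul_eq_mul_left hρ.pos h2
    rwa [h4] at h1
  · rw [Y.card_eq_index_normalizer, mul_comm]
    have := Subgroup.card_mul_index (Subgroup.normalizer ((Y : Subgroup H) : Set H))
    rw [hcard] at this
    exact this

/-- **The finish with Sylow's theorem**. -/
theorem syl_finish (hH : H ≤ suGroup h) (hfr : Fr h x f c)
    (htr : ∀ y z : V, y ≠ 0 → z ≠ 0 → h y y = 0 → h z z = 0 → ∃ g ∈ H, ∃ b : F, g y = b • z)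
    {ρ M : ℕ} (hρ : ρ.Prime) (hρq : q + 1 < ρ) (hnd : ¬ ρ ∣ Nat.card ↥(H ⊓ pstab h x (hfr.ne_x S)))
    (hcard : Nat.card H = ρ * M) (hM : ¬ ρ ∣ M) (hnum : ∀ n N : ℕ, n ∣ M → n ≡ 1 [MOD ρ] → n * N = ρ * M → 2 ∣ N) :
    False := by
  obtain ⟨Y, hY, n, h1, h2, h3⟩ := syl_data hF S hV H hρ hcard hM
  exact syl_even hF S hV hH hfr htr hρ hρq hnd (Y : Subgroup H) hY (hnum n _ h1 h2 h3)

/-- **A subgroup with non-trivial stabilizers of vectors is transitive**. -/
theorem trans_of_nt (hH : H ≤ suGroup h) (hnt : ∀ u : V, u ≠ 0 → h u u = 0 → ∃ g ∈ H ⊓ vstab h u, g ≠ 1) {x y : V}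
    (hx : x ≠ 0) (hy : y ≠ 0) (hxx : h x x = 0) (hyy : h y y = 0) : ∃ g ∈ H, ∃ a : F, g x = a • y := by
  have hσ := invol_frob hF
  haveI := finite_H (F := F) (V := V) H
  obtain ⟨p, m, hp, hqm, -⟩ := exists_char hF
  haveI : Fact p.Prime := ⟨hp⟩
  let X := ↥(OmS hF S H hH)
  have hrep : ∀ r : X, r.1.rep ≠ 0 := fun r => r.1.rep_nonzero
  have hiso : ∀ r : X, h r.1.rep r.1.rep = 0 := fun r => r.2
  have hmk : ∀ r : ℙ F V, Projectivization.mk F r.rep r.rep_nonzero = r := fun r => r.mk_rep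
  let R : X → Subgroup H := fun r => (H ⊓ vstab h r.1.rep).subgroupOf H
  haveI : MulAction.IsPretransitive H X := by
    apply par (p := p) R
    · intro r g
      have h1 := isP_vstab hF S hV hp hqm (hrep r) (hiso r)
      have hg : g.1.1 ∈ H ⊓ vstab h r.1.rep := g.2
      obtain ⟨k, hk⟩ := h1 ⟨g.1.1, hg.2⟩
      refine ⟨k, ?_⟩
      apply Subtype.ext
      apply Subtype.ext
      have := congrArg Subtype.val hk
      simpa using this
    · intro r y' hall
      by_contra hne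
      obtain ⟨g, hg, hg1⟩ := hnt _ (hrep r) (hiso r)
      have hgy : (⟨g, hg.1⟩ : H) • y' = y' := hall _ (by
        show g ∈ H ⊓ vstab h r.1.rep
        exact hg)
      have hgy2 : (⟨g, hg.1⟩ : H) • y'.1 = y'.1 := congrArg Subtype.val hgy
      obtain ⟨a, hgv⟩ := eig_of_fix _ hgy2
      by_cases hb : ∃ b : F, y'.1.rep = b • r.1.rep
      · obtain ⟨b, hb⟩ := hb
        apply hne
        apply Subtype.ext
        rw [← hmk y'.1, ← hmk r.1, mk_eq_iff]
        exact ⟨b, hb.symm⟩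
      · push Not at hb
        exact hg1 (uniq_fix hF S hV (hrep r) (hiso r) (hrep y') (hiso y') hb hg.2 hgv)
    · intro r g hg
      have hg' : g.1 ∈ H ⊓ vstab h r.1.rep := hg
      apply Subtype.ext
      exact smul_eq_of g (k := 1) (by
        rw [one_smul]
        exact hg'.2.2)
  have hxm : Projectivization.mk F x hx ∈ OmS hF S H hH := (isoP_mk hF S hx).mpr hxx
  have hym : Projectivization.mk F y hy ∈ OmS hF S H hH := (isoP_mk hF S hy).mpr hyy
  obtain ⟨g, hg⟩ := MulAction.exists_smul_eq H (⟨_, hxm⟩ : X) (⟨_, hym⟩ : X)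
  have h5 : g • Projectivization.mk F x hx = Projectivization.mk F y hy := congrArg Subtype.val hg
  rw [smul_mk_eq, mk_eq_iff] at h5
  obtain ⟨a, ha⟩ := h5
  exact ⟨g.1, g.2, a, ha.symm⟩

/-- **Central scalars of order three**. -/
theorem exists_scalar3 (h3 : 3 ∣ q + 1) (hZ : ∀ g ∈ suGroup h, (∃ ω : F, ∀ v, g v = ω • v) → g ∈ H) :
    ∃ w ∈ H, w ≠ 1 ∧ w ^ 3 = 1 ∧ ∀ g : V ≃ₗ[F] V, g * w = w * g := by
  haveI : Fact (Nat.Prime 3) := ⟨Nat.prime_three⟩
  have hq := one_le_q hF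
  have hd : 3 ∣ Nat.card Fˣ := by
    rw [card_units hF]
    obtain ⟨t, rfl⟩ : ∃ t, q = t + 1 := ⟨q - 1, by omega⟩
    have e : (t + 1) ^ 2 - 1 = (t + 1 + 1) * t := by
      have : (t + 1) ^ 2 = (t + 1 + 1) * t + 1 := by ring
      omega
    rw [e]
    exact Dvd.dvd.mul_right h3 _
  obtain ⟨u, hu⟩ := exists_prime_orderOf_dvd_card' 3 hd
  have hu3 : u ^ 3 = 1 := by
    rw [← hu]
    exact pow_orderOf_eq_one u
  have hu1 : u ≠ 1 := by
    rintro rfl
    rw [orderOf_one] at hu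
    omega
  have huq : u ^ (q + 1) = 1 := by
    obtain ⟨t, ht⟩ := h3
    rw [ht, pow_mul, hu3, one_pow]
  have hn : (u : F) * σ (u : F) = 1 := by
    have := congrArg Units.val huq
    rw [Units.val_pow_eq_pow_val, Units.val_one, pow_succ, ← frob_eq hF, mul_comm] at this
    exact this
  have hω : (u : F) ≠ 0 := u.ne_zero
  have hσ := invol_frob hF
  set w : V ≃ₗ[F] V := LinearEquiv.smulOfNeZero F V (u : F) hω with hw
  have hwv : ∀ v, w v = (u : F) • v := fun _ => rfl
  have hsu : w ∈ suGroup h := by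
    rw [mem_suGroup]
    refine ⟨fun a b => ?_, ?_⟩
    · rw [hwv, hwv, S.smul_left, S.smul_right, ← mul_assoc, hn, one_mul]
    · have e : (w : V →ₗ[F] V) = (u : F) • LinearMap.id := by
        ext v
        exact hwv v
      rw [e, LinearMap.det_smul, LinearMap.det_id, hV, mul_one]
      have := congrArg Units.val hu3
      rwa [Units.val_pow_eq_pow_val, Units.val_one] at this
  refine ⟨w, hZ w hsu ⟨_, hwv⟩, ?_, ?_, ?_⟩
  · intro hc
    obtain ⟨v₀, hv₀, -⟩ := exists_isotropic S hσ (by omega : 2 ≤ finrank F V)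
    have e1 : w v₀ = v₀ := by rw [hc]; rfl
    rw [hwv] at e1
    apply hu1
    apply Units.ext
    have e2 : ((u : F) - 1) • v₀ = 0 := by rw [sub_smul, e1, one_smul, sub_self]
    have e3 := (smul_eq_zero.mp e2).resolve_right hv₀
    rw [Units.val_one]
    linear_combination e3
  · ext v
    have e1 : (w ^ 3) v = w (w (w v)) := rfl
    rw [e1, hwv, hwv, hwv, smul_smul, smul_smul]
    have := congrArg Units.val hu3
    rw [Units.val_pow_eq_pow_val, Units.val_one] at this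
    have e2 : (u : F) * (u : F) * (u : F) = 1 := by
      rw [← this]
      ring
    rw [e2, one_smul]
    rfl
  · intro g
    ext v
    show g (w v) = w (g v)
    rw [hwv, hwv, map_smul]

/-- **The case of an abelian normalizer, by Burnside's transfer theorem**. -/
theorem syl_burn (hH : H ≤ suGroup h) (hfr : Fr h x f c)
    (htr : ∀ y z : V, y ≠ 0 → z ≠ 0 → h y y = 0 → h z z = 0 → ∃ g ∈ H, ∃ b : F, g y = b • z)
    (hZ : ∀ g ∈ suGroup h, (∃ ω : F, ∀ v, g v = ω • v) → g ∈ H) (h3 : 3 ∣ q + 1)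
    {ρ M r : ℕ} (hρ : ρ.Prime) (hρ3 : ρ ≠ 3) (hcard : Nat.card H = ρ * M)
    (hr : Nat.card ↥(H ⊓ vstab h x) = r) (hr1 : 1 < r) (hco : Nat.Coprime ρ r) (hdvd : ¬ (q ^ 3 + 1) ∣ M)
    (Y : Sylow ρ H) (hY : Nat.card Y = ρ) (hN : Nat.card (Subgroup.normalizer ((Y : Subgroup H) : Set H)) = 3 * ρ) : False := by
  haveI := finite_H (F := F) (V := V) H
  haveI : Fact ρ.Prime := ⟨hρ⟩
  have hρ0 := hρ.pos
  haveI : IsCyclic (Y : Subgroup H) := isCyclic_of_prime_card hY
  obtain ⟨y₀, hy₀⟩ := IsCyclic.exists_generator (α := (Y : Subgroup H))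
  have hmem : ∀ g ∈ (Y : Subgroup H), ∃ k : ℤ, g = y₀.1 ^ k := by
    intro g hg
    obtain ⟨k, hk⟩ := hy₀ ⟨g, hg⟩
    refine ⟨k, ?_⟩
    have := congrArg Subtype.val hk
    simpa using this.symm
  obtain ⟨w, hw, hw1, hw3, hwc⟩ := exists_scalar3 hF S hV h3 hZ
  set w₀ : H := ⟨w, hw⟩ with hw₀
  have hw₀c : ∀ g : H, g * w₀ = w₀ * g := fun g => Subtype.ext (hwc g.1)
  have hw₀o : orderOf w₀ = 3 := by
    haveI : Fact (Nat.Prime 3) := ⟨Nat.prime_three⟩
    apply orderOf_eq_prime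
    · exact Subtype.ext hw3
    · intro hc
      exact hw1 (congrArg Subtype.val hc)
  set N := Subgroup.normalizer ((Y : Subgroup H) : Set H) with hNdef
  set Cn := N ⊓ Subgroup.centralizer ((Y : Subgroup H) : Set H) with hCn
  have hYN : (Y : Subgroup H) ≤ N := Subgroup.le_normalizer
  have hYC : (Y : Subgroup H) ≤ Cn := by
    intro a ha
    refine Subgroup.mem_inf.mpr ⟨hYN ha, ?_⟩
    rw [Subgroup.mem_centralizer_iff]
    intro b hb
    obtain ⟨k, rfl⟩ := hmem a ha
    obtain ⟨l, rfl⟩ := hmem b hb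
    exact (zpow_mul_comm _ _ _)
  have hwN : w₀ ∈ Cn := by
    refine Subgroup.mem_inf.mpr ⟨?_, ?_⟩
    · rw [hNdef, Subgroup.mem_normalizer_iff]
      intro g
      have e : w₀ * g * w₀⁻¹ = g := by
        rw [← hw₀c g]
        group
      rw [e]
    · rw [Subgroup.mem_centralizer_iff]
      intro g _
      exact hw₀c g
  have hd1 : ρ ∣ Nat.card Cn := by
    have := Subgroup.card_dvd_of_le hYC
    rwa [hY] at this
  have hd2 : 3 ∣ Nat.card Cn := by
    have := orderOf_dvd_natCard (⟨w₀, hwN⟩ : Cn)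
    rwa [Subgroup.orderOf_mk, hw₀o] at this
  have hco3 : Nat.Coprime 3 ρ := by
    rw [Nat.coprime_primes Nat.prime_three hρ]
    exact hρ3.symm
  have hd3 : 3 * ρ ∣ Nat.card Cn := hco3.mul_dvd_of_dvd_of_dvd hd2 hd1
  have hCnN : Cn ≤ N := inf_le_left
  have hCeq : Cn = N := by
    apply Subgroup.eq_of_le_of_card_ge hCnN
    rw [hN]
    exact Nat.le_of_dvd Nat.card_pos hd3
  have hP : Subgroup.normalizer ((Y : Subgroup H) : Set H) ≤ Subgroup.centralizer ((Y : Subgroup H) : Set H) := by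
    rw [← hNdef, ← hCeq]
    exact inf_le_right
  have hc := MonoidHom.ker_transferSylow_isComplement' Y hP
  set K₀ := (MonoidHom.transferSylow Y hP).ker with hK₀
  haveI : K₀.Normal := MonoidHom.normal_ker _
  have hK₀c : Nat.card K₀ = M := by
    have e := hc.card_mul_card
    rw [hcard] at e
    have e2 : Nat.card ↥(Y : Subgroup H) = ρ := hY
    rw [e2, mul_comm] at e
    exact Nat.eq_of_mul_eq_mul_left hρ0 e
  have hK₀i : K₀.index = ρ := by
    have := hc.symm.index_eq_card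
    rw [this]
    exact hY
  have hK : ∀ g : H, g ^ r = 1 → g ∈ K₀ := by
    intro g hg
    obtain ⟨t, -, ht⟩ := Nat.exists_mul_mod_eq_one_of_coprime hco hr1
    have h1 : g ^ ρ ∈ K₀ := by
      have := Subgroup.pow_index_mem K₀ g
      rwa [hK₀i] at this
    have h2 : (g ^ ρ) ^ t = g := by
      rw [← pow_mul]
      have e := Nat.div_add_mod (ρ * t) r
      rw [ht] at e
      rw [← e, pow_add, pow_mul, hg, one_pow, one_mul, pow_one]
    rw [← h2]
    exact pow_mem h1 t
  set Kt : Subgroup (V ≃ₗ[F] V) := K₀.map H.subtype with hKt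
  have hKtle : Kt ≤ H := by
    rintro _ ⟨a, -, rfl⟩
    exact a.2
  have hKtc : Nat.card Kt = M := by
    rw [← hK₀c]
    exact Nat.card_congr (Subgroup.equivMapOfInjective K₀ H.subtype H.subtype_injective).symm.toEquiv
  have hnt : ∀ u : V, u ≠ 0 → h u u = 0 → ∃ g ∈ Kt ⊓ vstab h u, g ≠ 1 := by
    intro u hu huu
    have hcu : Nat.card ↥(H ⊓ vstab h u) = r := by
      rw [card_vstab_eq hF S hV hH hfr htr hu huu, hr]
    haveI := finite_H (F := F) (V := V) (H ⊓ vstab h u)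
    haveI : Nontrivial ↥(H ⊓ vstab h u) := Finite.one_lt_card_iff_nontrivial.mp (by rw [hcu]; exact hr1)
    obtain ⟨g, hg⟩ := exists_ne (1 : ↥(H ⊓ vstab h u))
    have h1 : g ^ r = 1 := by
      rw [← hcu]
      exact pow_card_eq_one'
    have hg2 := Subgroup.mem_inf.mp g.2
    have h2 : (⟨g.1, hg2.1⟩ : H) ^ r = 1 := by
      apply Subtype.ext
      have := congrArg Subtype.val h1
      simpa using this
    have h3 := hK _ h2
    refine ⟨g.1, Subgroup.mem_inf.mpr ⟨⟨_, h3, rfl⟩, hg2.2⟩, fun hc' => hg (Subtype.ext hc')⟩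
  have hKle : Kt ≤ suGroup h := hKtle.trans hH
  have hx := hfr.ne_x S
  haveI := finite_H (F := F) (V := V) Kt
  have h5 := card_orbit_eq hF S hV hKle hfr (fun y hy hyy => trans_of_nt hF S hV hKle hnt hx hy hfr.hp.ee hyy)
  have h6 := orbit_stab hF hKle hx
  rw [h5, hKtc] at h6
  exact hdvd ⟨_, h6.symm⟩

end Cfsg.Agent.Lib.MinU3.Syl
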