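/-
The case of even characteristic without transvections.
-/
import Mathlib
import Cfsg.Agent.Lib.MinU3.Syl

set_option autoImplicit false
set_option linter.unusedSectionVars false
set_option linter.unusedVariables false
set_option linter.unusedSimpArgs false
set_option linter.style.haveILetI false

namespace Cfsg.Agent.Lib.MinU3.Ev

open Module Cfsg.Agent.Lib.MinU.Four Cfsg.Agent.Lib.MinU.Fld Cfsg.Agent.Lib.MinU.Sp Cfsg.Agent.Lib.MinU.Eich
open Cfsg.Agent.Lib.HermCount.Field
open Cfsg.Agent.Lib.Classical.HermBasic Cfsg.Agent.Lib.Classical.HermElem Cfsg.Agent.Lib.Classical.HermGen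
open Cfsg.Agent.Lib.Classical.HermBridge
open Cfsg.Agent.Lib.MinU3.Basic Cfsg.Agent.Lib.MinU3.Pts Cfsg.Agent.Lib.MinU3.Grp Cfsg.Agent.Lib.MinU3.Trans
open Cfsg.Agent.Lib.MinU3.Cnt Cfsg.Agent.Lib.MinU3.Ker Cfsg.Agent.Lib.MinU3.LC Cfsg.Agent.Lib.MinU3.Str
open Cfsg.Agent.Lib.MinU3.Line Cfsg.Agent.Lib.MinU3.Inv Cfsg.Agent.Lib.MinU3.Par Cfsg.Agent.Lib.MinU3.Syl
open scoped _root_.Classical LinearAlgebra.Projectivization

attribute [-simp] frobHom_apply

universe u v w

variable {F : Type u} [Field F] [Fintype F] {q : ℕ} (hF : Fintype.card F = q ^ 2)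

local notation "σ" => frobHom hF

variable {V : Type v} [AddCommGroup V] [Module F V] [FiniteDimensional F V] {h : V → V → F}
  (S : HForm (frobHom hF) h) (hV : finrank F V = 3)

variable {H : Subgroup (V ≃ₗ[F] V)} {x f c : V}

omit [Fintype F] [FiniteDimensional F V] in
theorem pow_eig {g : V ≃ₗ[F] V} {v : V} {a : F} (hg : g v = a • v) (j : ℕ) : (g ^ j) v = a ^ j • v := by
  induction j with
  | zero => simp
  | succ j ih =>
    rw [pow_succ']
    show g ((g ^ j) v) = _
    rw [ih, map_smul, hg, smul_smul, pow_succ]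

include S hV

/-- The second isotropic eigenvector. -/
theorem exists_w (hfr : Fr h x f c) {g : V ≃ₗ[F] V} (hg : g ∈ suGroup h) {l : F} (hl : l ≠ 0) (hgx : g x = l • x)
    (hN : l * σ l ≠ 1) (hρ : (σ l) ^ 2 ≠ l) : ∃ w, h w w = 0 ∧ h w x = 1 ∧ g w = (σ l)⁻¹ • w := by
  have hσ := invol_frob hF
  have hsl : σ l ≠ 0 := by simpa using hl
  have hiso : ∀ a b, h (g a) (g b) = h a b := fun a b => (mem_suGroup.mp hg).1 a b
  obtain ⟨κ₂, hκ₂⟩ := hfr.coeff_c S hσ hV hg hl hgx
  have e1 : h (g f) x = (σ l)⁻¹ := by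
    have := hiso f x
    rw [hgx, S.smul_right, hfr.hp.fe] at this
    field_simp
    linear_combination this
  have dec := hfr.decomp S hV (g f)
  rw [e1] at dec
  set α := h (g f) f with hα
  set ξ := h (g f) c / h c c with hξ
  set μ := (σ l)⁻¹ with hμ
  have hμ0 : μ ≠ 0 := inv_ne_zero hsl
  have h1 : μ - σ l / l ≠ 0 := by
    intro h0
    apply hρ
    rw [hμ] at h0
    field_simp at h0
    linear_combination -h0
  have h2 : μ - l ≠ 0 := by
    intro h0
    apply hN
    rw [hμ] at h0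
    field_simp at h0
    linear_combination -h0
  obtain ⟨γ, hγ⟩ : ∃ γ, γ * (μ - σ l / l) = ξ := ⟨ξ / (μ - σ l / l), div_mul_cancel₀ _ h1⟩
  obtain ⟨ε, hε⟩ : ∃ ε, ε * (μ - l) = α + γ * κ₂ := ⟨(α + γ * κ₂) / (μ - l), div_mul_cancel₀ _ h2⟩
  have hw : g (f + γ • c + ε • x) = μ • (f + γ • c + ε • x) := by
    rw [map_add, map_add, map_smul, map_smul, dec, hκ₂, hgx]
    have e2 : α • x + μ • f + ξ • c + γ • ((σ l / l) • c + κ₂ • x) + ε • l • x =
        (α + γ * κ₂ + ε * l) • x + μ • f + (ξ + γ * (σ l / l)) • c := by module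
    have e3 : α + γ * κ₂ + ε * l = μ * ε := by rw [← hε]; ring
    have e4 : ξ + γ * (σ l / l) = μ * γ := by rw [← hγ]; ring
    rw [e2, e3, e4]
    module
  set w := f + γ • c + ε • x with hwdef
  refine ⟨w, ?_, ?_, hw⟩
  · have e2 := hiso w w
    rw [hw, S.smul_left, S.smul_right] at e2
    have e3 : μ * σ μ ≠ 1 := by
      rw [hμ, map_inv₀, hσ.invol]
      intro h0
      apply hN
      field_simp at h0
      linear_combination -h0
    have e4 : (μ * σ μ - 1) * h w w = 0 := by linear_combination e2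
    exact (mul_eq_zero.mp e4).resolve_left (sub_ne_zero.mpr e3)
  · rw [hwdef]
    simp only [S.add_left, S.smul_left, hfr.hp.ee, hfr.hp.fe, hfr.cx]
    ring

/-- The isotropic eigenvectors. -/
theorem uniq_w (hfr : Fr h x f c) {g : V ≃ₗ[F] V} (hg : g ∈ suGroup h) {l : F} (hl : l ≠ 0) (hgx : g x = l • x)
    (hN : l * σ l ≠ 1) (hρ : (σ l) ^ 2 ≠ l) {w : V} (hww : h w w = 0) (hwx : h w x = 1) (hgw : g w = (σ l)⁻¹ • w) {z : V}
    (hzz : h z z = 0) {ν : F} (hgz : g z = ν • z) : (∃ a : F, z = a • x) ∨ ∃ a : F, z = a • w := by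
  have hσ := invol_frob hF
  have hsl : σ l ≠ 0 := by simpa using hl
  have hiso : ∀ a b, h (g a) (g b) = h a b := fun a b => (mem_suGroup.mp hg).1 a b
  have HP : IsHP h x w := ⟨hfr.hp.ee, hww, hwx⟩
  obtain ⟨c', hc', hcc'⟩ := exists_nonisotropic_perp2 S hσ (by omega) HP
  have fr : Fr h x w c' := ⟨HP, hc'.1, hc'.2, hcc'⟩
  obtain ⟨κ₃, hκ₃⟩ := fr.coeff_c S hσ hV hg hl hgx
  set μ := (σ l)⁻¹ with hμ
  have hsμ : σ μ ≠ 0 := by
    rw [hμ]
    simpa using hl
  have e0 : κ₃ = 0 := by
    have h1 := hiso c' w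
    rw [hgw, S.smul_right, fr.cf, hκ₃] at h1
    have h2 := (mul_eq_zero.mp h1).resolve_left hsμ
    simp only [S.add_left, S.smul_left, fr.cf, fr.xf S] at h2
    linear_combination h2
  rw [e0, zero_smul, add_zero] at hκ₃
  have h1 : μ - σ l / l ≠ 0 := by
    intro h0
    apply hρ
    rw [hμ] at h0
    field_simp at h0
    linear_combination -h0
  have h2 : μ - l ≠ 0 := by
    intro h0
    apply hN
    rw [hμ] at h0
    field_simp at h0
    linear_combination -h0
  have h3 : l - σ l / l ≠ 0 := by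
    intro h0
    apply hρ
    have h4 : l ^ 2 = σ l := by
      field_simp at h0
      linear_combination h0
    have h5 := congrArg σ h4
    rw [map_pow, hσ.invol] at h5
    exact h5
  have dec := fr.decomp S hV z
  set A := h z w with hA
  set B := h z x with hB
  set D := h z c' / h c' c' with hD
  have e1 : A • l • x + B • μ • w + D • (σ l / l) • c' = ν • (A • x + B • w + D • c') := by
    rw [← dec, ← hgz]
    conv_rhs => rw [dec]
    rw [map_add, map_add, map_smul, map_smul, map_smul, hgx, hgw, hκ₃]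
  have e2 := congrArg (fun v => h v w) e1
  have e3 := congrArg (fun v => h v x) e1
  have e4 := congrArg (fun v => h v c') e1
  simp only [S.add_left, S.smul_left, fr.hp.ee, fr.hp.ff, fr.hp.fe, fr.xf S, fr.cf, fr.cx, fr.xc S, fr.fc S] at e2 e3 e4
  have a1 : A * (l - ν) = 0 := by linear_combination e2
  have a2 : B * (μ - ν) = 0 := by linear_combination e3
  have a3 : D * h c' c' * (σ l / l - ν) = 0 := by linear_combination e4
  have hD0 : D = 0 := by
    by_contra hne
    have b1 : σ l / l = ν := sub_eq_zero.mp ((mul_eq_zero.mp a3).resolve_left (mul_ne_zero hne hcc'))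
    have b2 : A = 0 := by
      rw [← b1] at a1
      exact (mul_eq_zero.mp a1).resolve_right h3
    have b3 : B = 0 := by
      rw [← b1] at a2
      exact (mul_eq_zero.mp a2).resolve_right h1
    rw [b2, b3, zero_smul, zero_smul, zero_add, zero_add] at dec
    rw [dec, S.smul_left, S.smul_right] at hzz
    have hs : σ D ≠ 0 := by simpa using hne
    exact (mul_ne_zero hne (mul_ne_zero hs hcc')) hzz
  rw [hD0, zero_smul, add_zero] at dec
  by_cases hB0 : B = 0
  · left
    rw [hB0, zero_smul, add_zero] at dec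
    exact ⟨A, dec⟩
  · right
    have b1 : μ = ν := sub_eq_zero.mp ((mul_eq_zero.mp a2).resolve_left hB0)
    have b2 : A = 0 := by
      rw [← b1] at a1
      have : l - μ ≠ 0 := by
        intro h0
        apply h2
        linear_combination -h0
      exact (mul_eq_zero.mp a1).resolve_right this
    rw [b2, zero_smul, zero_add] at dec
    exact ⟨B, dec⟩

/-- **The case of even characteristic without transvections**. -/
theorem even_case (hH : H ≤ suGroup h) (hfr : Fr h x f c)
    (htr : ∀ y z : V, y ≠ 0 → z ≠ 0 → h y y = 0 → h z z = 0 → ∃ g ∈ H, ∃ b : F, g y = b • z)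
    (hq4 : 4 ≤ q) (hr : Nat.card ↥(H ⊓ vstab h x) = 1) (hI : Ig H x = ⊤) (hodd : Odd (Nat.card H)) : False := by
  have hσ := invol_frob hF
  haveI := finite_H (F := F) (V := V) H
  obtain ⟨u, hu⟩ := IsCyclic.exists_monoid_generator (α := Fˣ)
  have hall : ∀ n : ℕ, u ^ n = 1 → q ^ 2 - 1 ∣ n := by
    intro n hn
    have h1 : (⊤ : Subgroup Fˣ) = ⊤ := rfl
    have h2 := card_dvd_of_pow (⊤ : Subgroup Fˣ) (n := n) (by
      intro v _
      obtain ⟨j, rfl⟩ := hu v
      simp only
      rw [← pow_mul, mul_comm, pow_mul, hn, one_pow])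
    rw [Subgroup.card_top, card_units hF] at h2
    exact h2
  have hsq : 15 ≤ q ^ 2 - 1 := by
    have : 16 ≤ q ^ 2 := by nlinarith
    omega
  have hN : (u : F) * σ (u : F) ≠ 1 := by
    intro h0
    have h1 : u ^ (q + 1) = 1 := by
      apply pow_of_nmh hF
      show Nmh hF u = 1
      apply Units.ext
      rw [Nmh_val]
      exact h0
    have h2 := Nat.le_of_dvd (by omega) (hall _ h1)
    have e : q ^ 2 - 1 = (q + 1) * (q - 1) := by
      obtain ⟨t, rfl⟩ : ∃ t, q = t + 1 := ⟨q - 1, by omega⟩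
      have : (t + 1) ^ 2 = (t + 1 + 1) * t + 1 := by ring
      simp only [Nat.add_sub_cancel]
      omega
    rw [e] at h2
    have h3 : (q + 1) * 2 ≤ (q + 1) * (q - 1) := Nat.mul_le_mul_left _ (by omega)
    omega
  have hρ : (σ (u : F)) ^ 2 ≠ u := by
    intro h0
    have h1 : u ^ 3 = 1 := by
      apply (pow_of_rho hF _).1
      show Rhoh hF u = 1
      apply Units.ext
      rw [Rhoh_val, h0, div_self u.ne_zero]
      rfl
    have h2 := Nat.le_of_dvd (by omega) (hall _ h1)
    omega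
  have hu0 : (u : F) ≠ 0 := u.ne_zero
  obtain ⟨g, hg, hgu⟩ : u ∈ Ig H x := by
    rw [hI]
    exact Subgroup.mem_top u
  obtain ⟨w, hww, hwx, hgw⟩ := exists_w hF S hV hfr (hH hg) hu0 hgu hN hρ
  have hw0 : w ≠ 0 := by
    rintro rfl
    rw [S.zero_left] at hwx
    exact zero_ne_one hwx
  have hx := hfr.ne_x S
  -- all elements in the stabilizer are powers of `g`
  have hpow : ∀ k ∈ H, ∀ a : F, k x = a • x → ∃ j : ℕ, k = g ^ j := by
    intro k hk a ha
    have ha0 : a ≠ 0 := by
      rintro rfl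
      rw [zero_smul] at ha
      exact hx (k.map_eq_zero_iff.mp ha)
    obtain ⟨j, hj⟩ := hu (Units.mk0 a ha0)
    have hj' : (u : F) ^ j = a := by
      have := congrArg Units.val hj
      simpa using this
    refine ⟨j, ?_⟩
    have h1 : k * (g ^ j)⁻¹ ∈ H ⊓ vstab h x := by
      refine Subgroup.mem_inf.mpr ⟨mul_mem hk (inv_mem (pow_mem hg j)), mul_mem (hH hk) (inv_mem (hH (pow_mem hg j))), ?_⟩
      have e1 : (g ^ j) x = a • x := by
        rw [pow_eig hgu j, hj']
      have e2 : (g ^ j)⁻¹ x = a⁻¹ • x := by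
        apply (g ^ j).injective
        have : (g ^ j) ((g ^ j)⁻¹ x) = x := (g ^ j).apply_symm_apply x
        rw [this, map_smul, e1, smul_smul, inv_mul_cancel₀ ha0, one_smul]
      show k ((g ^ j)⁻¹ x) = x
      rw [e2, map_smul, ha, smul_smul, inv_mul_cancel₀ ha0, one_smul]
    have h2 : (⟨_, h1⟩ : ↥(H ⊓ vstab h x)) = 1 := by
      haveI : Subsingleton ↥(H ⊓ vstab h x) := (Nat.card_eq_one_iff_unique.mp hr).1
      exact Subsingleton.elim _ _
    have h3 : k * (g ^ j)⁻¹ = 1 := congrArg Subtype.val h2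
    exact mul_inv_eq_one.mp h3
  -- the element moving `x` to `w`
  obtain ⟨k, hk, b, hb⟩ := htr x w hx hw0 hfr.hp.ee hww
  have hb0 : b ≠ 0 := by
    rintro rfl
    rw [zero_smul] at hb
    exact hx (k.map_eq_zero_iff.mp hb)
  have hki : k⁻¹ w = b⁻¹ • x := by
    apply k.injective
    have : k (k⁻¹ w) = w := k.apply_symm_apply w
    rw [this, map_smul, hb, smul_smul, inv_mul_cancel₀ hb0, one_smul]
  have hg'x : (k⁻¹ * g * k) x = (σ (u : F))⁻¹ • x := by
    show k⁻¹ (g (k x)) = _
    rw [hb, map_smul, hgw, smul_smul, map_smul, hki, smul_smul]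
    congr 1
    field_simp
  obtain ⟨j, hj⟩ := hpow _ (mul_mem (mul_mem (inv_mem hk) hg) hk) _ hg'x
  have hkw : g (k w) = ((σ (u : F))⁻¹) ^ j • k w := by
    have e1 := pow_eig hgw j
    rw [← hj] at e1
    have e2 : (k⁻¹ * g * k) w = k⁻¹ (g (k w)) := rfl
    rw [e2] at e1
    apply k⁻¹.injective
    rw [e1, map_smul]
    congr 1
    symm
    exact k.symm_apply_apply w
  have hkww : h (k w) (k w) = 0 := by
    rw [(mem_suGroup.mp (hH hk)).1]
    exact hww
  have hne : ∀ e : F, x ≠ e • w := by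
    intro e he
    have h1 : h (e • w) x = h x x := by rw [← he]
    rw [S.smul_left, hwx, mul_one, hfr.hp.ee] at h1
    rw [h1, zero_smul] at he
    exact hx he
  have hkw0 : k w ≠ 0 := k.map_ne_zero_iff.mpr hw0
  rcases uniq_w hF S hV hfr (hH hg) hu0 hgu hN hρ hww hwx hgw hkww hkw with ⟨a, ha⟩ | ⟨a, ha⟩
  · -- `k` swaps the two points
    obtain ⟨m, hm⟩ := hodd
    have h1 : k ^ (2 * m + 1) = 1 := by
      have h2 := pow_card_eq_one' (x := (⟨k, hk⟩ : H))
      rw [hm] at h2
      have := congrArg Subtype.val h2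
      simpa using this
    have h2 : k = (k * k) ^ (m + 1) := by
      rw [← sq, ← pow_mul]
      have e : 2 * (m + 1) = 2 * m + 1 + 1 := by ring
      rw [e, pow_succ, h1, one_mul]
    have h3 : (k * k) x = (b * a) • x := by
      show k (k x) = _
      rw [hb, map_smul, ha, smul_smul]
    have h4 := pow_eig h3 (m + 1)
    rw [← h2, hb] at h4
    have h5 := congrArg (fun v => h v x) h4
    simp only [S.smul_left, hwx, hfr.hp.ee, mul_one, mul_zero] at h5
    exact hb0 h5
  · have ha0 : a ≠ 0 := by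
      rintro rfl
      rw [zero_smul] at ha
      exact hkw0 ha
    apply hne (b / a)
    apply k.injective
    rw [hb, map_smul, ha, smul_smul]
    congr 1
    field_simp

end Cfsg.Agent.Lib.MinU3.Ev
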