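/-
Arithmetic for the final cases.
-/
import Mathlib

set_option autoImplicit false
set_option linter.unusedSectionVars false
set_option linter.unusedVariables false
set_option linter.unusedSimpArgs false

namespace Cfsg.Agent.Lib.MinU3.Num

theorem num_q3 {n N : ℕ} (h1 : n ∣ 32) (h2 : n ≡ 1 [MOD 7]) (h3 : n * N = 7 * 32) : 2 ∣ N := by
  have h4 : n % 7 = 1 := h2
  obtain ⟨t, rfl⟩ : ∃ t, n = 7 * t + 1 := ⟨n / 7, by omega⟩
  have ht : t ≤ 4 := by
    have := Nat.le_of_dvd (by norm_num) h1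
    omega
  interval_cases t <;> first | (exfalso; revert h1; decide) | omega

theorem num_q8 {n N : ℕ} (h1 : n ∣ 1944) (h2 : n ≡ 1 [MOD 19]) (h3 : n * N = 19 * 1944) : 2 ∣ N := by
  have h4 : n % 19 = 1 := h2
  obtain ⟨t, rfl⟩ : ∃ t, n = 19 * t + 1 := ⟨n / 19, by omega⟩
  have ht : t ≤ 102 := by
    have := Nat.le_of_dvd (by norm_num) h1
    omega
  interval_cases t <;> first | (exfalso; revert h1; decide) | omega

theorem num_q9 {n N M : ℕ} (hM : M = 1080 ∨ M = 2160 ∨ M = 810 ∨ M = 1620) (h1 : n ∣ M) (h2 : n ≡ 1 [MOD 73])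
    (h3 : n * N = 73 * M) : 2 ∣ N := by
  have h4 : n % 73 = 1 := h2
  obtain ⟨t, rfl⟩ : ∃ t, n = 73 * t + 1 := ⟨n / 73, by omega⟩
  rcases hM with rfl | rfl | rfl | rfl
  · have ht : t ≤ 14 := by
      have := Nat.le_of_dvd (by norm_num) h1
      omega
    interval_cases t <;> first | (exfalso; revert h1; decide) | omega
  · have ht : t ≤ 29 := by
      have := Nat.le_of_dvd (by norm_num) h1
      omega
    interval_cases t <;> first | (exfalso; revert h1; decide) | omega
  · have ht : t ≤ 11 := by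
      have := Nat.le_of_dvd (by norm_num) h1
      omega
    interval_cases t <;> first | (exfalso; revert h1; decide) | omega
  · have ht : t ≤ 22 := by
      have := Nat.le_of_dvd (by norm_num) h1
      omega
    interval_cases t <;> first | (exfalso; revert h1; decide) | omega

theorem num_q11 {n N : ℕ} (h1 : n ∣ 11880) (h2 : n ≡ 1 [MOD 37]) (h3 : n * N = 37 * 11880) : 2 ∣ N ∨ N = 3 * 37 := by
  have h4 : n % 37 = 1 := h2
  obtain ⟨t, rfl⟩ : ∃ t, n = 37 * t + 1 := ⟨n / 37, by omega⟩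
  have ht : t ≤ 321 := by
    have := Nat.le_of_dvd (by norm_num) h1
    omega
  interval_cases t <;> first | (exfalso; revert h1; decide) | omega

/-- The arithmetic without transvections in odd characteristic. -/
theorem num_odd {q s cI cb δ e : ℕ} (hq3 : 3 ≤ q) (hodd : Odd q) (hq5 : q ≠ 5) (hs : s ≤ q) (hc : q ^ 2 - 1 ≤ cI * s)
    (hd1 : cI ∣ 3 * (q - 1)) (hd2 : cI ∣ q ^ 2 - 1) (hm : cI = cb * δ) (hδ : δ ∣ 6) (hce : cb * e = q - 1)
    (hW : 3 * e < q + 1 → (q + 1 - 2 * e) ∣ 4 * e) (he2 : 2 ∣ cI) (hs1 : 1 < s) (hsq : s ∣ q ^ 2) :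
    q = 11 ∧ cI = 30 ∧ s = 11 := by
  obtain ⟨t, rfl⟩ : ∃ t, q = t + 1 := ⟨q - 1, by omega⟩
  simp only [Nat.add_sub_cancel] at hd1 hce hW
  have e1 : (t + 1) ^ 2 - 1 = t * (t + 2) := by
    have : (t + 1) ^ 2 = t * (t + 2) + 1 := by ring
    omega
  rw [e1] at hc hd2
  have hcq : t + 1 ≤ cI := by
    by_contra hcon
    have h1 : cI ≤ t := by omega
    have h2 : cI * s ≤ t * (t + 1) := Nat.mul_le_mul h1 hs
    have h3 : t * (t + 1) < t * (t + 2) := Nat.mul_lt_mul_of_pos_left (by omega) (by omega)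
    omega
  obtain ⟨g, hg⟩ := hd1
  have hcb : 0 < cb := by
    rcases Nat.eq_zero_or_pos cb with h0 | h0
    · rw [h0, zero_mul] at hce
      omega
    · exact h0
  have hg2 : g ≤ 2 := by
    by_contra hcon
    have h1 : 3 ≤ g := by omega
    have h2 : (t + 1) * 3 ≤ cI * g := Nat.mul_le_mul hcq h1
    omega
  have he3 : 3 * e = δ * g := by
    apply Nat.eq_of_mul_eq_mul_left hcb
    calc cb * (3 * e) = 3 * (cb * e) := by ring
      _ = 3 * t := by rw [hce]
      _ = cI * g := hg
      _ = cb * (δ * g) := by rw [hm]; ring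
  have hδ6 : δ ≤ 6 := Nat.le_of_dvd (by norm_num) hδ
  have he12 : 3 * e ≤ 12 := by
    rw [he3]
    exact Nat.mul_le_mul hδ6 hg2
  have he1 : 1 ≤ e := by
    rcases Nat.eq_zero_or_pos e with h0 | h0
    · rw [h0, mul_zero] at hce
      omega
    · exact h0
  have h3q : 3 ∣ t + 2 := by
    by_contra hcon
    have hco : Nat.Coprime 3 (t + 2) := (Nat.Prime.coprime_iff_not_dvd Nat.prime_three).mpr hcon
    have h1 : cI ∣ t := by
      have h2 : cI ∣ Nat.gcd (3 * t) (t * (t + 2)) := Nat.dvd_gcd ⟨g, hg⟩ hd2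
      have h3 : Nat.gcd (3 * t) (t * (t + 2)) = t := by
        rw [mul_comm 3 t, Nat.gcd_mul_left, hco.gcd_eq_one, mul_one]
      rwa [h3] at h2
    have := Nat.le_of_dvd (by omega) h1
    omega
  have hq23 : t + 1 ≤ 23 := by
    by_contra hcon
    have h1 := hW (by omega)
    have h2 := Nat.le_of_dvd (by omega) h1
    omega
  obtain ⟨k, hk⟩ := hodd
  have ht1 : t ≤ 22 := by omega
  have ht2 : 2 ≤ t := by omega
  interval_cases t <;> try omega
  · -- `q = 11`
    have h1 : cI ∣ 30 := ⟨g, hg⟩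
    have h2 : cI ≤ 30 := Nat.le_of_dvd (by norm_num) h1
    have hcI : cI = 30 := by
      interval_cases cI <;> first | rfl | (exfalso; revert h1; decide) | omega
    refine ⟨rfl, hcI, ?_⟩
    interval_cases s <;> first | rfl | (exfalso; revert hsq; decide) | omega
  · -- `q = 17`
    exfalso
    have h1 := hW (by omega)
    have h2 : e ≤ 4 := by omega
    interval_cases e <;> first | (revert h1; decide) | omega
  · -- `q = 23`
    exfalso
    have h1 := hW (by omega)
    have h2 : e ≤ 4 := by omega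
    interval_cases e <;> first | (revert h1; decide) | omega

end Cfsg.Agent.Lib.MinU3.Num
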