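/-
A subgroup of index at most `q³` of `SU₃(q)` contains all the transvections, for `q ≥ 3`, `q ≠ 5`.
-/
import Mathlib
import Cfsg.Agent.Lib.MinU3.Ev
import Cfsg.Agent.Lib.MinU3.Num

set_option autoImplicit false
set_option linter.unusedSectionVars false
set_option linter.unusedVariables false
set_option linter.unusedSimpArgs false
set_option linter.style.haveILetI false

namespace Cfsg.Agent.Lib.MinU3.Main

open Module Cfsg.Agent.Lib.MinU.Four Cfsg.Agent.Lib.MinU.Fld Cfsg.Agent.Lib.MinU.Sp Cfsg.Agent.Lib.MinU.Eich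
open Cfsg.Agent.Lib.HermCount.Field
open Cfsg.Agent.Lib.Classical.HermBasic Cfsg.Agent.Lib.Classical.HermElem Cfsg.Agent.Lib.Classical.HermGen
open Cfsg.Agent.Lib.Classical.HermBridge
open Cfsg.Agent.Lib.MinU3.Basic Cfsg.Agent.Lib.MinU3.Pts Cfsg.Agent.Lib.MinU3.Grp Cfsg.Agent.Lib.MinU3.Trans
open Cfsg.Agent.Lib.MinU3.Cnt Cfsg.Agent.Lib.MinU3.Ker Cfsg.Agent.Lib.MinU3.LC Cfsg.Agent.Lib.MinU3.Str
open Cfsg.Agent.Lib.MinU3.Line Cfsg.Agent.Lib.MinU3.Inv Cfsg.Agent.Lib.MinU3.Par Cfsg.Agent.Lib.MinU3.Syl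
open Cfsg.Agent.Lib.MinU3.Ev Cfsg.Agent.Lib.MinU3.Num
open scoped _root_.Classical LinearAlgebra.Projectivization

attribute [-simp] frobHom_apply

universe u v w

variable {F : Type u} [Field F] [Fintype F] {q : ℕ} (hF : Fintype.card F = q ^ 2)

local notation "σ" => frobHom hF

section field

include hF

theorem char_even (hev : Even q) (hq : 2 ≤ q) : (2 : F) = 0 ∧ ∃ m : ℕ, q = 2 ^ m := by
  obtain ⟨p, m, hp, hqm, hch⟩ := exists_char hF
  haveI := hch
  have h1 : 2 ∣ p ^ m := by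
    rw [← hqm]
    exact hev.two_dvd
  have h2 : 2 ∣ p := Nat.prime_two.dvd_of_dvd_pow h1
  have h3 : p = 2 := ((Nat.prime_dvd_prime_iff_eq Nat.prime_two hp).mp h2).symm
  subst h3
  refine ⟨?_, m, hqm⟩
  have := CharP.cast_eq_zero F 2
  exact_mod_cast this

theorem two_ne_of_odd (hodd : Odd q) (hq : 2 ≤ q) : (2 : F) ≠ 0 := by
  intro h2
  obtain ⟨p, m, hp, hqm, hch⟩ := exists_char hF
  haveI := hch
  have hp2 : p ∣ 2 := by
    rw [← CharP.cast_eq_zero_iff F p]
    exact_mod_cast h2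
  have hp3 : p = 2 := (Nat.prime_dvd_prime_iff_eq hp Nat.prime_two).mp hp2
  subst hp3
  have hm : m ≠ 0 := by
    rintro rfl
    rw [pow_zero] at hqm
    omega
  rw [hqm] at hodd
  exact (Nat.not_even_iff_odd.mpr hodd) (Nat.even_pow.mpr ⟨even_two, hm⟩)

/-- The facts about a subgroup of the units. -/
theorem I_facts (I : Subgroup Fˣ) :
    Nat.card I = Nat.card (I.map (Nmh hF)) * Nat.card ↥(I ⊓ (Nmh hF).ker) ∧
    Nat.card ↥(I ⊓ (Nmh hF).ker) ∣ q + 1 ∧ Nat.card (I.map (Nmh hF)) ∣ q - 1 ∧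
    Nat.card I = Nat.card (I.map (Rhoh hF)) * Nat.card ↥(I ⊓ (Rhoh hF).ker) ∧
    Nat.card ↥(I ⊓ (Rhoh hF).ker) ∣ 3 ∧ (¬ 3 ∣ q + 1 → Nat.card ↥(I ⊓ (Rhoh hF).ker) = 1) ∧
    Nat.card I ∣ q ^ 2 - 1 := by
  have hq := one_le_q hF
  refine ⟨card_map_mul _ _, ?_, ?_, card_map_mul _ _, ?_, ?_, ?_⟩
  · apply card_dvd_of_pow
    intro u hu
    exact pow_of_nmh hF (Subgroup.mem_inf.mp hu).2
  · apply card_dvd_of_pow
    intro u hu
    obtain ⟨v, -, rfl⟩ := Subgroup.mem_map.mp hu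
    exact pow_of_norm hF hq v
  · apply card_dvd_of_pow
    intro u hu
    exact (pow_of_rho hF (Subgroup.mem_inf.mp hu).2).1
  · intro h3
    apply Nat.dvd_one.mp
    apply card_dvd_of_pow
    intro u hu
    obtain ⟨h1, h2⟩ := pow_of_rho hF (Subgroup.mem_inf.mp hu).2
    have h4 : u ^ (q + 1) = 1 := by
      apply Units.ext
      rw [Units.val_pow_eq_pow_val, pow_succ, h2, Units.val_one, ← pow_succ]
      have := congrArg Units.val h1
      rwa [Units.val_pow_eq_pow_val, Units.val_one] at this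
    have hco : Nat.Coprime 3 (q + 1) := (Nat.Prime.coprime_iff_not_dvd Nat.prime_three).mpr h3
    have h5 := Nat.Coprime.eq_one_of_dvd (Nat.Coprime.coprime_dvd_left (orderOf_dvd_of_pow_eq_one h1) hco)
      (orderOf_dvd_of_pow_eq_one h4)
    rw [pow_one]
    exact orderOf_eq_one_iff.mp h5
  · apply card_dvd_of_pow
    intro u _
    exact units_pow hF u

end field

variable {V : Type v} [AddCommGroup V] [Module F V] [FiniteDimensional F V] {h : V → V → F}
  (S : HForm (frobHom hF) h) (hV : finrank F V = 3)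

variable {H : Subgroup (V ≃ₗ[F] V)} {x f c : V}

include S hV

/-- The order of the stabilizer of a point. -/
theorem card_px (hH : H ≤ suGroup h) (hfr : Fr h x f c) :
    Nat.card ↥(H ⊓ pstab h x (hfr.ne_x S)) = Nat.card (Ig H x) * ((Ab hF S H x).card * (Sb hF S H x c).card) := by
  haveI := finite_H (F := F) (V := V) H
  rw [card_Hx H hH (hfr.ne_x S), card_R hF S hV H hH hfr]

/-- `a = 2`, `q` even. -/
theorem case_two_even (hq3 : 3 ≤ q) (hH : H ≤ suGroup h) (hfr : Fr h x f c)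
    (htr : ∀ y z : V, y ≠ 0 → z ≠ 0 → h y y = 0 → h z z = 0 → ∃ g ∈ H, ∃ b : F, g y = b • z)
    (hcard : Nat.card H = (q ^ 3 + 1) * (Nat.card (Ig H x) * ((Ab hF S H x).card * (Sb hF S H x c).card)))
    (hbig : q ^ 2 - 1 ≤ Nat.card (Ig H x) * ((Ab hF S H x).card * (Sb hF S H x c).card))
    (ha : (Ab hF S H x).card = 2) (hev : Even q) : False := by
  obtain ⟨h2F, m, hm⟩ := char_even hF hev (by omega)
  obtain ⟨hs4, hs3⟩ := even_two hF S h2F hfr ha
  have hsd := Sb_dvd hF S hV (H := H) hfr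
  have hcN := Nm_dvd hF S hV hH hfr.hp.ee
  have hcR := Rho_dvd hF S hV hH hfr
  obtain ⟨f1, f2, f3, f4, f5, f6, f7⟩ := I_facts hF (Ig H x)
  set cI := Nat.card (Ig H x) with hcI
  set s := (Sb hF S H x c).card with hs
  set cN := Nat.card ((Ig H x).map (Nmh hF)) with hcN'
  set cR := Nat.card ((Ig H x).map (Rhoh hF)) with hcR'
  set δ := Nat.card ↥(Ig H x ⊓ (Nmh hF).ker) with hδ
  set δ' := Nat.card ↥(Ig H x ⊓ (Rhoh hF).ker) with hδ'
  rw [ha] at hcN hbig hcard
  have hq4 : 4 ≤ q := by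
    obtain ⟨k, hk⟩ := hev
    omega
  have hsq : 16 ≤ q ^ 2 := by nlinarith
  have hs0 : s ≠ 0 := by
    intro h0
    rw [h0] at hsd
    have := Nat.eq_zero_of_zero_dvd hsd
    omega
  have hcN1 : cN = 1 := Nat.dvd_one.mp hcN
  have hδle : δ ≤ q + 1 := Nat.le_of_dvd (by omega) f2
  have hδ'le : δ' ≤ 3 := Nat.le_of_dvd (by norm_num) f5
  have hs124 : s = 1 ∨ s = 2 ∨ s = 4 := by
    rw [hm, ← pow_mul] at hsd
    obtain ⟨j, -, hj⟩ := (Nat.dvd_prime_pow Nat.prime_two).mp hsd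
    have hj2 : j ≤ 2 := by
      by_contra hcon
      have : 2 ^ 3 ≤ 2 ^ j := Nat.pow_le_pow_right (by norm_num) (by omega)
      omega
    interval_cases j <;> omega
  rcases hs124 with h1 | h1 | h1
  · rw [h1] at hbig
    rw [f1, hcN1, one_mul] at hbig
    have e : q ^ 2 - 1 = (q + 1) * (q - 1) := by
      obtain ⟨t, rfl⟩ : ∃ t, q = t + 1 := ⟨q - 1, by omega⟩
      have : (t + 1) ^ 2 = (t + 1 + 1) * t + 1 := by ring
      simp only [Nat.add_sub_cancel]
      omega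
    rw [e] at hbig
    have h5 : (q + 1) * (q - 1) ≤ (q + 1) * 2 := by
      calc _ ≤ δ * (2 * 1) := hbig
        _ ≤ (q + 1) * (2 * 1) := Nat.mul_le_mul_right _ hδle
        _ = _ := by ring
    have h6 := Nat.le_of_mul_le_mul_left h5 (by omega)
    omega
  · rw [h1] at hbig hcR
    have hcR1 : cR = 1 := Nat.dvd_one.mp hcR
    rw [f4, hcR1, one_mul] at hbig
    have : δ' * (2 * 2) ≤ 3 * (2 * 2) := Nat.mul_le_mul_right _ hδ'le
    omega
  · rw [h1] at hbig hcR hcard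
    have h31 := hs3 (by omega)
    have hcR3 : cR ≤ 3 := Nat.le_of_dvd (by norm_num) hcR
    have hcI9 : cI ≤ 9 := by
      rw [f4]
      calc cR * δ' ≤ 3 * 3 := Nat.mul_le_mul hcR3 hδ'le
        _ = 9 := rfl
    have hq8' : q ^ 2 - 1 ≤ 72 := by
      have : cI * (2 * 4) ≤ 9 * (2 * 4) := Nat.mul_le_mul_right _ hcI9
      omega
    have hq8 : q = 8 := by
      have hqle : q ≤ 8 := by
        by_contra hcon
        have : 81 ≤ q ^ 2 := by nlinarith
        omega
      obtain ⟨k, hk⟩ := hev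
      omega
    have e1 : q ^ 3 + 1 = 513 := by rw [hq8]; norm_num
    have e2 : q ^ 2 - 1 = 63 := by rw [hq8]; norm_num
    rw [e2] at f7 hbig
    have hcI99 : cI = 9 := by
      have h5 : cI ≤ 9 := hcI9
      have h6 : 8 ≤ cI := by omega
      interval_cases hc : cI
      · exfalso
        revert f7
        decide
      · rfl
    rw [e1, hcI99] at hcard
    have hpx := card_px hF S hV hH hfr
    rw [ha, ← hs, h1, ← hcI, hcI99] at hpx
    exact syl_finish hF S hV hH hfr htr (ρ := 19) (M := 1944) (by norm_num) (by rw [hq8]; norm_num)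
      (by rw [hpx]; norm_num) (by rw [hcard]) (by norm_num) (fun n N h1 h2 h3 => num_q8 h1 h2 h3)

/-- `a = 3`, `q = 9`. -/
theorem case_three (hq9 : q = 9) (hH : H ≤ suGroup h) (hfr : Fr h x f c)
    (htr : ∀ y z : V, y ≠ 0 → z ≠ 0 → h y y = 0 → h z z = 0 → ∃ g ∈ H, ∃ b : F, g y = b • z)
    (hcard : Nat.card H = (q ^ 3 + 1) * (Nat.card (Ig H x) * ((Ab hF S H x).card * (Sb hF S H x c).card)))
    (hbig : q ^ 2 - 1 ≤ Nat.card (Ig H x) * ((Ab hF S H x).card * (Sb hF S H x c).card))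
    (ha : (Ab hF S H x).card = 3) : False := by
  have hsd := Sb_dvd hF S hV (H := H) hfr
  have hcN := Nm_dvd hF S hV hH hfr.hp.ee
  have hcR := Rho_dvd hF S hV hH hfr
  have hfull := full_Ab hF S (H := H) hfr
  have hpx := card_px hF S hV hH hfr
  obtain ⟨f1, f2, f3, f4, f5, f6, f7⟩ := I_facts hF (Ig H x)
  set cI := Nat.card (Ig H x) with hcI
  set s := (Sb hF S H x c).card with hs
  set cN := Nat.card ((Ig H x).map (Nmh hF)) with hcN'
  set cR := Nat.card ((Ig H x).map (Rhoh hF)) with hcR'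
  set δ := Nat.card ↥(Ig H x ⊓ (Nmh hF).ker) with hδ
  set δ' := Nat.card ↥(Ig H x ⊓ (Rhoh hF).ker) with hδ'
  rw [ha] at hcN hbig hcard hfull hpx
  have e1 : q ^ 3 + 1 = 730 := by rw [hq9]; norm_num
  have e2 : q ^ 2 - 1 = 80 := by rw [hq9]; norm_num
  have e3 : q ^ 2 = 81 := by rw [hq9]; norm_num
  have e4 : q + 1 = 10 := by omega
  rw [e1] at hcard
  rw [e2] at hbig f7
  rw [e3] at hsd hfull
  rw [e4] at f2 f6
  have hδ'1 : δ' = 1 := f6 (by norm_num)
  rw [hδ'1, mul_one] at f4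
  have hcNle : cN ≤ 2 := Nat.le_of_dvd (by norm_num) hcN
  have hδle : δ ≤ 10 := Nat.le_of_dvd (by norm_num) f2
  have hs5 : s = 1 ∨ s = 3 ∨ s = 9 ∨ s = 27 ∨ s = 81 := by
    have h81 : (81 : ℕ) = 3 ^ 4 := by norm_num
    rw [h81] at hsd
    obtain ⟨j, hj, hj2⟩ := (Nat.dvd_prime_pow Nat.prime_three).mp hsd
    interval_cases j <;> omega
  have hcR2 : cI ∣ s - 1 := by
    rw [f4]
    exact hcR
  have hcle : cI ≤ 20 := by
    rw [f1]
    calc cN * δ ≤ 2 * 10 := Nat.mul_le_mul hcNle hδle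
      _ = 20 := rfl
  -- the possible orders of the stabilizers
  have hT : cI * (3 * s) = 108 ∨ cI * (3 * s) = 216 ∨ cI * (3 * s) = 81 ∨ cI * (3 * s) = 162 := by
    rcases hs5 with h1 | h1 | h1 | h1 | h1
    · rw [h1] at hbig
      omega
    · rw [h1] at hbig hcR2
      have : cI ≤ 2 := Nat.le_of_dvd (by norm_num) hcR2
      omega
    · rw [h1] at hbig hcR2 ⊢
      have h2 : cI ≤ 8 := Nat.le_of_dvd (by norm_num) hcR2
      have h3 : 3 ≤ cI := by omega
      interval_cases cI <;> first | omega | (exfalso; revert hcR2; decide)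
    · rw [h1] at hbig hcR2 ⊢
      have h2 : cI ≤ 20 := hcle
      have h3 : 1 ≤ cI := by omega
      interval_cases cI <;> first | omega | (exfalso; revert hcR2; decide) | (exfalso; revert f7; decide)
    · exfalso
      have := hfull h1 (by omega)
      omega
  have hM : (10 * (cI * (3 * s))) = 1080 ∨ (10 * (cI * (3 * s))) = 2160 ∨ (10 * (cI * (3 * s))) = 810 ∨
      (10 * (cI * (3 * s))) = 1620 := by omega
  refine syl_finish hF S hV hH hfr htr (ρ := 73) (M := 10 * (cI * (3 * s))) (by norm_num) (by omega) ?_ ?_ ?_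
    (fun n N h1 h2 h3 => num_q9 hM h1 h2 h3)
  · rw [hpx]
    omega
  · rw [hcard]
    ring
  · omega

/-- `a = 1`, `q` even. -/
theorem case_one_even (hq3 : 3 ≤ q) (hH : H ≤ suGroup h) (hfr : Fr h x f c)
    (htr : ∀ y z : V, y ≠ 0 → z ≠ 0 → h y y = 0 → h z z = 0 → ∃ g ∈ H, ∃ b : F, g y = b • z)
    (hcard : Nat.card H = (q ^ 3 + 1) * (Nat.card (Ig H x) * ((Ab hF S H x).card * (Sb hF S H x c).card)))
    (hbig : q ^ 2 - 1 ≤ Nat.card (Ig H x) * ((Ab hF S H x).card * (Sb hF S H x c).card))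
    (ha : (Ab hF S H x).card = 1) (hev : Even q) : False := by
  obtain ⟨h2F, m, hm⟩ := char_even hF hev (by omega)
  have hs1 := even_one hF S h2F hfr ha
  rw [ha, hs1, mul_one, mul_one] at hbig hcard
  obtain ⟨f1, f2, f3, f4, f5, f6, f7⟩ := I_facts hF (Ig H x)
  have hq2 : 1 ≤ q ^ 2 - 1 := by
    have : 9 ≤ q ^ 2 := by nlinarith
    omega
  have hcI : Nat.card (Ig H x) = q ^ 2 - 1 := le_antisymm (Nat.le_of_dvd hq2 f7) hbig
  have hr : Nat.card ↥(H ⊓ vstab h x) = 1 := by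
    rw [card_R hF S hV H hH hfr, ha, hs1]
  have hI : Ig H x = ⊤ := by
    apply Subgroup.eq_top_of_card_eq
    rw [hcI, card_units hF]
  rw [hcI] at hcard
  have hq4 : 4 ≤ q := by
    obtain ⟨k, hk⟩ := hev
    omega
  refine even_case hF S hV hH hfr htr hq4 hr hI ?_
  rw [hcard]
  have h1 : Odd (q ^ 3 + 1) := (hev.pow_of_ne_zero (by norm_num)).add_one
  have h2 : Odd (q ^ 2 - 1) := by
    have h3 : Even (q ^ 2) := hev.pow_of_ne_zero (by norm_num)
    have h4 : 1 ≤ q ^ 2 := by omega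
    exact Nat.Even.sub_odd h4 h3 odd_one
  exact h1.mul h2

/-- `a = 1`, `q` odd. -/
theorem case_one_odd (hq3 : 3 ≤ q) (hq5 : q ≠ 5) (hH : H ≤ suGroup h) (hfr : Fr h x f c)
    (htr : ∀ y z : V, y ≠ 0 → z ≠ 0 → h y y = 0 → h z z = 0 → ∃ g ∈ H, ∃ b : F, g y = b • z)
    (hZ : ∀ g ∈ suGroup h, (∃ ω : F, ∀ v, g v = ω • v) → g ∈ H)
    (hcard : Nat.card H = (q ^ 3 + 1) * (Nat.card (Ig H x) * ((Ab hF S H x).card * (Sb hF S H x c).card)))
    (hbig : q ^ 2 - 1 ≤ Nat.card (Ig H x) * ((Ab hF S H x).card * (Sb hF S H x c).card))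
    (ha : (Ab hF S H x).card = 1) (hodd : Odd q) : False := by
  have hσ := invol_frob hF
  haveI := finite_H (F := F) (V := V) H
  have h2F := two_ne_of_odd hF hodd (by omega)
  have hx := hfr.ne_x S
  have hpx := card_px hF S hV hH hfr
  rw [ha, one_mul] at hbig hcard hpx
  -- an involution
  have h2H : 2 ∣ Nat.card H := by
    rw [hcard]
    have : Even (q ^ 3 + 1) := (hodd.pow).add_one
    exact Dvd.dvd.mul_right this.two_dvd _
  haveI : Fact (Nat.Prime 2) := ⟨Nat.prime_two⟩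
  obtain ⟨t₀, ht₀⟩ := exists_prime_orderOf_dvd_card' 2 h2H
  have ht2' : t₀ * t₀ = 1 := by
    rw [← sq, ← ht₀]
    exact pow_orderOf_eq_one t₀
  have ht1' : t₀ ≠ 1 := by
    rintro rfl
    rw [orderOf_one] at ht₀
    omega
  set t := t₀.1 with ht
  have htH : t ∈ H := t₀.2
  have ht2 : t * t = 1 := congrArg Subtype.val ht2'
  have ht1 : t ≠ 1 := fun hc => ht1' (Subtype.ext hc)
  obtain ⟨u, f', c', fr', htu, htf, htc⟩ := inv_frame hF S hV h2F (hH htH) ht2 ht1
  have hu := fr'.ne_x S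
  obtain ⟨k, hk, b, hb⟩ := htr x u hx hu hfr.hp.ee fr'.hp.ee
  have hb0 : b ≠ 0 := by
    rintro rfl
    rw [zero_smul] at hb
    exact hx (k.map_eq_zero_iff.mp hb)
  have hAu : (Ab hF S H u).card = 1 := by
    rw [← card_Ab_eq hF S hV hH hfr.hp.ee fr'.hp.ee hu hk hb0 hb, ha]
  have hIu := Ig_eq hF S hV hH hk hb0 hb
  obtain ⟨f1, f2, f3, f4, f5, f6, f7⟩ := I_facts hF (Ig H x)
  -- `-1` is an eigenvalue
  have hneg : (-1 : Fˣ) ∈ Ig H x := by
    rw [hIu]
    refine ⟨t, htH, ?_⟩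
    rw [htu]
    simp
  have h2I : 2 ∣ Nat.card (Ig H x) := by
    have hneg1 : (-1 : Fˣ) ≠ 1 := by
      intro hc
      have h3 := congrArg Units.val hc
      simp only [Units.val_neg, Units.val_one] at h3
      apply h2F
      linear_combination -h3
    have ho : orderOf (-1 : Fˣ) = 2 := orderOf_eq_prime (by simp) hneg1
    have := orderOf_dvd_natCard (⟨-1, hneg⟩ : Ig H x)
    rwa [Subgroup.orderOf_mk, ho] at this
  obtain ⟨e, he⟩ := f3
  have hW : 3 * e < q + 1 → (q + 1 - 2 * e) ∣ 4 * e := by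
    intro h3
    apply W_case hF S hV hH hodd h2F (by omega) fr' htH ht2 htu htf htc htr hAu (e := e) ?_ h3
    rw [← hIu]
    exact he.symm
  set cI := Nat.card (Ig H x) with hcI
  set s := (Sb hF S H x c).card with hs
  set cN := Nat.card ((Ig H x).map (Nmh hF)) with hcN'
  set δ := Nat.card ↥(Ig H x ⊓ (Nmh hF).ker) with hδ
  by_cases hs1 : s = 1
  · rw [hs1, mul_one] at hbig hcard hpx
    have hq2 : 1 ≤ q ^ 2 - 1 := by
      have : 9 ≤ q ^ 2 := by nlinarith
      omega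
    have hcI2 : cI = q ^ 2 - 1 := le_antisymm (Nat.le_of_dvd hq2 f7) hbig
    have e0 : q ^ 2 - 1 = (q + 1) * (q - 1) := by
      obtain ⟨t, rfl⟩ : ∃ t, q = t + 1 := ⟨q - 1, by omega⟩
      have : (t + 1) ^ 2 = (t + 1 + 1) * t + 1 := by ring
      simp only [Nat.add_sub_cancel]
      omega
    have hδle : δ ≤ q + 1 := Nat.le_of_dvd (by omega) f2
    have hcNq : q - 1 ≤ cN := by
      have h5 : (q + 1) * (q - 1) ≤ (q + 1) * cN := by
        rw [← e0, ← hcI2, f1, mul_comm]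
        exact Nat.mul_le_mul_right _ hδle
      exact Nat.le_of_mul_le_mul_left h5 (by omega)
    have hcN0 : 0 < cN := Nat.card_pos
    have he1 : e = 1 := by
      have h6 : cN ≤ q - 1 := Nat.le_of_dvd (by omega) ⟨e, he⟩
      have h7 : cN = q - 1 := by omega
      have h5 : cN * e = cN * 1 := by
        rw [mul_one, ← he, h7]
      exact Nat.eq_of_mul_eq_mul_left hcN0 h5
    have h6 := hW (by omega)
    rw [he1] at h6
    have hq3' : q = 3 := by
      have h7 : q + 1 - 2 * 1 ≤ 4 * 1 := Nat.le_of_dvd (by norm_num) h6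
      obtain ⟨k, hk⟩ := hodd
      omega
    have e1 : q ^ 3 + 1 = 28 := by rw [hq3']; norm_num
    have e2 : q ^ 2 - 1 = 8 := by rw [hq3']; norm_num
    rw [e2] at hcI2
    rw [e1, hcI2] at hcard
    rw [hcI2] at hpx
    exact syl_finish hF S hV hH hfr htr (ρ := 7) (M := 32) (by norm_num) (by omega) (by rw [hpx]; norm_num)
      (by rw [hcard]) (by norm_num) (fun n N h1 h2 h3 => num_q3 h1 h2 h3)
  · have hs0 : s ≠ 0 := by
      rw [hs]
      exact Finset.card_ne_zero.mpr ⟨0, (sg_Sb hF S H hfr).zero⟩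
    have hs2 : 1 < s := by omega
    obtain ⟨η, hη, hη0⟩ := Finset.exists_mem_ne (s := Sb hF S H x c) hs2 (0 : F)
    have hsq := odd_card hF S hfr ha hη hη0
    obtain ⟨d1, d2⟩ := odd_dvd hF S hV hH hfr ha hη hη0 (by omega)
    have hsd := Sb_dvd hF S hV (H := H) hfr
    obtain ⟨q11, c30, s11'⟩ := num_odd hq3 hodd hq5 hsq hbig d1 f7 f1 d2 he.symm hW h2I hs2 hsd
    have s11 : s = 11 := s11'
    have e1 : q ^ 3 + 1 = 1332 := by rw [q11]; norm_num
    rw [e1, c30, s11] at hcard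
    rw [c30, s11] at hpx
    have hc2 : Nat.card H = 37 * 11880 := by rw [hcard]
    obtain ⟨Y, hY, n, h1, h2, h3⟩ := syl_data hF S hV H (ρ := 37) (by norm_num) hc2 (by norm_num)
    rcases num_q11 h1 h2 h3 with h4 | h4
    · exact syl_even hF S hV hH hfr htr (ρ := 37) (by norm_num) (by omega) (by rw [hpx]; norm_num)
        (Y : Subgroup H) hY h4
    · refine syl_burn hF S hV hH hfr htr hZ (by rw [q11]; norm_num) (ρ := 37) (M := 11880) (r := 11) (by norm_num)
        (by norm_num) hc2 ?_ (by norm_num) (by norm_num) (by rw [e1]; norm_num) Y hY h4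
      rw [card_R hF S hV H hH hfr, ha, ← hs, s11]

/-- **The main theorem**: a subgroup of index at most `q³` contains all transvections. -/
theorem main_abs (hq3 : 3 ≤ q) (hq5 : q ≠ 5) (hH : H ≤ suGroup h)
    (hZ : ∀ g ∈ suGroup h, (∃ ω : F, ∀ v, g v = ω • v) → g ∈ H)
    (hlarge : (q ^ 2 - 1) * (q ^ 3 + 1) ≤ Nat.card H) (hfr : Fr h x f c) : (Ab hF S H x).card = q := by
  by_contra hne
  have hx := hfr.ne_x S
  have htr : ∀ y z : V, y ≠ 0 → z ≠ 0 → h y y = 0 → h z z = 0 → ∃ g ∈ H, ∃ b : F, g y = b • z :=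
    fun y z hy hz hyy hzz => trans_of_large hF S hV (by omega) H hH hlarge hy hz hyy hzz
  have hcard := card_main hF S hV hH hfr (fun y hy hyy => htr x y hx hy hfr.hp.ee hyy)
  have hbig : q ^ 2 - 1 ≤ Nat.card (Ig H x) * ((Ab hF S H x).card * (Sb hF S H x c).card) := by
    rw [hcard, mul_comm] at hlarge
    exact Nat.le_of_mul_le_mul_left hlarge (by positivity)
  have had := Ab_dvd_q hF S hV (H := H) hfr.hp.ee
  obtain ⟨w, hw⟩ := had
  set a := (Ab hF S H x).card with ha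
  have ha0 : a ≠ 0 := by
    intro h0
    rw [h0, zero_mul] at hw
    omega
  have hw0 : w ≠ 0 := by
    intro h0
    rw [h0, mul_zero] at hw
    omega
  have hw1 : w ≠ 1 := by
    intro h0
    rw [h0, mul_one] at hw
    exact hne hw.symm
  by_cases ha1 : a = 1
  · rcases Nat.even_or_odd q with hev | hodd
    · exact case_one_even hF S hV hq3 hH hfr htr hcard hbig ha1 hev
    · exact case_one_odd hF S hV hq3 hq5 hH hfr htr hZ hcard hbig ha1 hodd
  · obtain ⟨l1, l2⟩ := line_case hF S hV hH hfr htr ha.symm hw (by omega) (by omega)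
    rcases Nat.even_or_odd q with hev | hodd
    · exact case_two_even hF S hV hq3 hH hfr htr hcard hbig (l1 hev) hev
    · have hao : Odd a := Nat.Odd.of_mul_left (hw ▸ hodd)
      have hwo : Odd w := Nat.Odd.of_mul_right (hw ▸ hodd)
      have h3 : a = 3 ∧ w = 3 := by
        obtain ⟨a', ha'⟩ := hao
        obtain ⟨w', hw'⟩ := hwo
        obtain ⟨a'', ha''⟩ : ∃ a'', a - 2 = a'' + 1 := ⟨a - 3, by omega⟩
        obtain ⟨w'', hw''⟩ : ∃ w'', w - 2 = w'' + 1 := ⟨w - 3, by omega⟩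
        rw [ha'', hw''] at l2
        have h4 : a'' = 0 := by
          by_contra hc
          have : 1 ≤ a'' := by omega
          nlinarith
        have h5 : w'' = 0 := by
          by_contra hc
          have : 1 ≤ w'' := by omega
          nlinarith
        omega
      have hq9 : q = 9 := by
        rw [hw, h3.1, h3.2]
      exact case_three hF S hV hq9 hH hfr htr hcard hbig h3.1

end Cfsg.Agent.Lib.MinU3.Main
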