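/-
The minimal index of a subgroup of `PSU₃(q)`.
-/
import Mathlib
import Cfsg.Agent.Lib.MinU3.Main
import Cfsg.Agent.Lib.Classical.HermOrders

set_option autoImplicit false
set_option linter.unusedSectionVars false
set_option linter.unusedVariables false
set_option linter.unusedSimpArgs false
set_option linter.style.haveILetI false

namespace Cfsg.Agent.Lib.MinU3.Top

open Module Cfsg.Agent.Lib.MinU.Four Cfsg.Agent.Lib.MinU.Fld Cfsg.Agent.Lib.MinU.Sp Cfsg.Agent.Lib.MinU.Eich
open Cfsg.Agent.Lib.HermCount.Field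
open Cfsg.Agent.Lib.Classical.HermBasic Cfsg.Agent.Lib.Classical.HermElem Cfsg.Agent.Lib.Classical.HermGen
open Cfsg.Agent.Lib.Classical.HermBridge Cfsg.Agent.Lib.Classical.HermOrders Cfsg.Agent.Lib.Classical.HermSimple
open Cfsg.Agent.Lib.MinU3.Basic Cfsg.Agent.Lib.MinU3.Pts Cfsg.Agent.Lib.MinU3.Grp Cfsg.Agent.Lib.MinU3.Trans
open Cfsg.Agent.Lib.MinU3.Cnt Cfsg.Agent.Lib.MinU3.Ker Cfsg.Agent.Lib.MinU3.LC Cfsg.Agent.Lib.MinU3.Str
open Cfsg.Agent.Lib.MinU3.Line Cfsg.Agent.Lib.MinU3.Inv Cfsg.Agent.Lib.MinU3.Par Cfsg.Agent.Lib.MinU3.Syl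
open Cfsg.Agent.Lib.MinU3.Main
open scoped _root_.Classical LinearAlgebra.Projectivization

attribute [-simp] frobHom_apply

universe u v w

variable {F : Type u} [Field F] [Fintype F] {q : ℕ} (hF : Fintype.card F = q ^ 2)

local notation "σ" => frobHom hF

variable (F q) in
/-- The natural map to `PSU`. -/
noncomputable def toPSU : suGroup (Cfsg.hermForm 3 F q) →* Cfsg.PSU 3 F q :=
  (QuotientGroup.mk' _).comp (suEquiv 3 q).symm.toMonoidHom

theorem toPSU_surj : Function.Surjective (toPSU F q) := by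
  rw [toPSU, MonoidHom.coe_comp]
  exact (QuotientGroup.mk'_surjective _).comp (suEquiv 3 q).symm.surjective

theorem ker_toPSU : (toPSU F q).ker = Subgroup.center (suGroup (Cfsg.hermForm 3 F q)) := by
  ext g
  rw [MonoidHom.mem_ker]
  constructor
  · intro hg
    have h1 : (suEquiv 3 q).symm g ∈ Subgroup.center (Cfsg.SU 3 F q) := by
      have : (QuotientGroup.mk' (Subgroup.center (Cfsg.SU 3 F q))) ((suEquiv 3 q).symm g) = 1 := hg
      exact (QuotientGroup.eq_one_iff _).mp this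
    rw [Subgroup.mem_center_iff] at h1 ⊢
    intro k
    have h2 := h1 ((suEquiv 3 q).symm k)
    apply (suEquiv 3 q).symm.injective
    rw [map_mul, map_mul, h2]
  · intro hg
    have h1 : (suEquiv 3 q).symm g ∈ Subgroup.center (Cfsg.SU 3 F q) := by
      rw [Subgroup.mem_center_iff] at hg ⊢
      intro k
      have h2 := hg (suEquiv 3 q k)
      apply (suEquiv 3 q).injective
      rw [map_mul, map_mul, MulEquiv.apply_symm_apply, h2]
    exact (QuotientGroup.eq_one_iff _).mpr h1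

include hF in
theorem card_G (hq : 1 ≤ q) :
    Nat.card (suGroup (Cfsg.hermForm 3 F q)) = q ^ 3 * ((q ^ 2 - 1) * (q ^ 3 + 1)) := by
  have h1 := card_SU hF 3 (by norm_num)
  rw [Nat.card_congr (suEquiv 3 q).toEquiv] at h1
  simp only [Finset.prod_range_succ, Finset.prod_range_zero, one_mul] at h1
  have e1 : Even 0 := by decide
  have e2 : ¬ Even 1 := by decide
  have e3 : Even 2 := by decide
  simp only [e1, e2, e3, if_true, if_false] at h1
  apply Nat.eq_of_mul_eq_mul_left (by omega : 0 < q + 1)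
  rw [h1]
  norm_num
  ring

include hF in
/-- **The upper bound**. -/
theorem upper (hq : 3 ≤ q) (h5 : q ≠ 5) (K : Subgroup (Cfsg.PSU 3 F q)) (hK : K ≠ ⊤) : q ^ 3 + 1 ≤ K.index := by
  by_contra hcon
  have hle : K.index ≤ q ^ 3 := by omega
  have S := hform hF 3
  have hσ := invol_frob hF
  have hV : finrank F (Fin 3 → F) = 3 := Module.finrank_fin_fun F
  set G := suGroup (Cfsg.hermForm 3 F q) with hG
  haveI : Finite G := finite_H (F := F) (V := Fin 3 → F) _
  set P : Subgroup G := K.comap (toPSU F q) with hP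
  set H : Subgroup ((Fin 3 → F) ≃ₗ[F] (Fin 3 → F)) := P.map G.subtype with hH
  have hHG : H ≤ G := by
    rintro _ ⟨a, -, rfl⟩
    exact a.2
  have hmem : ∀ k : G, k.1 ∈ H → toPSU F q k ∈ K := by
    rintro k ⟨a, ha, hak⟩
    have : a = k := Subtype.ext hak
    rw [← this]
    exact ha
  have hcH : Nat.card H = Nat.card P :=
    Nat.card_congr (Subgroup.equivMapOfInjective P G.subtype G.subtype_injective).symm.toEquiv
  have hidx : P.index = K.index := Subgroup.index_comap_of_surjective K toPSU_surj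
  have hlarge : (q ^ 2 - 1) * (q ^ 3 + 1) ≤ Nat.card H := by
    rw [hcH]
    have h1 := Subgroup.card_mul_index P
    rw [card_G hF (by omega), hidx] at h1
    by_contra hlt
    push Not at hlt
    have h2 : Nat.card P * K.index ≤ Nat.card P * q ^ 3 := Nat.mul_le_mul_left _ hle
    have h3 : Nat.card P * q ^ 3 < (q ^ 2 - 1) * (q ^ 3 + 1) * q ^ 3 :=
      Nat.mul_lt_mul_of_pos_right hlt (by positivity)
    have h4 : q ^ 3 * ((q ^ 2 - 1) * (q ^ 3 + 1)) = (q ^ 2 - 1) * (q ^ 3 + 1) * q ^ 3 := by ring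
    omega
  have hZ : ∀ g ∈ G, (∃ ω : F, ∀ v, g v = ω • v) → g ∈ H := by
    rintro g hg ⟨ω, hω⟩
    refine ⟨⟨g, hg⟩, ?_, rfl⟩
    show toPSU F q ⟨g, hg⟩ ∈ K
    have h1 : (⟨g, hg⟩ : G) ∈ (toPSU F q).ker := by
      rw [ker_toPSU, Subgroup.mem_center_iff]
      intro k
      apply Subtype.ext
      ext1 v
      show k.1 (g v) = g (k.1 v)
      rw [hω, hω, map_smul]
    rw [MonoidHom.mem_ker] at h1
    rw [h1]
    exact one_mem _
  -- transvections
  have hall : ∀ y : Fin 3 → F, y ≠ 0 → Cfsg.hermForm 3 F q y y = 0 → ∀ l ∈ Lam hF, (E S y 0 l).1 ∈ H := by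
    intro y hy hyy l hl
    obtain ⟨f', c', fr'⟩ := exists_fr hF S hV hy hyy
    have h1 := main_abs hF S hV hq h5 hHG hZ hlarge fr'
    have h2 : Ab hF S H y = Lam hF := by
      apply Finset.eq_of_subset_of_card_le
      · intro m hm
        exact ((mem_Ab hF S).mp hm).1
      · rw [h1, card_Lam hF]
    rw [← h2] at hl
    exact ((mem_Ab hF S).mp hl).2
  obtain ⟨l, hl, hl0⟩ := exists_lam_ne hF
  obtain ⟨x, hx, hxx⟩ := exists_isotropic S hσ (by omega : 2 ≤ finrank F (Fin 3 → F))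
  set z₀ : G := E S x 0 l with hz₀
  haveI : IsSimpleGroup (Cfsg.PSU 3 F q) := isSimpleGroup_PSU hF 3 (by norm_num) (by omega)
  set N := Subgroup.normalClosure ({toPSU F q z₀} : Set (Cfsg.PSU 3 F q)) with hN
  have hNK : N ≤ K := by
    rw [hN, Subgroup.normalClosure, Subgroup.closure_le]
    intro a ha
    obtain ⟨b, hb, hab⟩ := Group.mem_conjugatesOfSet_iff.mp ha
    rw [Set.mem_singleton_iff] at hb
    subst hb
    obtain ⟨c, hc⟩ := isConj_iff.mp hab
    obtain ⟨g, rfl⟩ := toPSU_surj c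
    rw [← hc, ← map_inv, ← map_mul, ← map_mul]
    apply hmem
    have e1 := E_conj (S := S) (val_Z hF S hxx hl) g
    rw [map_zero] at e1
    rw [hz₀, e1]
    exact hall _ (g.1.map_ne_zero_iff.mpr hx) (by rw [g.2.1, hxx]; ) l hl
  haveI hNn : N.Normal := Subgroup.normalClosure_normal
  rcases IsSimpleGroup.eq_bot_or_eq_top_of_normal N hNn with h1 | h1
  · -- the transvection would be central
    have h2 : toPSU F q z₀ ∈ N := Subgroup.subset_normalClosure (Set.mem_singleton _)
    rw [h1, Subgroup.mem_bot] at h2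
    have h3 : z₀ ∈ Subgroup.center G := by
      rw [← ker_toPSU, MonoidHom.mem_ker]
      exact h2
    obtain ⟨a, ha⟩ := scalar_of_mem_center S hσ (by omega : 2 ≤ finrank F (Fin 3 → F)) h3
    obtain ⟨f', c', fr'⟩ := exists_fr hF S hV hx hxx
    have e1 := ha f'
    rw [hz₀, Fr.E_z S (val_Z hF S hxx hl), fr'.hp.fe] at e1
    have e2 := congrArg (fun v => Cfsg.hermForm 3 F q v f') e1
    simp only [S.add_left, S.smul_left, fr'.hp.ff, fr'.xf S] at e2
    apply hl0
    linear_combination e2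
  · apply hK
    rw [← top_le_iff, ← h1]
    exact hNK

include hF in
/-- **The index is attained**. -/
theorem attained (hq : 3 ≤ q) : ∃ K : Subgroup (Cfsg.PSU 3 F q), K.index = q ^ 3 + 1 := by
  have S := hform hF 3
  have hσ := invol_frob hF
  have hV : finrank F (Fin 3 → F) = 3 := Module.finrank_fin_fun F
  set G := suGroup (Cfsg.hermForm 3 F q) with hG
  haveI : Finite G := finite_H (F := F) (V := Fin 3 → F) _
  obtain ⟨x, hx, hxx⟩ := exists_isotropic S hσ (by omega : 2 ≤ finrank F (Fin 3 → F))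
  obtain ⟨f', c', fr'⟩ := exists_fr hF S hV hx hxx
  set P : Subgroup G := (pstab (Cfsg.hermForm 3 F q) x hx).subgroupOf G with hP
  have hcen : Subgroup.center G ≤ P := by
    intro z hz
    obtain ⟨a, ha⟩ := scalar_of_mem_center S hσ (by omega : 2 ≤ finrank F (Fin 3 → F)) hz
    rw [hP, Subgroup.mem_subgroupOf]
    exact ⟨z.2, a, ha x⟩
  refine ⟨P.map (toPSU F q), ?_⟩
  have h1 : (P.map (toPSU F q)).index = P.index := by
    rw [Subgroup.index_map, MonoidHom.range_eq_top.mpr toPSU_surj, Subgroup.index_top, mul_one]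
    congr 1
    apply sup_eq_left.mpr
    rw [ker_toPSU]
    exact hcen
  rw [h1]
  have h2 := Subgroup.index_mul_card P
  have h3 := orbit_stab hF (le_refl G) hx
  have h4 : Nat.card (MulAction.orbit G (Projectivization.mk F x hx)) = q ^ 3 + 1 := by
    refine card_orbit_eq hF S hV (le_refl G) fr' ?_
    intro y hy hyy
    obtain ⟨g, hg⟩ := exists_su_map S hσ (by omega) hx hy hxx hyy
    exact ⟨g.1, g.2, 1, by rw [hg, one_smul]⟩
  rw [h4] at h3
  have h5 : Nat.card P = Nat.card ↥(G ⊓ pstab (Cfsg.hermForm 3 F q) x hx) := by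
    apply Nat.card_congr
    refine ⟨fun g => ⟨g.1.1, Subgroup.mem_inf.mpr ⟨g.1.2, g.2⟩⟩,
      fun g => ⟨⟨g.1, (Subgroup.mem_inf.mp g.2).1⟩, (Subgroup.mem_inf.mp g.2).2⟩, ?_, ?_⟩
    · intro g
      rfl
    · intro g
      rfl
  rw [h5, ← h3] at h2
  haveI := finite_H (F := F) (V := Fin 3 → F) (G ⊓ pstab (Cfsg.hermForm 3 F q) x hx)
  exact Nat.eq_of_mul_eq_mul_right Nat.card_pos h2

end Cfsg.Agent.Lib.MinU3.Top
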